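import Cfsg.Agent.Lib.ExtraspecialLarge.RootReflection

/-!
# Certificates in the reflection calculus

Boolean checkers, to be evaluated by the kernel, for word identities (by repeated deletion of a matching pair)
and for derivations of equalities between root elements, with their soundness.
-/

set_option autoImplicit false

namespace CfsgLib.ExtraspecialLarge.RootRefl

variable {G : Type*} [Group G] {n : ℕ} {nb : ℕ → List ℕ} {s : ℕ → G}

/-- all letters are below `n` -/
def okW (n : ℕ) (w : List ℕ) : Bool := w.all fun i => decide (i < n)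

lemma okW_iff {w : List ℕ} : okW n w = true ↔ ∀ i ∈ w, i < n := by simp [okW]

lemma wp_append (u v : List ℕ) : wp s (u ++ v) = wp s u * wp s v := by simp [wp]

lemma wp_cons (i : ℕ) (v : List ℕ) : wp s (i :: v) = s i * wp s v := by simp [wp]

lemma wp_nil : wp s [] = 1 := by simp [wp]

lemma wp_singleton (i : ℕ) : wp s [i] = s i := by simp [wp]

lemma wp_reverse (hs : Cox n nb s) : ∀ {w : List ℕ}, okW n w = true → wp s w.reverse = (wp s w)⁻¹
  | [], _ => by simp [wp_nil]
  | i :: w, h => by
    rw [okW_iff] at h
    have hw : okW n w = true := okW_iff.2 fun j hj => h j (List.mem_cons_of_mem _ hj)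
    have hi : (s i)⁻¹ = s i := inv_eq_of_mul_eq_one_right (hs.sq i (h i (List.mem_cons_self)))
    rw [List.reverse_cons, wp_append, wp_reverse hs hw, wp_singleton, wp_cons, mul_inv_rev, hi]

lemma wp_flatten : ∀ L : List (List ℕ), wp s L.flatten = (L.map (wp s)).prod
  | [] => by simp [wp_nil]
  | a :: L => by simp [wp_append, wp_flatten L]

lemma wp_replicate (k : ℕ) (w : List ℕ) : wp s (List.replicate k w).flatten = wp s w ^ k := by
  simp [wp_flatten]

lemma Rep.track (hg : Graph n nb) (hs : Cox n nb s) {v : List ℕ} {x : G} (h : Rep n nb s v x) :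
    ∀ {w : List ℕ}, okW n w = true →
      Rep n nb s (RootRefl.track nb n w v) (wp s w * x * (wp s w)⁻¹)
  | [], _ => by simpa [RootRefl.track, wp_nil] using h
  | i :: w, hw => by
    rw [okW_iff] at hw
    have hi := hw i List.mem_cons_self
    have hw' : okW n w = true := okW_iff.2 fun j hj => hw j (List.mem_cons_of_mem _ hj)
    have := (Rep.track hg hs h hw').act hg hs hi
    have hinv : (s i)⁻¹ = s i := inv_eq_of_mul_eq_one_right (hs.sq i hi)
    have e : wp s (i :: w) * x * (wp s (i :: w))⁻¹ = s i * (wp s w * x * (wp s w)⁻¹) * s i := by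
      rw [wp_cons, mul_inv_rev, hinv]; group
    rw [e]; exact this

/-- the element of a positive root (`1` on other vectors) -/
noncomputable def rootElt (n : ℕ) (nb : ℕ → List ℕ) (s : ℕ → G) (v : List ℕ) : G :=
  open Classical in if h : ∃ x, Rep n nb s v x then h.choose else 1

/-- the element of the reflection in the root `w (α_i)` given by `p = (w, i)` -/
def rootWord (p : List ℕ × ℕ) : List ℕ := p.1 ++ p.2 :: p.1.reverse

/-- the vector of `(w, i)` -/
def rootVec (nb : ℕ → List ℕ) (n : ℕ) (p : List ℕ × ℕ) : List ℕ := track nb n p.1 (unitVec n p.2)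

/-- validity of a root name -/
def okR (n : ℕ) (p : List ℕ × ℕ) : Bool := okW n p.1 && decide (p.2 < n)

lemma Rep.rootElt_eq (hg : Graph n nb) (hs : Cox n nb s) {v : List ℕ} {x : G} (h : Rep n nb s v x) :
    rootElt n nb s v = x := by
  unfold rootElt
  rw [dif_pos ⟨x, h⟩]
  exact Rep.unique hg hs (Exists.choose_spec (⟨x, h⟩ : ∃ x, Rep n nb s v x)) h

/-- `v` is a positive root -/
def IsRoot (n : ℕ) (nb : ℕ → List ℕ) (s : ℕ → G) (v : List ℕ) : Prop := ∃ x, Rep n nb s v x

lemma IsRoot.rep (hg : Graph n nb) (hs : Cox n nb s) {v : List ℕ} (h : IsRoot n nb s v) :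
    Rep n nb s v (rootElt n nb s v) := by
  obtain ⟨x, hx⟩ := h; rwa [hx.rootElt_eq hg hs]

lemma rootWord_rep (hg : Graph n nb) (hs : Cox n nb s) {p : List ℕ × ℕ} (h : okR n p = true) :
    Rep n nb s (rootVec nb n p) (wp s (rootWord p)) := by
  simp only [okR, Bool.and_eq_true, decide_eq_true_eq] at h
  have := (Rep.base (n := n) (nb := nb) (s := s) p.2 h.2).track hg hs h.1
  have e : wp s (rootWord p) = wp s p.1 * s p.2 * (wp s p.1)⁻¹ := by
    simp only [rootWord]; rw [wp_append, wp_cons, wp_reverse hs h.1]; group
  rw [e]; exact this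

lemma rootVec_isRoot (hg : Graph n nb) (hs : Cox n nb s) {p : List ℕ × ℕ} (h : okR n p = true) :
    IsRoot n nb s (rootVec nb n p) := ⟨_, rootWord_rep hg hs h⟩

lemma wp_rootWord (hg : Graph n nb) (hs : Cox n nb s) {p : List ℕ × ℕ} (h : okR n p = true) :
    wp s (rootWord p) = rootElt n nb s (rootVec nb n p) :=
  ((rootWord_rep hg hs h).rootElt_eq hg hs).symm

lemma rootElt_unitVec (hg : Graph n nb) (hs : Cox n nb s) {i : ℕ} (hi : i < n) :
    rootElt n nb s (unitVec n i) = s i := (Rep.base i hi).rootElt_eq hg hs

lemma IsRoot.track (hg : Graph n nb) (hs : Cox n nb s) {v : List ℕ} (h : IsRoot n nb s v)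
    {w : List ℕ} (hw : okW n w = true) : IsRoot n nb s (RootRefl.track nb n w v) :=
  ⟨_, (h.rep hg hs).track hg hs hw⟩

lemma rootElt_track (hg : Graph n nb) (hs : Cox n nb s) {v : List ℕ} (h : IsRoot n nb s v)
    {w : List ℕ} (hw : okW n w = true) :
    rootElt n nb s (RootRefl.track nb n w v) = wp s w * rootElt n nb s v * (wp s w)⁻¹ :=
  ((h.rep hg hs).track hg hs hw).rootElt_eq hg hs

lemma rootElt_sq (hg : Graph n nb) (hs : Cox n nb s) {v : List ℕ} (h : IsRoot n nb s v) :
    rootElt n nb s v * rootElt n nb s v = 1 := by
  obtain ⟨x, hx⟩ := h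
  rw [hx.rootElt_eq hg hs]
  induction hx with
  | base i hi => exact hs.sq i hi
  | @up v x i hi _ _ ih =>
    calc s i * x * s i * (s i * x * s i) = s i * x * (s i * s i) * x * s i := by group
      _ = s i * (x * x) * s i := by rw [hs.sq i hi]; group
      _ = 1 := by rw [ih, mul_one, hs.sq i hi]

/-- two root elements commute: `q` moved into `p`'s frame is orthogonal to the simple root -/
def orthB (nb : ℕ → List ℕ) (n : ℕ) (p q : List ℕ × ℕ) : Bool :=
  let v := track nb n p.1.reverse (rootVec nb n q)
  decide (2 * cf v p.2 = nsum nb v p.2)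

lemma orth_commute (hg : Graph n nb) (hs : Cox n nb s) {p q : List ℕ × ℕ} (hp : okR n p = true)
    (hq : okR n q = true) (h : orthB nb n p q = true) :
    Commute (rootElt n nb s (rootVec nb n p)) (rootElt n nb s (rootVec nb n q)) := by
  have hp' := hp
  simp only [okR, Bool.and_eq_true, decide_eq_true_eq] at hp
  simp only [orthB, decide_eq_true_eq] at h
  have hrev : okW n p.1.reverse = true := by
    rw [okW_iff] at hp ⊢
    intro j hj; exact hp.1 j (List.mem_reverse.1 hj)
  have hq' := (rootVec_isRoot (s := s) hg hs hq)
  have h1 := ((hq'.track hg hs hrev).rep hg hs).good hg hs p.2 hp.2 |>.1 h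
  rw [rootElt_track hg hs hq' hrev, wp_reverse hs hp.1] at h1
  rw [← wp_rootWord hg hs hp', rootWord, wp_append, wp_cons, wp_reverse hs hp.1]
  set g := wp s p.1
  set y := rootElt n nb s (rootVec nb n q)
  have hi := hs.sq p.2 hp.2
  calc g * (s p.2 * g⁻¹) * y
      = g * s p.2 * (g⁻¹ * y * (g⁻¹)⁻¹) * g⁻¹ := by group
    _ = g * s p.2 * (s p.2 * (g⁻¹ * y * (g⁻¹)⁻¹) * s p.2) * g⁻¹ := by rw [h1]
    _ = g * (s p.2 * s p.2) * g⁻¹ * y * g * s p.2 * g⁻¹ := by group
    _ = y * (g * (s p.2 * g⁻¹)) := by rw [hi]; group

/-! ### deletion certificates -/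

/-- repeatedly delete letters at positions `p` and `p + l + 1` carrying equal reflections -/
def delCheck (nb : ℕ → List ℕ) (n : ℕ) : List ℕ → List (ℕ × ℕ) → Bool
  | w, [] => w == []
  | w, (p, l) :: cs =>
    match w.drop p with
    | [] => false
    | i :: rest =>
      match rest.drop l with
      | [] => false
      | j :: tl =>
        decide (track nb n (rest.take l) (unitVec n j) = unitVec n i) &&
          delCheck nb n (w.take p ++ rest.take l ++ tl) cs

theorem delCheck_sound (hg : Graph n nb) (hs : Cox n nb s) : ∀ {cs : List (ℕ × ℕ)} {w : List ℕ},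
    okW n w = true → delCheck nb n w cs = true → wp s w = 1
  | [], w, _, h => by
    simp only [delCheck, beq_iff_eq] at h
    subst h; exact wp_nil
  | (p, l) :: cs, w, hok, h => by
    simp only [delCheck] at h
    split at h
    · simp at h
    · next i rest hd =>
      split at h
      · simp at h
      · next j tl hd2 =>
        simp only [Bool.and_eq_true, decide_eq_true_eq] at h
        obtain ⟨hv, hrec⟩ := h
        have hw : w = w.take p ++ i :: (rest.take l ++ j :: tl) := by
          rw [← hd2, List.take_append_drop, ← hd, List.take_append_drop]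
        have hmem : ∀ k, k ∈ w.take p ++ i :: (rest.take l ++ j :: tl) → k < n := by
          rw [← hw]; exact okW_iff.1 hok
        have hB : okW n (rest.take l) = true := okW_iff.2 fun k hk => hmem k (by simp [hk])
        have hi : i < n := hmem i (by simp)
        have hj : j < n := hmem j (by simp)
        have hok' : okW n (w.take p ++ rest.take l ++ tl) = true := by
          refine okW_iff.2 fun k hk => ?_
          simp only [List.mem_append] at hk
          rcases hk with (hk | hk) | hk <;> exact hmem k (by simp [hk])
        have hr := (Rep.base (n := n) (nb := nb) (s := s) j hj).track hg hs hB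
        rw [hv] at hr
        have key := Rep.unique hg hs hr (Rep.base i hi)
        have hrec' := delCheck_sound hg hs hok' hrec
        rw [hw]
        simp only [wp_append, wp_cons] at hrec' ⊢
        set A := wp s (w.take p)
        set B := wp s (rest.take l)
        calc A * (s i * (B * (s j * wp s tl)))
            = A * ((s i * (B * s j * B⁻¹)) * B) * wp s tl := by group
          _ = A * B * wp s tl := by rw [key, hs.sq i hi, one_mul]
          _ = 1 := hrec'

/-! ### derivations of equalities of root elements -/

/-- an entry: two roots, a simple reflection (`≥ n`: none) and a chain of earlier entries (`true`: reversed) -/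
structure Entry where
  lhs : List ℕ
  rhs : List ℕ
  by_ : ℕ
  path : List (ℕ × Bool)

/-- follow a chain of earlier entries from `cur`, returning the other end -/
def chainEnd (env : List Entry) (bound : ℕ) : List ℕ → List (ℕ × Bool) → Option (List ℕ)
  | cur, [] => some cur
  | cur, (k, b) :: ps =>
    match env[k]? with
    | none => none
    | some e =>
      if k < bound && (cur == if b then e.rhs else e.lhs) then
        chainEnd env bound (if b then e.lhs else e.rhs) ps
      else none

/-- the start of a chain -/
def chainStart (env : List Entry) : List (ℕ × Bool) → Option (List ℕ)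
  | [] => none
  | (k, b) :: _ => (env[k]?).map fun e => if b then e.rhs else e.lhs

/-- check of entry number `k` -/
def entryOK (nb : ℕ → List ℕ) (n : ℕ) (env : List Entry) (k : ℕ) (e : Entry) : Bool :=
  match chainStart env e.path with
  | none => false
  | some a =>
    match chainEnd env k a e.path with
    | none => false
    | some b =>
      if e.by_ < n then (e.lhs == act nb n e.by_ a) && (e.rhs == act nb n e.by_ b)
      else (e.lhs == a) && (e.rhs == b)

/-- check all entries after the first `m` -/
def envOK (nb : ℕ → List ℕ) (n : ℕ) (env : List Entry) (m : ℕ) : Bool :=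
  (List.range env.length).all fun k =>
    decide (k < m) || match env[k]? with
      | none => false
      | some e => entryOK nb n env k e

/-- the two roots of an entry have the same element -/
def Entry.Holds (n : ℕ) (nb : ℕ → List ℕ) (s : ℕ → G) (e : Entry) : Prop :=
  IsRoot n nb s e.lhs ∧ IsRoot n nb s e.rhs ∧ rootElt n nb s e.lhs = rootElt n nb s e.rhs

lemma Entry.Holds.symm' {e : Entry} (h : e.Holds n nb s) (b : Bool) :
    IsRoot n nb s (if b then e.rhs else e.lhs) ∧ IsRoot n nb s (if b then e.lhs else e.rhs) ∧
      rootElt n nb s (if b then e.rhs else e.lhs) = rootElt n nb s (if b then e.lhs else e.rhs) := by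
  cases b
  · exact h
  · exact ⟨h.2.1, h.1, h.2.2.symm⟩

lemma chainEnd_sound {env : List Entry} {bound : ℕ}
    (H : ∀ k e, k < bound → env[k]? = some e → e.Holds n nb s) :
    ∀ {ps : List (ℕ × Bool)} {cur b : List ℕ}, IsRoot n nb s cur → chainEnd env bound cur ps = some b →
      IsRoot n nb s b ∧ rootElt n nb s cur = rootElt n nb s b
  | [], cur, b, hc, h => by
    simp only [chainEnd, Option.some.injEq] at h
    subst h; exact ⟨hc, rfl⟩
  | (k, fl) :: ps, cur, b, hc, h => by
    simp only [chainEnd] at h
    split at h
    · simp at h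
    · next e he =>
      obtain ⟨hcond, hrest⟩ :
          (k < bound ∧ cur = if fl then e.rhs else e.lhs) ∧
            chainEnd env bound (if fl then e.lhs else e.rhs) ps = some b := by
        cases fl <;> simpa using h
      obtain ⟨h1, h2, h3⟩ := (H k e hcond.1 he).symm' fl
      obtain ⟨h4, h5⟩ := chainEnd_sound H h2 hrest
      exact ⟨h4, by rw [hcond.2, h3, h5]⟩

theorem envOK_sound (hg : Graph n nb) (hs : Cox n nb s) {env : List Entry} {m : ℕ}
    (hseed : ∀ (k : ℕ) (e : Entry), k < m → env[k]? = some e → e.Holds n nb s)
    (h : envOK nb n env m = true) : ∀ (k : ℕ) (e : Entry), env[k]? = some e → e.Holds n nb s := by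
  intro k
  induction k using Nat.strong_induction_on with
  | _ k IH =>
  intro e he
  by_cases hk : k < m
  · exact hseed k e hk he
  simp only [envOK, List.all_eq_true, List.mem_range] at h
  have hlen : k < env.length := (List.getElem?_eq_some_iff.1 he).1
  have := h k hlen
  rw [he] at this
  simp only [hk, decide_false, Bool.false_or] at this
  unfold entryOK at this
  split at this
  · simp at this
  · next a ha =>
    split at this
    · simp at this
    · next b hb =>
      have hroot : IsRoot n nb s a := by
        cases hp : e.path with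
        | nil => simp [hp, chainStart] at ha
        | cons q ps =>
          obtain ⟨q, fl⟩ := q
          rw [hp] at ha hb
          simp only [chainStart, Option.map_eq_some_iff] at ha
          obtain ⟨e', he', rfl⟩ := ha
          simp only [chainEnd, he'] at hb
          have hqk : q < k := by cases fl <;> simp at hb <;> omega
          exact ((IH q hqk e' he').symm' fl).1
      obtain ⟨hbR, hab⟩ := chainEnd_sound (fun q e' hq he' => IH q hq e' he') hroot hb
      split at this
      · next hby =>
        simp only [Bool.and_eq_true, beq_iff_eq] at this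
        obtain ⟨h1, h2⟩ := this
        have ra := (hroot.rep hg hs).act hg hs hby
        have rb := (hbR.rep hg hs).act hg hs hby
        rw [← h1] at ra; rw [← h2] at rb
        exact ⟨⟨_, ra⟩, ⟨_, rb⟩, by rw [ra.rootElt_eq hg hs, rb.rootElt_eq hg hs, hab]⟩
      · simp only [Bool.and_eq_true, beq_iff_eq] at this
        rw [Entry.Holds, this.1, this.2]
        exact ⟨hroot, hbR, hab⟩

end CfsgLib.ExtraspecialLarge.RootRefl
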