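import Mathlib
import Cfsg.Agent.Lib.ExtraspecialLarge.RootReflectionCert

/-!
# Lifting simply-laced Coxeter generators through central extensions

If `σ : Γ →* G` has central kernel and the images satisfy simply-laced Coxeter relations along a tree, then, after
enlarging the centre, lifts can be chosen which are involutions satisfying the braid relations of the tree.
-/

set_option autoImplicit false

namespace CfsgLib.ExtraspecialLarge.CentralLift

open RootRefl

universe u v

variable {Γ : Type u} {G : Type v} [Group Γ] [Group G]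

lemma comm_ker {σ : Γ →* G} (hc : σ.ker ≤ Subgroup.center Γ) {z : Γ} (hz : σ z = 1) (y : Γ) : z * y = y * z :=
  ((Subgroup.mem_center_iff.1 (hc hz)) y).symm

/-- adjust lifts along a tree so that the braid relations hold -/
lemma exists_braided {σ : Γ →* G} (hsurj : Function.Surjective σ) (hc : σ.ker ≤ Subgroup.center Γ)
    (g : ℕ → G) (par : ℕ → ℕ) :
    ∀ m : ℕ, (∀ i, 0 < i → i < m → par i < i) →
      (∀ i, 0 < i → i < m → g (par i) * g i * g (par i) = g i * g (par i) * g i) →
      ∃ e : ℕ → Γ, (∀ i, σ (e i) = g i) ∧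
        ∀ i, 0 < i → i < m → e (par i) * e i * e (par i) = e i * e (par i) * e i
  | 0, _, _ => by
    choose e he using hsurj
    exact ⟨fun i => e (g i), fun i => he _, fun i _ h => absurd h (Nat.not_lt_zero i)⟩
  | m + 1, hpar, hbr => by
    obtain ⟨e, he, hb⟩ := exists_braided hsurj hc g par m (fun i h h' => hpar i h (by omega))
      (fun i h h' => hbr i h (by omega))
    by_cases hm : m = 0
    · exact ⟨e, he, fun i h h' => by omega⟩
    set w := (e m * e (par m) * e m)⁻¹ * (e (par m) * e m * e (par m)) with hw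
    have hw1 : σ w = 1 := by
      rw [hw]; simp only [map_mul, map_inv, he]
      rw [hbr m (Nat.pos_of_ne_zero hm) (Nat.lt_succ_self m), inv_mul_cancel]
    refine ⟨Function.update e m (e m * w), ?_, ?_⟩
    · intro i
      by_cases hi : i = m
      · subst hi; simp [he, hw1]
      · simp [hi, he]
    · intro i h0 hi
      have hp : par i ≠ m := by have := hpar i h0 hi; omega
      by_cases him : i = m
      · subst him
        simp only [Function.update_self, Function.update_of_ne hp]
        have k1 : ∀ y, y * w = w * y := fun y => (comm_ker hc hw1 y).symm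
        have k2 : e (par i) * e i * e (par i) = e i * e (par i) * e i * w := by rw [hw]; group
        calc e (par i) * (e i * w) * e (par i) = e (par i) * e i * (w * e (par i)) := by group
          _ = e (par i) * e i * e (par i) * w := by rw [← k1]; group
          _ = e i * e (par i) * (e i * w) * w := by rw [k2]; group
          _ = e i * e (par i) * (w * e i) * w := by rw [k1 (e i)]
          _ = e i * (e (par i) * w) * (e i * w) := by group
          _ = e i * (w * e (par i)) * (e i * w) := by rw [k1 (e (par i))]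
          _ = _ := by group
      · simp only [Function.update_of_ne him, Function.update_of_ne hp]
        exact hb i h0 (by omega)

/-- braided lifts have equal squares -/
lemma sq_eq {x y : Γ} (hb : x * y * x = y * x * y) (hx : x * x ∈ Subgroup.center Γ) :
    x * x = y * y := by
  have h1 : (x * y) * x * (x * y)⁻¹ = y := by rw [mul_inv_eq_iff_eq_mul, hb]; group
  calc x * x = x * x * ((x * y) * (x * y)⁻¹) := by group
    _ = (x * x * (x * y)) * (x * y)⁻¹ := by group
    _ = ((x * y) * (x * x)) * (x * y)⁻¹ := by rw [Subgroup.mem_center_iff.1 hx (x * y)]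
    _ = ((x * y) * x * (x * y)⁻¹) * ((x * y) * x * (x * y)⁻¹) := by group
    _ = y * y := by rw [h1]

/-- adjoining a square root of the inverse of a central element of finite order -/
theorem exists_sqrt [Finite Γ] (σ : Γ →* G) (hc : σ.ker ≤ Subgroup.center Γ) {q : Γ} (hq : σ q = 1) :
    ∃ (Δ : Type u) (_ : Group Δ) (τ : Δ →* G) (ι : Γ →* Δ) (r : Δ),
      τ.ker ≤ Subgroup.center Δ ∧ Function.Injective ι ∧ τ.comp ι = σ ∧ τ r = 1 ∧ r * r * ι q = 1 := by
  let M := Multiplicative (ZMod (2 * orderOf q))
  let N : Subgroup (Γ × M) := Subgroup.zpowers (q, Multiplicative.ofAdd (2 : ZMod (2 * orderOf q)))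
  have hN : N ≤ Subgroup.center (Γ × M) := by
    rw [Subgroup.zpowers_le, Subgroup.mem_center_iff]
    intro x
    exact Prod.ext (Subgroup.mem_center_iff.1 (hc hq) x.1) (mul_comm _ _)
  have : N.Normal := ⟨fun x hx g => by
    rw [Subgroup.mem_center_iff.1 (hN hx) g, mul_inv_cancel_right]; exact hx⟩
  have hle : N ≤ (σ.comp (MonoidHom.fst Γ M)).ker := by
    rw [Subgroup.zpowers_le]; simpa [MonoidHom.mem_ker] using hq
  let τ : (Γ × M) ⧸ N →* G := QuotientGroup.lift N (σ.comp (MonoidHom.fst Γ M)) hle
  refine ⟨(Γ × M) ⧸ N, inferInstance, τ, (QuotientGroup.mk' N).comp (MonoidHom.inl Γ M),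
    QuotientGroup.mk' N (1, Multiplicative.ofAdd 1), ?_, ?_, ?_, ?_, ?_⟩
  · intro x hx
    obtain ⟨⟨a, b⟩, rfl⟩ := QuotientGroup.mk'_surjective N x
    have ha : σ a = 1 := by simpa [τ, MonoidHom.mem_ker] using hx
    rw [Subgroup.mem_center_iff]
    intro y
    obtain ⟨⟨a', b'⟩, rfl⟩ := QuotientGroup.mk'_surjective N y
    rw [← map_mul, ← map_mul]
    congr 1
    exact Prod.ext (comm_ker hc ha a').symm (mul_comm _ _)
  · rw [injective_iff_map_eq_one]
    intro a ha
    simp only [MonoidHom.comp_apply, QuotientGroup.mk'_apply, QuotientGroup.eq_one_iff,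
      MonoidHom.inl_apply] at ha
    obtain ⟨k, hk⟩ := Subgroup.mem_zpowers_iff.1 ha
    have h1 : q ^ k = a := congrArg Prod.fst hk
    have h2 : (Multiplicative.ofAdd (2 : ZMod (2 * orderOf q))) ^ k = 1 := congrArg Prod.snd hk
    rw [← ofAdd_zsmul, ofAdd_eq_one, zsmul_eq_mul] at h2
    have h3 : ((2 * orderOf q : ℕ) : ℤ) ∣ k * 2 := by
      rw [← ZMod.intCast_zmod_eq_zero_iff_dvd]; push_cast; exact h2
    have h4 : (orderOf q : ℤ) ∣ k := by
      push_cast at h3
      rw [mul_comm k 2] at h3
      exact (mul_dvd_mul_iff_left (by norm_num : (2 : ℤ) ≠ 0)).1 h3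
    rw [← h1]
    exact orderOf_dvd_iff_zpow_eq_one.1 h4
  · ext a; simp [τ]
  · simp [τ]
  · rw [MonoidHom.comp_apply, MonoidHom.inl_apply, ← map_mul, ← map_mul, QuotientGroup.mk'_apply,
      QuotientGroup.eq_one_iff]
    refine Subgroup.mem_zpowers_iff.2 ⟨1, ?_⟩
    rw [zpow_one]
    refine Prod.ext (by simp) ?_
    simp only [Prod.snd_mul, mul_one]
    rw [← ofAdd_add]; norm_num

/-- products of scaled generators -/
lemma wp_mul_central {Δ : Type*} [Group Δ] {c : Δ} (hc : c ∈ Subgroup.center Δ) (s : ℕ → Δ) :
    ∀ w : List ℕ, wp (fun i => s i * c) w = wp s w * c ^ w.length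
  | [] => by simp [wp_nil]
  | i :: w => by
    rw [wp_cons, wp_mul_central hc s w, wp_cons, List.length_cons, pow_succ']
    calc s i * c * (wp s w * c ^ w.length) = s i * (c * wp s w) * c ^ w.length := by group
      _ = s i * (wp s w * c) * c ^ w.length := by rw [Subgroup.mem_center_iff.1 hc (wp s w)]
      _ = _ := by group

lemma map_wp {Δ H : Type*} [Group Δ] [Group H] (f : Δ →* H) (s : ℕ → Δ) (w : List ℕ) :
    f (wp s w) = wp (fun i => f (s i)) w := by
  rw [wp, wp, map_list_prod, List.map_map]; rfl

/-- the ± commutator of involutions commuting modulo the centre is constant along edges -/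
lemma pair_const {Δ : Type*} [Group Δ] {a b d : Δ} (ha : a * a = 1) (hb : b * b = 1) (hd : d * d = 1)
    (hbr : b * d * b = d * b * d) (hcb : a * b * a * b ∈ Subgroup.center Δ)
    (hcd : a * d * a * d ∈ Subgroup.center Δ) : a * d * a * d = a * b * a * b := by
  set cb := a * b * a * b with hcbdef
  set cd := a * d * a * d with hcddef
  have ib : b⁻¹ = b := inv_eq_of_mul_eq_one_right hb
  have id' : d⁻¹ = d := inv_eq_of_mul_eq_one_right hd
  have z1 : ∀ y, y * cb = cb * y := Subgroup.mem_center_iff.1 hcb
  have z2 : ∀ y, y * cd = cd * y := Subgroup.mem_center_iff.1 hcd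
  have e1 : d * a * d = a * cd := by
    rw [hcddef]; simp only [← mul_assoc, ha, one_mul]
  have e1' : b * a * b = a * cb := by
    rw [hcbdef]; simp only [← mul_assoc, ha, one_mul]
  have hw : (b * d) * b * (b * d)⁻¹ = d := by
    rw [mul_inv_eq_iff_eq_mul, hbr]; group
  have e2 : (b * d) * a * (b * d)⁻¹ = a * (cb * cd) := by
    rw [mul_inv_rev, ib, id']
    calc b * d * a * (d * b) = b * (d * a * d) * b := by group
      _ = b * a * (cd * b) := by rw [e1]; group
      _ = b * a * b * cd := by rw [← z2 b]; group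
      _ = a * (cb * cd) := by rw [e1']; group
  set κ := cb * cd with hκ
  have z3 : ∀ y, y * κ = κ * y := fun y => by
    rw [hκ, ← mul_assoc, z1, mul_assoc, z2, ← mul_assoc]
  have hκ2 : κ * κ = 1 := by
    have h : (a * κ) * (a * κ) = 1 := by
      rw [← e2]
      calc b * d * a * (b * d)⁻¹ * (b * d * a * (b * d)⁻¹) = b * d * (a * a) * (b * d)⁻¹ := by group
        _ = 1 := by rw [ha]; group
    calc κ * κ = (a * a) * (κ * κ) := by rw [ha, one_mul]
      _ = a * (a * κ) * κ := by group
      _ = a * (κ * a) * κ := by rw [z3 a]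
      _ = 1 := by rw [← h]; group
  calc cd = cd * (κ * κ) := by rw [hκ2, mul_one]
    _ = a * κ * d * (a * κ) * d := by
      rw [hcddef]
      calc a * d * a * d * (κ * κ) = a * d * a * (d * κ) * κ := by group
        _ = a * d * a * (κ * d) * κ := by rw [z3 d]
        _ = a * d * (a * κ) * (d * κ) := by group
        _ = a * d * (a * κ) * (κ * d) := by rw [z3 d]
        _ = a * (d * ((a * κ) * κ)) * d := by group
        _ = a * (d * (κ * (a * κ))) * d := by rw [z3 (a * κ)]
        _ = a * ((d * κ) * (a * κ)) * d := by group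
        _ = a * ((κ * d) * (a * κ)) * d := by rw [z3 d]
        _ = _ := by group
    _ = (b * d * a * (b * d)⁻¹) * (b * d * b * (b * d)⁻¹) * (b * d * a * (b * d)⁻¹) *
          (b * d * b * (b * d)⁻¹) := by rw [e2, hw]
    _ = (b * d) * (a * b * a * b) * (b * d)⁻¹ := by group
    _ = cb := by rw [← hcbdef, z1 (b * d)]; group

/-- involutions commuting modulo the centre commute if they do so one edge away -/
lemma pair_step {Δ : Type*} [Group Δ] {a b d : Δ} (ha : a * a = 1) (hb : b * b = 1) (hd : d * d = 1)
    (hbr : b * d * b = d * b * d) (hab : a * b = b * a) (hc : a * d * a * d ∈ Subgroup.center Δ) :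
    a * d = d * a := by
  have h1 : a * b * a * b = 1 := by rw [hab, mul_assoc b a a, ha, mul_one, hb]
  have h2 := pair_const ha hb hd hbr (h1 ▸ one_mem _) hc
  rw [h1, mul_assoc (a * d), mul_eq_one_iff_eq_inv, mul_inv_rev, inv_eq_of_mul_eq_one_right ha,
    inv_eq_of_mul_eq_one_right hd] at h2
  exact h2

end CfsgLib.ExtraspecialLarge.CentralLift
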