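import Cfsg.Agent.Lib.ExtraspecialLarge.CrossData
import Cfsg.Agent.Lib.GolayStructure.OctadOrbits
import Cfsg.Agent.Lib.GolayStructure.SextetInv
import Cfsg.Agent.Lib.GolayStructure.TrioInv
import Cfsg.Agent.Lib.GolayStructure.TriadOrbits
import Cfsg.Agent.Lib.GolayStructure.DodecadPairOrbits

/-!
Orbits of the stabiliser of an octad, sextet, trio, triad or pair of complementary dodecads on
another kind of object: an orbit certificate with the stabiliser's generators, the orbits being
separated by an intersection invariant.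
-/

set_option autoImplicit false
set_option maxRecDepth 100000

namespace CfsgLib.ExtraspecialLarge.CrossOrbit

open Cfsg CfsgLib.Golay CfsgLib.GolayStructure MulAction
open scoped Pointwise

section Generic

variable {X Y : Type*} [MulAction M24 X] [MulAction M24 Y] {K : Kind X} {Ω : Set X} {N : ℕ}

theorem orbit_smul_pair (x : Y) (y : X) (g : M24) :
    orbit (stabilizer M24 (g • x)) (g • y) = (g • ·) '' orbit (stabilizer M24 x) y := by
  ext z
  constructor
  · rintro ⟨⟨h, hh⟩, rfl⟩
    refine ⟨(g⁻¹ * h * g) • y, ⟨⟨g⁻¹ * h * g, ?_⟩, rfl⟩, ?_⟩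
    · rw [mem_stabilizer_iff] at hh ⊢
      rw [mul_smul, mul_smul, hh, inv_smul_smul]
    · change g • (g⁻¹ * h * g) • y = h • g • y
      rw [← mul_smul, ← mul_smul]
      group
  · rintro ⟨_, ⟨⟨h, hh⟩, rfl⟩, rfl⟩
    refine ⟨⟨g * h * g⁻¹, ?_⟩, ?_⟩
    · rw [mem_stabilizer_iff] at hh ⊢
      rw [mul_smul, mul_smul, inv_smul_smul, hh]
    · change (g * h * g⁻¹) • g • y = g • h • y
      rw [← mul_smul, ← mul_smul, inv_mul_cancel_right]

theorem sep_of_nodup (C : Cert K Ω N) (f : X → ℕ) (v : Part → ℕ)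
    (hv : ∀ P ∈ C.parts, f (K.dec (C.R P.root)) = v P) (hnd : (C.parts.map v).Nodup) :
    ∀ P ∈ C.parts, ∀ Q ∈ C.parts,
      f (K.dec (C.R P.root)) = f (K.dec (C.R Q.root)) → P = Q := by
  intro P hP Q hQ h
  rw [hv P hP, hv Q hQ] at h
  exact List.inj_on_of_nodup_map hnd hP hQ h

/-- The orbits of the stabiliser of `g • x0`. -/
theorem orbits (C : Cert K Ω N) (hN : 0 < N) {x0 : Y}
    (hH : ∀ t ∈ C.gens, m24Of t ∈ stabilizer M24 x0) (hΩ : ∀ g : M24, ∀ x ∈ Ω, g • x ∈ Ω)
    (f : X → ℕ) (hf : ∀ h ∈ stabilizer M24 x0, ∀ x, f (h • x) = f x)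
    (v : Part → ℕ) (hv : ∀ P ∈ C.parts, f (K.dec (C.R P.root)) = v P)
    (hnd : (C.parts.map v).Nodup) (g : M24) :
    (∀ P ∈ C.parts, g • K.dec (C.R P.root) ∈ Ω ∧
      (orbit (stabilizer M24 (g • x0)) (g • K.dec (C.R P.root))).ncard = P.size + 1) ∧
    ∀ y, y ∈ Ω ↔ ∃ P ∈ C.parts,
      y ∈ orbit (stabilizer M24 (g • x0)) (g • K.dec (C.R P.root)) := by
  have horb : ∀ P ∈ C.parts,
      orbit (stabilizer M24 (g • x0)) (g • K.dec (C.R P.root)) = (g • ·) '' C.set P := by
    intro P hP
    rw [orbit_smul_pair, C.orbit_eq hN hH (fun h _ x hx => hΩ h x hx) f hf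
      (sep_of_nodup C f v hv hnd) hP]
  refine ⟨fun P hP => ⟨hΩ g _ (C.set_subset hP (C.root_mem P)), ?_⟩, fun y => ⟨fun hy => ?_, ?_⟩⟩
  · rw [horb P hP, Set.ncard_image_of_injective _ (MulAction.injective g), C.ncard_set hP]
  · obtain ⟨P, hP, hyP⟩ := C.exists_part hN (hΩ g⁻¹ y hy)
    refine ⟨P, hP, ?_⟩
    rw [horb P hP]
    exact ⟨_, hyP, smul_inv_smul g y⟩
  · rintro ⟨P, hP, hy⟩
    rw [horb P hP] at hy
    obtain ⟨z, hz, rfl⟩ := hy
    exact hΩ g z (C.set_subset hP hz)

theorem three_orbits (C : Cert K Ω N) (hN : 0 < N) {x0 : Y}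
    (hH : ∀ t ∈ C.gens, m24Of t ∈ stabilizer M24 x0) (hΩ : ∀ g : M24, ∀ x ∈ Ω, g • x ∈ Ω)
    (f : X → ℕ) (hf : ∀ h ∈ stabilizer M24 x0, ∀ x, f (h • x) = f x)
    (v : Part → ℕ) (hv : ∀ P ∈ C.parts, f (K.dec (C.R P.root)) = v P)
    (hnd : (C.parts.map v).Nodup) (g : M24) {n₁ n₂ n₃ : ℕ}
    (hs : C.parts.map (fun P => P.size + 1) = [n₁, n₂, n₃]) :
    ∃ X₁ ∈ Ω, ∃ X₂ ∈ Ω, ∃ X₃ ∈ Ω,
      (orbit (stabilizer M24 (g • x0)) X₁).ncard = n₁ ∧
      (orbit (stabilizer M24 (g • x0)) X₂).ncard = n₂ ∧
      (orbit (stabilizer M24 (g • x0)) X₃).ncard = n₃ ∧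
      Ω = orbit (stabilizer M24 (g • x0)) X₁ ∪ orbit (stabilizer M24 (g • x0)) X₂ ∪
        orbit (stabilizer M24 (g • x0)) X₃ := by
  obtain ⟨h1, h2⟩ := orbits C hN hH hΩ f hf v hv hnd g
  rcases hp : C.parts with _ | ⟨A, _ | ⟨B, _ | ⟨D, _ | ⟨E, l⟩⟩⟩⟩ <;> rw [hp] at hs <;>
    simp only [List.map_cons, List.map_nil, List.cons.injEq, reduceCtorEq, and_false] at hs
  obtain ⟨rfl, rfl, rfl, -⟩ := hs
  simp only [hp, List.forall_mem_cons, List.not_mem_nil, IsEmpty.forall_iff, implies_true,
    and_true] at h1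
  obtain ⟨⟨a, a'⟩, ⟨b, b'⟩, d, d'⟩ := h1
  refine ⟨_, a, _, b, _, d, a', b', d', Set.ext fun y => ?_⟩
  rw [h2 y, hp]
  simp [or_assoc]

theorem four_orbits (C : Cert K Ω N) (hN : 0 < N) {x0 : Y}
    (hH : ∀ t ∈ C.gens, m24Of t ∈ stabilizer M24 x0) (hΩ : ∀ g : M24, ∀ x ∈ Ω, g • x ∈ Ω)
    (f : X → ℕ) (hf : ∀ h ∈ stabilizer M24 x0, ∀ x, f (h • x) = f x)
    (v : Part → ℕ) (hv : ∀ P ∈ C.parts, f (K.dec (C.R P.root)) = v P)
    (hnd : (C.parts.map v).Nodup) (g : M24) {n₁ n₂ n₃ n₄ : ℕ}
    (hs : C.parts.map (fun P => P.size + 1) = [n₁, n₂, n₃, n₄]) :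
    ∃ X₁ ∈ Ω, ∃ X₂ ∈ Ω, ∃ X₃ ∈ Ω, ∃ X₄ ∈ Ω,
      (orbit (stabilizer M24 (g • x0)) X₁).ncard = n₁ ∧
      (orbit (stabilizer M24 (g • x0)) X₂).ncard = n₂ ∧
      (orbit (stabilizer M24 (g • x0)) X₃).ncard = n₃ ∧
      (orbit (stabilizer M24 (g • x0)) X₄).ncard = n₄ ∧
      Ω = orbit (stabilizer M24 (g • x0)) X₁ ∪ orbit (stabilizer M24 (g • x0)) X₂ ∪
        orbit (stabilizer M24 (g • x0)) X₃ ∪ orbit (stabilizer M24 (g • x0)) X₄ := by
  obtain ⟨h1, h2⟩ := orbits C hN hH hΩ f hf v hv hnd g
  rcases hp : C.parts with _ | ⟨A, _ | ⟨B, _ | ⟨D, _ | ⟨E, _ | ⟨F, l⟩⟩⟩⟩⟩ <;> rw [hp] at hs <;>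
    simp only [List.map_cons, List.map_nil, List.cons.injEq, reduceCtorEq, and_false] at hs
  obtain ⟨rfl, rfl, rfl, rfl, -⟩ := hs
  simp only [hp, List.forall_mem_cons, List.not_mem_nil, IsEmpty.forall_iff, implies_true,
    and_true] at h1
  obtain ⟨⟨a, a'⟩, ⟨b, b'⟩, ⟨d, d'⟩, e, e'⟩ := h1
  refine ⟨_, a, _, b, _, d, _, e, a', b', d', e', Set.ext fun y => ?_⟩
  rw [h2 y, hp]
  simp [or_assoc]

end Generic

/-! ### Lists of masks -/

/-- The list of tetrads headed by `m`. -/
def sextetListOf (Ls : List (List ℕ)) (m : ℕ) : List ℕ :=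
  (Ls.find? fun l => l.head? == some m).getD []

/-- The check of such a list. -/
def sextetListOk (Ls : List (List ℕ)) (m : ℕ) : Bool :=
  sextetList (sextetListOf Ls m) && (sextetListOf Ls m).head? == some m

theorem sextetListOk_spec {Ls : List (List ℕ)} {m : ℕ} (h : sextetListOk Ls m = true) :
    maskList (sextetListOf Ls m) = true ∧
      sextetOf (unmask m) = ((sextetListOf Ls m).map unmask).toFinset := by
  simp only [sextetListOk, Bool.and_eq_true, beq_iff_eq] at h
  generalize sextetListOf Ls m = l at h ⊢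
  obtain ⟨h1, h2⟩ := h
  cases l with
  | nil => simp at h2
  | cons a t =>
    simp only [List.head?_cons, Option.some.injEq] at h2
    subst h2
    refine ⟨?_, sextetOf_list h1⟩
    simp only [sextetList, Bool.and_eq_true] at h1
    exact h1.1.1.1

theorem singleton_list (m : ℕ) : ({unmask m} : Finset (Finset GolayPt)) = ([m].map unmask).toFinset := by
  simp

theorem pairDec_list (m : ℕ) :
    pairDec m = ([m, m ^^^ fullMask].map unmask).toFinset := by
  simp [pairDec, unmask_compl]

/-- The mask list of the base octad. -/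
def octadBase : List ℕ := [fieldAt 24 octadTable octadRoot]

/-- The mask list of the base sextet. -/
def sextetBase : List ℕ := sextetRootLists.getD 0 []

/-- The mask list of the base trio. -/
def trioBase : List ℕ := trioList (fieldAt 48 trioTable trioRoot)

/-- The mask list of the base pair of dodecads. -/
def pairBase : List ℕ :=
  [fieldAt 24 dodecadPairTable dodecadPairRoot,
    fieldAt 24 dodecadPairTable dodecadPairRoot ^^^ fullMask]

theorem base_checks : maskList octadBase = true ∧ maskList trioBase = true ∧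
    maskList pairBase = true ∧ sextetList sextetBase = true ∧
    sextetBase.head? = some (fieldAt 24 sextetTable sextetRoot) := by
  decide +kernel

theorem baseSextet_list : baseSextet = (sextetBase.map unmask).toFinset ∧
    maskList sextetBase = true := by
  obtain ⟨-, -, -, h1, h2⟩ := base_checks
  revert h1 h2
  generalize sextetBase = l
  intro h1 h2
  cases l with
  | nil => simp at h2
  | cons a t =>
    simp only [List.head?_cons, Option.some.injEq] at h2
    subst h2
    refine ⟨sextetOf_list h1, ?_⟩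
    simp only [sextetList, Bool.and_eq_true] at h1
    exact h1.1.1.1

theorem inv_octad : ∀ h ∈ stabilizer M24 baseOctad, ∀ X : Finset (Finset GolayPt),
    pairInv {baseOctad} (h • X) = pairInv {baseOctad} X := by
  intro h hh X
  refine pairInv_smul ?_ X
  rw [mem_stabilizer_iff, Finset.smul_finset_singleton, mem_stabilizer_iff.1 hh]

theorem inv_single {S : Finset (Finset GolayPt)} :
    ∀ h ∈ stabilizer M24 S, ∀ x : Finset GolayPt, pairInv S {h • x} = pairInv S {x} := by
  intro h hh x
  rw [← Finset.smul_finset_singleton, pairInv_smul hh]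

/-! ### Certificates -/

theorem checks_octad :
    octadTrioParts.all (trioKind.checkPart octadStabGens (fieldAt 48 trioTable)) = true ∧
    coversExactly octadTrioParts 3795 = true ∧
    (octadTrioParts.all fun P => maskList (trioList (fieldAt 48 trioTable P.root))) = true ∧
    (octadTrioParts.map fun P => listInv octadBase (trioList (fieldAt 48 trioTable P.root))).Nodup ∧
    octadTrioParts.map (fun P => P.size + 1) = [15, 420, 3360] ∧
    octadSextetParts.all (sextetKind.checkPart octadStabGens (fieldAt 24 sextetTable)) = true ∧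
    coversExactly octadSextetParts 1771 = true ∧
    (octadSextetParts.all fun P =>
      sextetListOk octadSextetLists (fieldAt 24 sextetTable P.root)) = true ∧
    (octadSextetParts.map fun P => listInv octadBase
      (sextetListOf octadSextetLists (fieldAt 24 sextetTable P.root))).Nodup ∧
    octadSextetParts.map (fun P => P.size + 1) = [35, 840, 896] := by
  decide +kernel

theorem checks_sextet :
    sextetOctadParts.all (setKind.checkPart sextetStabGens (fieldAt 24 octadTable)) = true ∧
    coversExactly sextetOctadParts 759 = true ∧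
    (sextetOctadParts.all fun P => maskList [fieldAt 24 octadTable P.root]) = true ∧
    (sextetOctadParts.map fun P => listInv sextetBase [fieldAt 24 octadTable P.root]).Nodup ∧
    sextetOctadParts.map (fun P => P.size + 1) = [15, 360, 384] ∧
    sextetTrioParts.all (trioKind.checkPart sextetStabGens (fieldAt 48 trioTable)) = true ∧
    coversExactly sextetTrioParts 3795 = true ∧
    (sextetTrioParts.all fun P => maskList (trioList (fieldAt 48 trioTable P.root))) = true ∧
    (sextetTrioParts.map fun P => listInv sextetBase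
      (trioList (fieldAt 48 trioTable P.root))).Nodup ∧
    sextetTrioParts.map (fun P => P.size + 1) = [15, 180, 720, 2880] := by
  decide +kernel

theorem checks_trio :
    trioOctadParts.all (setKind.checkPart trioStabGens (fieldAt 24 octadTable)) = true ∧
    coversExactly trioOctadParts 759 = true ∧
    (trioOctadParts.all fun P => maskList [fieldAt 24 octadTable P.root]) = true ∧
    (trioOctadParts.map fun P => listInv trioBase [fieldAt 24 octadTable P.root]).Nodup ∧
    trioOctadParts.map (fun P => P.size + 1) = [3, 84, 672] ∧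
    trioSextetParts.all (sextetKind.checkPart trioStabGens (fieldAt 24 sextetTable)) = true ∧
    coversExactly trioSextetParts 1771 = true ∧
    (trioSextetParts.all fun P =>
      sextetListOk trioSextetLists (fieldAt 24 sextetTable P.root)) = true ∧
    (trioSextetParts.map fun P => listInv trioBase
      (sextetListOf trioSextetLists (fieldAt 24 sextetTable P.root))).Nodup ∧
    trioSextetParts.map (fun P => P.size + 1) = [7, 84, 336, 1344] := by
  decide +kernel

/-- The number of listed tetrads meeting a mask. -/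
def meetList (y : ℕ) (l : List ℕ) : ℕ := (l.filter fun x => popc (x &&& y) != 0).length

theorem checks_other :
    triadSextetParts.all (sextetKind.checkPart triadStabGens (fieldAt 24 sextetTable)) = true ∧
    coversExactly triadSextetParts 1771 = true ∧
    (triadSextetParts.all fun P =>
      sextetListOk triadSextetLists (fieldAt 24 sextetTable P.root)) = true ∧
    triadSextetParts.map (fun P => meetList (fieldAt 24 triadTable triadRoot)
      (sextetListOf triadSextetLists (fieldAt 24 sextetTable P.root))) = [1, 2, 3] ∧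
    triadSextetParts.map (fun P => P.size + 1) = [21, 630, 1120] ∧
    dodPairSextetParts.all (sextetKind.checkPart dodecadPairStabGens (fieldAt 24 sextetTable)) =
      true ∧
    coversExactly dodPairSextetParts 1771 = true ∧
    (dodPairSextetParts.all fun P =>
      sextetListOk dodPairSextetLists (fieldAt 24 sextetTable P.root)) = true ∧
    (dodPairSextetParts.map fun P => listInv pairBase
      (sextetListOf dodPairSextetLists (fieldAt 24 sextetTable P.root))).Nodup ∧
    dodPairSextetParts.map (fun P => P.size + 1) = [396, 495, 880] := by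
  decide +kernel

/-- A sextet certificate with other generators. -/
noncomputable def sextetCert (gens : List (ℕ × ℕ)) (parts : List Part)
    (hg : gens.all isM24Tbl = true)
    (hp : parts.all (sextetKind.checkPart gens (fieldAt 24 sextetTable)) = true)
    (hc : coversExactly parts 1771 = true) : Cert sextetKind sextets 1771 :=
  { sextetAll with gens := gens, parts := parts, gens_valid := hg, parts_valid := hp, covers := hc,
                   R := fieldAt 24 sextetTable }

/-- A trio certificate with other generators. -/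
def trioCert (gens : List (ℕ × ℕ)) (parts : List Part)
    (hg : gens.all isM24Tbl = true)
    (hp : parts.all (trioKind.checkPart gens (fieldAt 48 trioTable)) = true)
    (hc : coversExactly parts 3795 = true) : Cert trioKind trios 3795 :=
  { trioAll with gens := gens, parts := parts, gens_valid := hg, parts_valid := hp, covers := hc,
                 R := fieldAt 48 trioTable }

/-- An octad certificate with other generators. -/
def octadCert (gens : List (ℕ × ℕ)) (parts : List Part)
    (hg : gens.all isM24Tbl = true)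
    (hp : parts.all (setKind.checkPart gens (fieldAt 24 octadTable)) = true)
    (hc : coversExactly parts 759 = true) : Cert setKind octads 759 :=
  { octadAll with gens := gens, parts := parts, gens_valid := hg, parts_valid := hp, covers := hc,
                  R := fieldAt 24 octadTable }

theorem hΩ_sextets : ∀ g : M24, ∀ x ∈ sextets, g • x ∈ sextets := fun g _ h => smul_mem_sextets g h
theorem hΩ_trios : ∀ g : M24, ∀ x ∈ trios, g • x ∈ trios := fun g _ h => smul_mem_trios g h
theorem hΩ_octads : ∀ g : M24, ∀ x ∈ octads, g • x ∈ octads := fun g _ h => smul_mem_octads g h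

theorem octad_on_trios_sextets {o : Finset GolayPt} (ho : o ∈ octads) :
    (∃ X₁ ∈ trios, ∃ X₂ ∈ trios, ∃ X₃ ∈ trios,
      (orbit (stabilizer M24 o) X₁).ncard = 15 ∧ (orbit (stabilizer M24 o) X₂).ncard = 420 ∧
      (orbit (stabilizer M24 o) X₃).ncard = 3360 ∧
      trios = orbit (stabilizer M24 o) X₁ ∪ orbit (stabilizer M24 o) X₂ ∪
        orbit (stabilizer M24 o) X₃) ∧
    (∃ Y₁ ∈ sextets, ∃ Y₂ ∈ sextets, ∃ Y₃ ∈ sextets,
      (orbit (stabilizer M24 o) Y₁).ncard = 35 ∧ (orbit (stabilizer M24 o) Y₂).ncard = 840 ∧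
      (orbit (stabilizer M24 o) Y₃).ncard = 896 ∧
      sextets = orbit (stabilizer M24 o) Y₁ ∪ orbit (stabilizer M24 o) Y₂ ∪
        orbit (stabilizer M24 o) Y₃) := by
  obtain ⟨g, rfl⟩ := exists_smul_baseOctad ho
  obtain ⟨p1, c1, l1, n1, s1, p2, c2, l2, n2, s2⟩ := checks_octad
  have hb : ({baseOctad} : Finset (Finset GolayPt)) = (octadBase.map unmask).toFinset :=
    singleton_list _
  refine ⟨three_orbits (trioCert octadStabGens _ octad_stabGens p1 c1) (by norm_num) octadSub_gens
      hΩ_trios (fun x => pairInv {baseOctad} x) inv_octad _ (fun P hP => ?_) n1 g s1,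
    three_orbits (sextetCert octadStabGens _ octad_stabGens p2 c2) (by norm_num) octadSub_gens
      hΩ_sextets (fun x => pairInv {baseOctad} x) inv_octad _ (fun P hP => ?_) n2 g s2⟩
  · show pairInv _ (trioDec (fieldAt 48 trioTable P.root)) = _
    rw [hb, trioDec_eq_list, pairInv_masks base_checks.1 (List.all_eq_true.1 l1 P hP)]
  · obtain ⟨a, b⟩ := sextetListOk_spec (List.all_eq_true.1 l2 P hP)
    show pairInv _ (sextetOf (unmask (fieldAt 24 sextetTable P.root))) = _
    rw [hb, b, pairInv_masks base_checks.1 a]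

theorem sextet_on_octads_trios {S : Finset (Finset GolayPt)} (hS : S ∈ sextets) :
    (∃ X₁ ∈ octads, ∃ X₂ ∈ octads, ∃ X₃ ∈ octads,
      (orbit (stabilizer M24 S) X₁).ncard = 15 ∧ (orbit (stabilizer M24 S) X₂).ncard = 360 ∧
      (orbit (stabilizer M24 S) X₃).ncard = 384 ∧
      octads = orbit (stabilizer M24 S) X₁ ∪ orbit (stabilizer M24 S) X₂ ∪
        orbit (stabilizer M24 S) X₃) ∧
    (∃ Y₁ ∈ trios, ∃ Y₂ ∈ trios, ∃ Y₃ ∈ trios, ∃ Y₄ ∈ trios,
      (orbit (stabilizer M24 S) Y₁).ncard = 15 ∧ (orbit (stabilizer M24 S) Y₂).ncard = 180 ∧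
      (orbit (stabilizer M24 S) Y₃).ncard = 720 ∧ (orbit (stabilizer M24 S) Y₄).ncard = 2880 ∧
      trios = orbit (stabilizer M24 S) Y₁ ∪ orbit (stabilizer M24 S) Y₂ ∪
        orbit (stabilizer M24 S) Y₃ ∪ orbit (stabilizer M24 S) Y₄) := by
  obtain ⟨g, rfl⟩ := exists_smul_baseSextet hS
  obtain ⟨p1, c1, l1, n1, s1, p2, c2, l2, n2, s2⟩ := checks_sextet
  obtain ⟨hb, hbm⟩ := baseSextet_list
  refine ⟨three_orbits (octadCert sextetStabGens _ sextet_stabGens p1 c1) (by norm_num)
      sextetSub_gens hΩ_octads (fun x => pairInv baseSextet {x}) inv_single _ (fun P hP => ?_)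
      n1 g s1,
    four_orbits (trioCert sextetStabGens _ sextet_stabGens p2 c2) (by norm_num) sextetSub_gens
      hΩ_trios (fun x => pairInv baseSextet x) (fun _ hh x => pairInv_smul hh x) _
      (fun P hP => ?_) n2 g s2⟩
  · show pairInv baseSextet {unmask (fieldAt 24 octadTable P.root)} = _
    rw [hb, singleton_list, pairInv_masks hbm (List.all_eq_true.1 l1 P hP)]
  · show pairInv baseSextet (trioDec (fieldAt 48 trioTable P.root)) = _
    rw [hb, trioDec_eq_list, pairInv_masks hbm (List.all_eq_true.1 l2 P hP)]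

theorem trio_on_octads_sextets {T : Finset (Finset GolayPt)} (hT : T ∈ trios) :
    (∃ X₁ ∈ octads, ∃ X₂ ∈ octads, ∃ X₃ ∈ octads,
      (orbit (stabilizer M24 T) X₁).ncard = 3 ∧ (orbit (stabilizer M24 T) X₂).ncard = 84 ∧
      (orbit (stabilizer M24 T) X₃).ncard = 672 ∧
      octads = orbit (stabilizer M24 T) X₁ ∪ orbit (stabilizer M24 T) X₂ ∪
        orbit (stabilizer M24 T) X₃) ∧
    (∃ Y₁ ∈ sextets, ∃ Y₂ ∈ sextets, ∃ Y₃ ∈ sextets, ∃ Y₄ ∈ sextets,
      (orbit (stabilizer M24 T) Y₁).ncard = 7 ∧ (orbit (stabilizer M24 T) Y₂).ncard = 84 ∧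
      (orbit (stabilizer M24 T) Y₃).ncard = 336 ∧ (orbit (stabilizer M24 T) Y₄).ncard = 1344 ∧
      sextets = orbit (stabilizer M24 T) Y₁ ∪ orbit (stabilizer M24 T) Y₂ ∪
        orbit (stabilizer M24 T) Y₃ ∪ orbit (stabilizer M24 T) Y₄) := by
  obtain ⟨g, rfl⟩ := exists_smul_baseTrio hT
  obtain ⟨p1, c1, l1, n1, s1, p2, c2, l2, n2, s2⟩ := checks_trio
  have hb : baseTrio = (trioBase.map unmask).toFinset := trioDec_eq_list _
  refine ⟨three_orbits (octadCert trioStabGens _ trio_stabGens p1 c1) (by norm_num)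
      trioSub_gens hΩ_octads (fun x => pairInv baseTrio {x}) inv_single _ (fun P hP => ?_)
      n1 g s1,
    four_orbits (sextetCert trioStabGens _ trio_stabGens p2 c2) (by norm_num) trioSub_gens
      hΩ_sextets (fun x => pairInv baseTrio x) (fun _ hh x => pairInv_smul hh x) _
      (fun P hP => ?_) n2 g s2⟩
  · show pairInv baseTrio {unmask (fieldAt 24 octadTable P.root)} = _
    rw [hb, singleton_list, pairInv_masks base_checks.2.1 (List.all_eq_true.1 l1 P hP)]
  · obtain ⟨a, b⟩ := sextetListOk_spec (List.all_eq_true.1 l2 P hP)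
    show pairInv _ (sextetOf (unmask (fieldAt 24 sextetTable P.root))) = _
    rw [hb, b, pairInv_masks base_checks.2.1 a]

theorem dodecadPair_on_sextets {D : Finset (Finset GolayPt)} (hD : D ∈ dodecadPairs) :
    ∃ X₁ ∈ sextets, ∃ X₂ ∈ sextets, ∃ X₃ ∈ sextets,
      (orbit (stabilizer M24 D) X₁).ncard = 396 ∧ (orbit (stabilizer M24 D) X₂).ncard = 495 ∧
      (orbit (stabilizer M24 D) X₃).ncard = 880 ∧
      sextets = orbit (stabilizer M24 D) X₁ ∪ orbit (stabilizer M24 D) X₂ ∪
        orbit (stabilizer M24 D) X₃ := by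
  obtain ⟨g, rfl⟩ := exists_smul_baseDodecadPair hD
  obtain ⟨-, -, -, -, -, p2, c2, l2, n2, s2⟩ := checks_other
  have hb : baseDodecadPair = (pairBase.map unmask).toFinset := pairDec_list _
  refine three_orbits (sextetCert dodecadPairStabGens _ dodecadPair_stabGens p2 c2) (by norm_num)
    dodecadPairSub_gens hΩ_sextets (fun x => pairInv baseDodecadPair x)
    (fun _ hh x => pairInv_smul hh x) _ (fun P hP => ?_) n2 g s2
  obtain ⟨a, b⟩ := sextetListOk_spec (List.all_eq_true.1 l2 P hP)
  show pairInv _ (sextetOf (unmask (fieldAt 24 sextetTable P.root))) = _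
  rw [hb, b, pairInv_masks base_checks.2.2.1 a]

/-! ### Triads -/

/-- The number of members meeting a set. -/
def meet (Y : Finset GolayPt) (S : Finset (Finset GolayPt)) : ℕ :=
  (S.filter fun t => (t ∩ Y).Nonempty).card

theorem meet_masks (y : ℕ) {l : List ℕ} (h : maskList l = true) :
    meet (unmask y) (l.map unmask).toFinset = meetList y l := by
  have hnd := maskList_spec h
  have e : ((l.map unmask).toFinset.filter fun t => (t ∩ unmask y).Nonempty) =
      ((l.filter fun x => popc (x &&& y) != 0).map unmask).toFinset := by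
    ext t
    simp only [Finset.mem_filter, List.mem_toFinset, List.mem_map, List.mem_filter, bne_iff_ne]
    have key : ∀ a, (unmask a ∩ unmask y).Nonempty ↔ popc (a &&& y) ≠ 0 := fun a => by
      rw [← Finset.card_pos, card_inter_unmask, Nat.pos_iff_ne_zero]
    constructor
    · rintro ⟨⟨a, ha, rfl⟩, h'⟩
      exact ⟨a, ⟨ha, (key a).1 h'⟩, rfl⟩
    · rintro ⟨a, ⟨ha, h'⟩, rfl⟩
      exact ⟨⟨a, ha, rfl⟩, (key a).2 h'⟩
  rw [meet, e, List.toFinset_card_of_nodup
    (hnd.sublist ((List.filter_sublist (l := l)).map unmask)), List.length_map]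
  rfl

theorem meet_smul (g : M24) (Y : Finset GolayPt) (S : Finset (Finset GolayPt)) :
    meet (g • Y) (g • S) = meet Y S := by
  unfold meet
  rw [show g • S = S.image (fun t => g • t) from rfl, Finset.filter_image,
    Finset.card_image_of_injective _ (MulAction.injective g)]
  congr 1
  refine Finset.filter_congr fun t _ => ?_
  rw [← Finset.smul_finset_inter, Finset.smul_finset_nonempty]

theorem triad_meet {Y : Finset GolayPt} (hY : Y.card = 3) :
    {S | S ∈ sextets ∧ meet Y S = 1}.ncard = 21 ∧ {S | S ∈ sextets ∧ meet Y S = 2}.ncard = 630 ∧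
    {S | S ∈ sextets ∧ meet Y S = 3}.ncard = 1120 ∧
    ∀ S S', S ∈ sextets → S' ∈ sextets → meet Y S = meet Y S' →
      ∃ g : M24, g • Y = Y ∧ g • S = S' := by
  obtain ⟨g, rfl⟩ := exists_smul_baseTriad (x := Y) hY
  obtain ⟨p, c, l, hm, hs, -, -, -, -, -⟩ := checks_other
  set C := sextetCert triadStabGens _ triad_stabGens p c with hC
  have hinv : ∀ h ∈ stabilizer M24 baseTriad, ∀ S, meet baseTriad (h • S) = meet baseTriad S :=
    fun h hh S => by conv_lhs => rw [← mem_stabilizer_iff.1 hh, meet_smul]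
  set v : Part → ℕ := fun P => meetList (fieldAt 24 triadTable triadRoot)
    (sextetListOf triadSextetLists (fieldAt 24 sextetTable P.root)) with hv'
  have hv : ∀ P ∈ C.parts, meet baseTriad (sextetKind.dec (C.R P.root)) = v P := by
    intro P hP
    obtain ⟨a, b⟩ := sextetListOk_spec (List.all_eq_true.1 l P hP)
    show meet (unmask _) (sextetOf (unmask (fieldAt 24 sextetTable P.root))) = _
    rw [b, meet_masks _ a]
  have hnd : (C.parts.map v).Nodup := by
    show (triadSextetParts.map v).Nodup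
    rw [hv', hm]; decide
  have hfib : ∀ P ∈ C.parts, {S | S ∈ sextets ∧ meet (g • baseTriad) S = v P}.ncard = P.size + 1 := by
    intro P hP
    have e : {S | S ∈ sextets ∧ meet (g • baseTriad) S = v P} = (g • ·) '' C.set P := by
      rw [← C.fiber_eq (by norm_num) triadSub_gens _ hinv (sep_of_nodup C _ v hv hnd) hP, hv P hP]
      ext S
      constructor
      · rintro ⟨hS, hSv⟩
        refine ⟨g⁻¹ • S, ⟨smul_mem_sextets _ hS, ?_⟩, smul_inv_smul g S⟩
        rw [← hSv]
        conv_rhs => rw [← smul_inv_smul g S, meet_smul]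
      · rintro ⟨Z, ⟨hZ, hZv⟩, rfl⟩
        exact ⟨smul_mem_sextets _ hZ, by rw [meet_smul, hZv]⟩
    rw [e, Set.ncard_image_of_injective _ (MulAction.injective g), C.ncard_set hP]
  rcases hp : triadSextetParts with _ | ⟨A, _ | ⟨B, _ | ⟨D, _ | ⟨E, t⟩⟩⟩⟩ <;> rw [hp] at hs hm <;>
    simp only [List.map_cons, List.map_nil, List.cons.injEq, reduceCtorEq, and_false] at hs hm
  obtain ⟨sA, sB, sD, -⟩ := hs
  obtain ⟨vA, vB, vD, -⟩ := hm
  have hCp : C.parts = [A, B, D] := hp
  refine ⟨?_, ?_, ?_, fun S S' hS hS' he => ?_⟩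
  · rw [← sA, ← hfib A (by rw [hCp]; simp)]; simp only [v, vA]
  · rw [← sB, ← hfib B (by rw [hCp]; simp)]; simp only [v, vB]
  · rw [← sD, ← hfib D (by rw [hCp]; simp)]; simp only [v, vD]
  · obtain ⟨h, hh, e⟩ := C.related_of_inv (by norm_num) triadSub_gens _ hinv
      (sep_of_nodup C _ v hv hnd) (smul_mem_sextets g⁻¹ hS) (smul_mem_sextets g⁻¹ hS')
      (by
        rw [← meet_smul g baseTriad (g⁻¹ • S), ← meet_smul g baseTriad (g⁻¹ • S'),
          smul_inv_smul, smul_inv_smul, he])
    refine ⟨g * h * g⁻¹, ?_, ?_⟩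
    · rw [mul_smul, mul_smul, inv_smul_smul, mem_stabilizer_iff.1 hh]
    · rw [mul_smul, mul_smul, e, smul_inv_smul]

end CfsgLib.ExtraspecialLarge.CrossOrbit
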