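import Cfsg.Agent.Lib.ExtraspecialLarge.RootReflectionCert
import Cfsg.Agent.Lib.ExtraspecialLarge.Fi23Data

/-!
# A central spider element on the graph Y₄₃₂ is trivial

If ten involutions satisfy the Coxeter relations of Y₄₃₂ and the tenth power of the spider word is central, then
this power is `1`: certified derivations of root equalities turn it into an empty product of reflections.
-/

set_option autoImplicit false

namespace CfsgLib.ExtraspecialLarge.Fi23Spider

open RootRefl Fi23Data

/-- neighbour lists (order `d e c h f b i g a j`) -/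
def nb10 (i : ℕ) : List ℕ :=
  [[1, 2, 3], [0, 4], [0, 5], [0, 6], [1, 7], [2, 8], [3], [4, 9], [5], [7]].getD i []

lemma graph10 : Graph 10 nb10 where
  lt := by decide
  irr := by decide
  symm := by decide
  nodup := by decide

/-- the spider word -/
def spider : List ℕ := [0, 2, 5, 0, 1, 4, 0, 3, 6]

/-- replace a root by its representative -/
def lookE (E : List (List ℕ × List ℕ)) (v : List ℕ) : List ℕ :=
  match E.find? (fun p => p.1 == v) with
  | some p => p.2
  | none => v

/-- conjugate a root by a word, taking representatives at every letter -/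
def conjRep (E : List (List ℕ × List ℕ)) (w : List ℕ) (cur : List ℕ) : List ℕ :=
  w.foldr (fun t v => lookE E (act nb10 10 t v)) cur

/-- one rewriting step on a list of roots -/
def applyOp (E : List (List ℕ × List ℕ)) : Op → List (List ℕ) → Option (List (List ℕ))
  | .ins i g j, l =>
    if okR 10 (g, j) then
      some (l.take i ++ rootVec nb10 10 (g, j) :: rootVec nb10 10 (g, j) :: l.drop i)
    else none
  | .del i, l =>
    match l.drop i with
    | x :: y :: t => if x == y then some (l.take i ++ t) else none
    | _ => none
  | .move i fwd g j, l =>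
    match l.drop i with
    | x :: y :: t =>
      if okR 10 (g, j) && (rootVec nb10 10 (g, j) == if fwd then y else x) then
        some (l.take i ++
          if fwd then y :: conjRep E (rootWord (g, j)) x :: t
          else conjRep E (rootWord (g, j)) y :: x :: t)
      else none
    | _ => none

/-- a list of steps -/
def applyOps (E : List (List ℕ × List ℕ)) : List Op → List (List ℕ) → Option (List (List ℕ))
  | [], l => some l
  | o :: os, l => match applyOp E o l with
    | some l' => applyOps E os l'
    | none => none

/-- an equality is among the entries -/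
def inEnv (es : List Entry) (p : List ℕ × List ℕ) : Bool :=
  es.any fun e => (e.lhs == p.1 && e.rhs == p.2) || (e.lhs == p.2 && e.rhs == p.1)

/-- the word of a product of conjugates of powers of the spider word -/
def transWord : List (List ℕ × Bool) → List ℕ
  | [] => []
  | (g, b) :: fs => g ++ (if b then (List.replicate 10 spider).flatten
      else (List.replicate 10 spider).flatten.reverse) ++ g.reverse ++ transWord fs

section
variable {G : Type*} [Group G] {s : ℕ → G}

local notation "R" => rootElt 10 nb10 s

lemma inEnv_sound {es : List Entry} (H : ∀ (k : ℕ) (e : Entry), es[k]? = some e → e.Holds 10 nb10 s)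
    {p : List ℕ × List ℕ} (h : inEnv es p = true) :
    IsRoot 10 nb10 s p.2 ∧ R p.1 = R p.2 := by
  simp only [inEnv, List.any_eq_true, Bool.or_eq_true, Bool.and_eq_true, beq_iff_eq] at h
  obtain ⟨e, he, h⟩ := h
  obtain ⟨k, hk⟩ := List.getElem?_of_mem he
  obtain ⟨h1, h2, h3⟩ := H k e hk
  rcases h with ⟨a, b⟩ | ⟨a, b⟩
  · rw [← a, ← b]; exact ⟨h2, h3⟩
  · rw [← a, ← b]; exact ⟨h1, h3.symm⟩

lemma lookE_sound {E : List (List ℕ × List ℕ)}
    (hE : ∀ p ∈ E, IsRoot 10 nb10 s p.2 ∧ R p.1 = R p.2) {v : List ℕ} (hv : IsRoot 10 nb10 s v) :
    IsRoot 10 nb10 s (lookE E v) ∧ R (lookE E v) = R v := by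
  unfold lookE
  split
  · next p hp =>
    have hm := List.mem_of_find?_eq_some hp
    have he := List.find?_some hp
    simp only [beq_iff_eq] at he
    exact ⟨(hE p hm).1, by rw [← (hE p hm).2, he]⟩
  · exact ⟨hv, rfl⟩

lemma conjRep_sound (hs : Cox 10 nb10 s) {E : List (List ℕ × List ℕ)}
    (hE : ∀ p ∈ E, IsRoot 10 nb10 s p.2 ∧ R p.1 = R p.2) {x : List ℕ} (hx : IsRoot 10 nb10 s x) :
    ∀ {w : List ℕ}, okW 10 w = true →
      IsRoot 10 nb10 s (conjRep E w x) ∧ R (conjRep E w x) = wp s w * R x * (wp s w)⁻¹
  | [], _ => by simp [conjRep, wp_nil, hx]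
  | t :: w, hw => by
    rw [okW_iff] at hw
    have ht := hw t List.mem_cons_self
    obtain ⟨h1, h2⟩ := conjRep_sound hs hE hx (w := w) (okW_iff.2 fun i hi => hw i (List.mem_cons_of_mem _ hi))
    have ha := (h1.rep graph10 hs).act graph10 hs ht
    obtain ⟨h3, h4⟩ := lookE_sound hE (v := act nb10 10 t (conjRep E w x)) ⟨_, ha⟩
    refine ⟨h3, ?_⟩
    change R (lookE E (act nb10 10 t (conjRep E w x))) = _
    rw [h4, ha.rootElt_eq graph10 hs, h2, wp_cons, mul_inv_rev,
      inv_eq_of_mul_eq_one_right (hs.sq t ht)]
    group

lemma okW_rootWord {p : List ℕ × ℕ} (h : okR 10 p = true) : okW 10 (rootWord p) = true := by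
  simp only [okR, Bool.and_eq_true, decide_eq_true_eq, okW_iff] at h
  simp only [okW_iff, rootWord, List.mem_append, List.mem_cons, List.mem_reverse]
  rintro i (hi | rfl | hi)
  exacts [h.1 i hi, h.2, h.1 i hi]

lemma applyOp_sound (hs : Cox 10 nb10 s) {E : List (List ℕ × List ℕ)}
    (hE : ∀ p ∈ E, IsRoot 10 nb10 s p.2 ∧ R p.1 = R p.2) {o : Op} {l l' : List (List ℕ)}
    (hl : ∀ v ∈ l, IsRoot 10 nb10 s v) (h : applyOp E o l = some l') :
    (∀ v ∈ l', IsRoot 10 nb10 s v) ∧ (l'.map R).prod = (l.map R).prod := by
  have hgr := graph10
  cases o with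
  | ins i g j =>
    simp only [applyOp] at h
    split at h
    · next hok =>
      cases h
      have hr := rootVec_isRoot (s := s) hgr hs hok
      refine ⟨fun v hv => ?_, ?_⟩
      · simp only [List.mem_append, List.mem_cons] at hv
        rcases hv with hv | rfl | rfl | hv
        exacts [hl v (List.mem_of_mem_take hv), hr, hr, hl v (List.mem_of_mem_drop hv)]
      · conv_rhs => rw [← List.take_append_drop i l]
        simp only [List.map_append, List.map_cons, List.prod_append, List.prod_cons]
        rw [← mul_assoc (R _) (R _), rootElt_sq hgr hs hr, one_mul]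
    · simp at h
  | del i =>
    simp only [applyOp] at h
    split at h
    · next x y t hd =>
      split at h
      · next hxy =>
        cases h
        simp only [beq_iff_eq] at hxy
        subst hxy
        have hl2 : l = l.take i ++ x :: x :: t := by rw [← hd, List.take_append_drop]
        have hx : IsRoot 10 nb10 s x := hl x (by rw [hl2]; simp)
        refine ⟨fun v hv => hl v (by rw [hl2]; simp only [List.mem_append, List.mem_cons] at hv ⊢; tauto), ?_⟩
        conv_rhs => rw [hl2]
        simp only [List.map_append, List.map_cons, List.prod_append, List.prod_cons]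
        rw [← mul_assoc (R x) (R x), rootElt_sq hgr hs hx, one_mul]
      · simp at h
    · simp at h
  | move i fwd g j =>
    simp only [applyOp] at h
    split at h
    · next x y t hd =>
      have hl2 : l = l.take i ++ x :: y :: t := by rw [← hd, List.take_append_drop]
      have hx : IsRoot 10 nb10 s x := hl x (by rw [hl2]; simp)
      have hy : IsRoot 10 nb10 s y := hl y (by rw [hl2]; simp)
      obtain ⟨⟨hok, hvec⟩, hl'⟩ :
          (okR 10 (g, j) = true ∧ rootVec nb10 10 (g, j) = if fwd then y else x) ∧
          (l.take i ++ if fwd then y :: conjRep E (rootWord (g, j)) x :: t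
            else conjRep E (rootWord (g, j)) y :: x :: t) = l' := by
        cases fwd <;> simpa using h
      subst hl'
      have hw := okW_rootWord hok
      have hword := wp_rootWord (s := s) hgr hs hok
      cases fwd
      · simp only [Bool.false_eq_true, if_false] at hvec ⊢
        obtain ⟨h1, h2⟩ := conjRep_sound hs hE hy hw
        rw [hword, hvec, inv_eq_of_mul_eq_one_right (rootElt_sq hgr hs hx)] at h2
        refine ⟨fun v hv => ?_, ?_⟩
        · simp only [List.mem_append, List.mem_cons] at hv
          rcases hv with hv | rfl | rfl | hv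
          exacts [hl v (List.mem_of_mem_take hv), h1, hx, hl v (by rw [hl2]; simp [hv])]
        · conv_rhs => rw [hl2]
          simp only [List.map_append, List.map_cons, List.prod_append, List.prod_cons, h2]
          congr 1
          calc R x * R y * R x * (R x * (t.map R).prod) = R x * R y * (R x * R x) * (t.map R).prod := by group
            _ = R x * (R y * (t.map R).prod) := by rw [rootElt_sq hgr hs hx, mul_one, mul_assoc]
      · simp only [if_true] at hvec ⊢
        obtain ⟨h1, h2⟩ := conjRep_sound hs hE hx hw
        rw [hword, hvec, inv_eq_of_mul_eq_one_right (rootElt_sq hgr hs hy)] at h2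
        refine ⟨fun v hv => ?_, ?_⟩
        · simp only [List.mem_append, List.mem_cons] at hv
          rcases hv with hv | rfl | rfl | hv
          exacts [hl v (List.mem_of_mem_take hv), hy, h1, hl v (by rw [hl2]; simp [hv])]
        · conv_rhs => rw [hl2]
          simp only [List.map_append, List.map_cons, List.prod_append, List.prod_cons, h2]
          congr 1
          calc R y * (R y * R x * R y * (t.map R).prod) = (R y * R y) * R x * R y * (t.map R).prod := by group
            _ = R x * (R y * (t.map R).prod) := by rw [rootElt_sq hgr hs hy, one_mul, mul_assoc]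
    · simp at h

lemma applyOps_sound (hs : Cox 10 nb10 s) {E : List (List ℕ × List ℕ)}
    (hE : ∀ p ∈ E, IsRoot 10 nb10 s p.2 ∧ R p.1 = R p.2) : ∀ {os : List Op} {l l' : List (List ℕ)},
    (∀ v ∈ l, IsRoot 10 nb10 s v) → applyOps E os l = some l' → (l'.map R).prod = (l.map R).prod
  | [], l, l', _, h => by simp only [applyOps, Option.some.injEq] at h; subst h; rfl
  | o :: os, l, l', hl, h => by
    simp only [applyOps] at h
    split at h
    · next m hm =>
      obtain ⟨h1, h2⟩ := applyOp_sound hs hE hl hm
      rw [applyOps_sound hs hE h1 h, h2]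
    · simp at h

lemma spider_pow_ok : okW 10 (List.replicate 10 spider).flatten = true := by decide

lemma transWord_central (hs : Cox 10 nb10 s) {c : G} (hc : c ∈ Subgroup.center G)
    (h : wp s spider ^ 10 = c) : ∀ fs : List (List ℕ × Bool), (fs.all fun p => okW 10 p.1) = true →
      wp s (transWord fs) ∈ Subgroup.center G
  | [], _ => by rw [transWord, wp_nil]; exact one_mem _
  | (g, b) :: fs, hok => by
    simp only [List.all_cons, Bool.and_eq_true] at hok
    have hm : wp s (if b then (List.replicate 10 spider).flatten
        else (List.replicate 10 spider).flatten.reverse) ∈ Subgroup.center G := by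
      cases b
      · rw [if_neg (by simp), wp_reverse hs spider_pow_ok, wp_replicate, h]; exact inv_mem hc
      · rw [if_pos rfl, wp_replicate, h]; exact hc
    rw [transWord, wp_append, wp_append, wp_append, wp_reverse hs hok.1,
      Subgroup.mem_center_iff.1 hm (wp s g), mul_inv_cancel_right]
    exact mul_mem hm (transWord_central hs hc h fs hok.2)

/-- a seed of the derivations -/
lemma seed_of_central (hs : Cox 10 nb10 s) {c : G} (hc : c ∈ Subgroup.center G) (h : wp s spider ^ 10 = c)
    (fs : List (List ℕ × Bool)) (hok : (fs.all fun p => okW 10 p.1) = true)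
    (hokw : okW 10 (transWord fs) = true) (e : Entry) (i : ℕ) (hi : i < 10) (hl : e.lhs = unitVec 10 i)
    (hr : e.rhs = track nb10 10 (transWord fs) (unitVec 10 i)) : e.Holds 10 nb10 s := by
  have hi' : IsRoot 10 nb10 s (unitVec 10 i) := ⟨_, Rep.base i hi⟩
  rw [Entry.Holds, hl, hr]
  refine ⟨hi', hi'.track graph10 hs hokw, ?_⟩
  rw [rootElt_track graph10 hs hi' hokw,
    ← Subgroup.mem_center_iff.1 (transWord_central hs hc h fs hok) (rootElt 10 nb10 s (unitVec 10 i)),
    mul_inv_cancel_right]

set_option maxHeartbeats 1000000 in
theorem spider_eq_one (hs : Cox 10 nb10 s) (hc : wp s spider ^ 10 ∈ Subgroup.center G) :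
    wp s spider ^ 10 = 1 := by
  have H : ∀ (k : ℕ) (e : Entry), env[k]? = some e → e.Holds 10 nb10 s := by
    refine envOK_sound graph10 hs (m := 3) ?_ (by decide +kernel)
    intro k e hk he
    interval_cases k <;> (obtain rfl := Option.some.inj he)
    · exact seed_of_central hs hc rfl trans0 (by decide) (by decide +kernel) _ 7 (by omega) rfl
        (by decide +kernel)
    · exact seed_of_central hs hc rfl trans1 (by decide) (by decide +kernel) _ 8 (by omega) rfl
        (by decide +kernel)
    · exact seed_of_central hs hc rfl trans2 (by decide) (by decide +kernel) _ 0 (by omega) rfl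
        (by decide +kernel)
  have hE : ∀ p ∈ edges, IsRoot 10 nb10 s p.2 ∧ R p.1 = R p.2 := by
    have h : edges.all (inEnv env) = true := by decide +kernel
    exact fun p hp => inEnv_sound H (List.all_eq_true.1 h p hp)
  have hok : ∀ p ∈ initNames, okR 10 p = true :=
    List.all_eq_true.1 (by decide : initNames.all (okR 10) = true)
  have hroot : ∀ v ∈ initNames.map (rootVec nb10 10), IsRoot 10 nb10 s v := by
    intro v hv
    obtain ⟨p, hp, rfl⟩ := List.mem_map.1 hv
    exact rootVec_isRoot graph10 hs (hok p hp)
  have h1 := delCheck_sound graph10 hs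
    (w := (List.replicate 10 spider).flatten ++ ((initNames.map rootWord).flatten).reverse)
    (cs := initDel) (by decide +kernel) (by decide +kernel)
  rw [wp_append, wp_reverse hs (by decide +kernel), wp_replicate, mul_inv_eq_one, wp_flatten,
    List.map_map] at h1
  rw [h1]
  have e1 : initNames.map (wp s ∘ rootWord) = (initNames.map (rootVec nb10 10)).map R := by
    rw [List.map_map]
    exact List.map_congr_left fun p hp => wp_rootWord graph10 hs (hok p hp)
  have e2 : ((initNames.map (rootVec nb10 10)).map R) =
      (((initNames.map (rootVec nb10 10)).map (lookE edges)).map R) := by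
    rw [List.map_map (g := R) (f := lookE edges)]
    exact List.map_congr_left fun v hv => ((lookE_sound hE (hroot v hv)).2).symm
  have hroot2 : ∀ v ∈ (initNames.map (rootVec nb10 10)).map (lookE edges), IsRoot 10 nb10 s v := by
    intro v hv
    obtain ⟨u, hu, rfl⟩ := List.mem_map.1 hv
    exact (lookE_sound hE (hroot u hu)).1
  have h2 := applyOps_sound hs hE (os := ops) (l' := []) hroot2 (by decide +kernel)
  rw [e1, e2, ← h2]
  simp

end
end CfsgLib.ExtraspecialLarge.Fi23Spider
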