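import Mathlib

/-!
Abstract extended binary Golay codes: a binary code of length 24, dimension 12, pairwise orthogonal,
of minimum weight at least 8.  Coset leaders, the Steiner system on the words of weight 8, double
evenness, generation by words of weight 8.
-/

set_option autoImplicit false

namespace CfsgLib.ExtraspecialLarge

open scoped symmDiff

variable {α : Type*} [Fintype α] [DecidableEq α]

/-- indicator vector of a set of coordinates -/
def vec (s : Finset α) : α → ZMod 2 := fun a => if a ∈ s then 1 else 0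

/-- support of a word -/
def supp (w : α → ZMod 2) : Finset α := Finset.univ.filter fun a => w a ≠ 0

theorem zmod_two_cases (x : ZMod 2) : x = 0 ∨ x = 1 := by revert x; decide

theorem vec_supp (w : α → ZMod 2) : vec (supp w) = w := by
  funext a
  rcases zmod_two_cases (w a) with h | h <;> simp [vec, supp, h]

theorem supp_vec (s : Finset α) : supp (vec s) = s := by
  ext a
  by_cases h : a ∈ s <;> simp [vec, supp, h]

theorem hammingNorm_eq_card_supp (w : α → ZMod 2) : hammingNorm w = (supp w).card := rfl

theorem vec_symmDiff (s t : Finset α) : vec (s ∆ t) = vec s + vec t := by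
  funext a
  by_cases h1 : a ∈ s <;> by_cases h2 : a ∈ t <;>
    simp [vec, Finset.mem_symmDiff, h1, h2]
  decide

theorem card_symmDiff_add (s t : Finset α) :
    (s ∆ t).card + 2 * (s ∩ t).card = s.card + t.card := by
  have h1 := Finset.card_union_add_card_inter s t
  have h2 : (s ∆ t) = (s ∪ t) \ (s ∩ t) := by
    ext a; simp [Finset.mem_symmDiff]; tauto
  have h3 : s ∩ t ⊆ s ∪ t := fun a ha => by simp at ha; simp [ha.1]
  have h4 := Finset.card_sdiff_add_card_eq_card h3
  rw [← h2] at h4; omega

theorem card_symmDiff_le (s t : Finset α) : (s ∆ t).card ≤ s.card + t.card := by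
  have := card_symmDiff_add s t; omega

/-- An abstract extended binary Golay code. -/
structure IsGolayLike (C : Submodule (ZMod 2) (α → ZMod 2)) : Prop where
  card_pts : Fintype.card α = 24
  finrank_eq : Module.finrank (ZMod 2) C = 12
  orth : ∀ v ∈ C, ∀ w ∈ C, ∑ i, v i * w i = 0
  min_wt : ∀ w ∈ C, w ≠ 0 → 8 ≤ hammingNorm w

namespace IsGolayLike

variable {C : Submodule (ZMod 2) (α → ZMod 2)} (h : IsGolayLike C)
include h

theorem symmDiff_mem {s t : Finset α} (hs : vec s ∈ C) (ht : vec t ∈ C) : vec (s ∆ t) ∈ C := by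
  rw [vec_symmDiff]; exact C.add_mem hs ht

theorem min_card {s : Finset α} (hs : vec s ∈ C) (hne : s ≠ ∅) : 8 ≤ s.card := by
  have := h.min_wt _ hs (fun h0 => hne (by rw [← supp_vec s, h0]; simp [supp]))
  rwa [hammingNorm_eq_card_supp, supp_vec] at this

theorem card_inter_even {s t : Finset α} (hs : vec s ∈ C) (ht : vec t ∈ C) :
    Even (s ∩ t).card := by
  have h0 := h.orth _ hs _ ht
  have e : ∑ i, vec s i * vec t i = ((s ∩ t).card : ZMod 2) := by
    simp only [vec, ite_mul, one_mul, zero_mul, ← ite_and, ← Finset.mem_inter]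
    rw [Finset.sum_boole]
    congr 2
    ext x; simp
  rw [e] at h0
  exact (ZMod.natCast_eq_zero_iff_even).mp h0

theorem card_even {s : Finset α} (hs : vec s ∈ C) : Even s.card := by
  simpa using h.card_inter_even hs hs

theorem eq_of_close {s t t' : Finset α} (h1 : vec (s ∆ t) ∈ C) (h2 : vec (s ∆ t') ∈ C)
    (hle : t.card + t'.card < 8) : t = t' := by
  by_contra hne
  have h3 := h.symmDiff_mem h1 h2
  have e : (s ∆ t) ∆ (s ∆ t') = t ∆ t' := by
    rw [symmDiff_symmDiff_symmDiff_comm, symmDiff_self, bot_symmDiff]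
  rw [e] at h3
  have h4 := h.min_card h3 (fun he => hne (symmDiff_eq_bot.mp he))
  have := card_symmDiff_le t t'
  omega

/-- Every word is congruent to one of weight at most 3, or of weight 4 through any given point. -/
theorem exists_leader (s : Finset α) (i : α) :
    ∃ t : Finset α, (t.card ≤ 3 ∨ (t.card = 4 ∧ i ∈ t)) ∧ vec (s ∆ t) ∈ C := by
  classical
  let R : Finset (Finset α) := (Finset.range 4).biUnion fun k => (Finset.univ.erase i).powersetCard k
  have hR : R.card = 2048 := by
    rw [Finset.card_biUnion]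
    · simp [Finset.card_powersetCard, Finset.card_univ, h.card_pts, Finset.sum_range_succ,
        Nat.choose]
    · intro a _ b _ hab
      rw [Function.onFun, Finset.disjoint_left]
      intro x hx hy
      simp [Finset.mem_powersetCard] at hx hy
      omega
  have hRmem : ∀ x ∈ R, x.card ≤ 3 ∧ i ∉ x := by
    intro x hx
    simp only [R, Finset.mem_biUnion, Finset.mem_range, Finset.mem_powersetCard,
      Finset.subset_erase] at hx
    obtain ⟨k, hk, ⟨-, hi⟩, rfl⟩ := hx
    exact ⟨by omega, hi⟩
  let R' : Finset (Finset α) := R ∪ R.image (insert i)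
  have hR'card : R'.card = 4096 := by
    rw [Finset.card_union_of_disjoint, Finset.card_image_of_injOn, hR]
    · intro a ha b hb hab
      have := congrArg (fun x => x.erase i) hab
      simpa [Finset.erase_insert (hRmem a ha).2, Finset.erase_insert (hRmem b hb).2] using this
    · rw [Finset.disjoint_left]
      intro x hx hy
      simp only [Finset.mem_image] at hy
      obtain ⟨y, -, rfl⟩ := hy
      exact (hRmem _ hx).2 (Finset.mem_insert_self i y)
  have hR'mem : ∀ x ∈ R', x.card ≤ 3 ∨ (x.card = 4 ∧ i ∈ x) := by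
    intro x hx
    rcases Finset.mem_union.mp hx with hx | hx
    · exact Or.inl (hRmem x hx).1
    · obtain ⟨y, hy, rfl⟩ := Finset.mem_image.mp hx
      have := hRmem y hy
      rw [Finset.card_insert_of_notMem this.2]
      by_cases h3 : y.card = 3
      · exact Or.inr ⟨by omega, Finset.mem_insert_self i y⟩
      · exact Or.inl (by omega)
  let f : ↥R' → (α → ZMod 2) ⧸ C := fun x => Submodule.Quotient.mk (vec x.1)
  have hinj : Function.Injective f := by
    rintro ⟨x, hx⟩ ⟨y, hy⟩ hxy
    have hm : vec (x ∆ y) ∈ C := by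
      rw [vec_symmDiff]
      have := (Submodule.Quotient.eq C).mp hxy
      rwa [ZModModule.sub_eq_add] at this
    apply Subtype.ext
    by_contra hne
    have hne' : x ∆ y ≠ ∅ := fun he => hne (symmDiff_eq_bot.mp he)
    have h8 := h.min_card hm hne'
    have hc := card_symmDiff_add x y
    rcases hR'mem x hx with a | ⟨a, ai⟩ <;> rcases hR'mem y hy with b | ⟨b, bi⟩
    all_goals first
      | omega
      | (have : 0 < (x ∩ y).card := Finset.card_pos.mpr ⟨i, Finset.mem_inter.mpr ⟨ai, bi⟩⟩; omega)
  have : Fintype ((α → ZMod 2) ⧸ C) := Fintype.ofFinite _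
  have hq : Fintype.card ((α → ZMod 2) ⧸ C) = 4096 := by
    have e := Submodule.card_eq_card_quotient_mul_card C
    rw [Nat.card_eq_fintype_card, Fintype.card_fun, ZMod.card, h.card_pts,
      Nat.card_eq_fintype_card, Module.card_eq_pow_finrank (K := ZMod 2), ZMod.card, h.finrank_eq,
      Nat.card_eq_fintype_card] at e
    omega
  have hbij : Function.Bijective f := by
    rw [Fintype.bijective_iff_injective_and_card]
    exact ⟨hinj, by rw [Fintype.card_coe, hR'card, hq]⟩
  obtain ⟨⟨t, ht⟩, hst⟩ := hbij.2 (Submodule.Quotient.mk (vec s))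
  refine ⟨t, hR'mem t ht, ?_⟩
  rw [vec_symmDiff, add_comm]
  have := (Submodule.Quotient.eq C).mp hst
  rwa [ZModModule.sub_eq_add] at this

/-- Every five points lie in the support of exactly one word of weight 8. -/
theorem existsUnique_octad (F : Finset α) (hF : F.card = 5) :
    ∃! o : Finset α, (vec o ∈ C ∧ o.card = 8) ∧ F ⊆ o := by
  obtain ⟨i, -⟩ := Finset.card_pos.mp (show 0 < F.card by omega)
  obtain ⟨t, ht, hm⟩ := h.exists_leader F i
  have hc := card_symmDiff_add F t
  obtain ⟨k, hk⟩ := h.card_even hm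
  have hne : F ∆ t ≠ ∅ := by
    intro he
    have e : F = t := symmDiff_eq_bot.mp he
    subst e; omega
  have h8 := h.min_card hm hne
  have ht3 : t.card = 3 := by omega
  have hdis : F ∩ t = ∅ := Finset.card_eq_zero.mp (by omega)
  refine ⟨F ∆ t, ⟨⟨hm, by omega⟩, fun a ha => ?_⟩, fun o ho => ?_⟩
  · refine Finset.mem_symmDiff.mpr (Or.inl ⟨ha, fun hat => ?_⟩)
    have : a ∈ F ∩ t := Finset.mem_inter.mpr ⟨ha, hat⟩
    simp [hdis] at this
  · obtain ⟨⟨hoC, ho8⟩, hFo⟩ := ho
    have e : F ∆ (o \ F) = o := by
      ext a; have := @hFo a; simp [Finset.mem_symmDiff]; tauto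
    have hcard : (o \ F).card = 3 := by
      rw [Finset.card_sdiff_of_subset hFo]; omega
    have := h.eq_of_close (s := F) (t := t) (t' := o \ F) hm (by rwa [e]) (by omega)
    rw [← e, ← this]

/-- The code is spanned by its words of weight 8. -/
theorem span_octads :
    Submodule.span (ZMod 2) {w : α → ZMod 2 | w ∈ C ∧ hammingNorm w = 8} = C := by
  refine le_antisymm (Submodule.span_le.mpr fun w hw => hw.1) fun w hw => ?_
  suffices H : ∀ n, ∀ s : Finset α, s.card = n → vec s ∈ C →
      vec s ∈ Submodule.span (ZMod 2) {w : α → ZMod 2 | w ∈ C ∧ hammingNorm w = 8} by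
    simpa [vec_supp] using H _ (supp w) rfl (by rwa [vec_supp])
  intro n
  induction n using Nat.strong_induction_on with
  | _ n ih =>
    intro s hsn hs
    by_cases he : s = ∅
    · have : vec s = 0 := by subst he; funext a; simp [vec]
      rw [this]; exact Submodule.zero_mem _
    · have h8 := h.min_card hs he
      obtain ⟨F, hFs, hF⟩ := Finset.exists_subset_card_eq (show 5 ≤ s.card by omega)
      obtain ⟨o, ⟨⟨hoC, ho8⟩, hFo⟩, -⟩ := h.existsUnique_octad F hF
      have h5 : 5 ≤ (s ∩ o).card := hF ▸ Finset.card_le_card (Finset.subset_inter hFs hFo)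
      have hc := card_symmDiff_add s o
      have h1 := ih _ (by omega) (s ∆ o) rfl (h.symmDiff_mem hs hoC)
      have h2 : vec o ∈ Submodule.span (ZMod 2) {w : α → ZMod 2 | w ∈ C ∧ hammingNorm w = 8} :=
        Submodule.subset_span ⟨hoC, by rw [hammingNorm_eq_card_supp, supp_vec, ho8]⟩
      have e : vec s = vec (s ∆ o) + vec o := by
        rw [vec_symmDiff, add_assoc, ZModModule.add_self, add_zero]
      rw [e]; exact Submodule.add_mem _ h1 h2

theorem doubly_even {s : Finset α} (hs : vec s ∈ C) : 4 ∣ s.card := by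
  suffices H : ∀ w ∈ Submodule.span (ZMod 2) {w : α → ZMod 2 | w ∈ C ∧ hammingNorm w = 8},
      4 ∣ (supp w).card by
    simpa [supp_vec] using H (vec s) (by rw [h.span_octads]; exact hs)
  intro w hw
  induction hw using Submodule.span_induction with
  | mem x hx => rw [← hammingNorm_eq_card_supp, hx.2]; norm_num
  | zero => simp [supp]
  | add x y hx hy ihx ihy =>
    rw [h.span_octads] at hx hy
    have e : supp (x + y) = supp x ∆ supp y := by
      rw [← supp_vec (supp x ∆ supp y), vec_symmDiff, vec_supp, vec_supp]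
    have hc := card_symmDiff_add (supp x) (supp y)
    obtain ⟨k, hk⟩ := h.card_inter_even (s := supp x) (t := supp y) (by rwa [vec_supp]) (by rwa [vec_supp])
    rw [e]; omega
  | smul a x hx ihx =>
    rcases zmod_two_cases a with rfl | rfl
    · simp [supp]
    · simpa using ihx

/-- Coset leaders: a unique one of weight at most 3, or a sextet. -/
theorem coset_leaders (s : Finset α) :
    (∃ t : Finset α, t.card ≤ 3 ∧ ∀ t' : Finset α, (vec (s ∆ t') ∈ C ∧ t'.card ≤ 4) ↔ t' = t) ∨
    (∃ F : Finset (Finset α), F.card = 6 ∧ (∀ t', (vec (s ∆ t') ∈ C ∧ t'.card ≤ 4) ↔ t' ∈ F) ∧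
      (∀ t ∈ F, t.card = 4) ∧ (∀ t ∈ F, ∀ t' ∈ F, t ≠ t' → Disjoint t t') ∧
      F.biUnion id = Finset.univ) := by
  classical
  by_cases hsm : ∃ t : Finset α, t.card ≤ 3 ∧ vec (s ∆ t) ∈ C
  · obtain ⟨t, ht, hm⟩ := hsm
    refine Or.inl ⟨t, ht, fun t' => ⟨fun h' => (h.eq_of_close hm h'.1 (by omega)).symm, ?_⟩⟩
    rintro rfl; exact ⟨hm, by omega⟩
  · push Not at hsm
    right
    let F : Finset (Finset α) := Finset.univ.filter fun t => vec (s ∆ t) ∈ C ∧ t.card ≤ 4
    have hmemF : ∀ t', (vec (s ∆ t') ∈ C ∧ t'.card ≤ 4) ↔ t' ∈ F := fun t' => by simp [F]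
    have h4 : ∀ t ∈ F, t.card = 4 := by
      intro t ht
      have ht' := (hmemF t).mpr ht
      by_contra hne
      exact hsm t (by omega) ht'.1
    have hd : ∀ t ∈ F, ∀ t' ∈ F, t ≠ t' → Disjoint t t' := by
      intro t ht t' ht' hne
      have h1 := ((hmemF t).mpr ht).1
      have h2 := ((hmemF t').mpr ht').1
      have h3 := h.symmDiff_mem h1 h2
      rw [symmDiff_symmDiff_symmDiff_comm, symmDiff_self, bot_symmDiff] at h3
      have h8 := h.min_card h3 (fun he => hne (symmDiff_eq_bot.mp he))
      have hc := card_symmDiff_add t t'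
      have := h4 t ht
      have := h4 t' ht'
      rw [Finset.disjoint_iff_inter_eq_empty]
      exact Finset.card_eq_zero.mp (by omega)
    have hu : F.biUnion id = Finset.univ := by
      refine Finset.eq_univ_iff_forall.mpr fun i => ?_
      obtain ⟨t, ht, hm⟩ := h.exists_leader s i
      rcases ht with ht | ⟨ht, hi⟩
      · exact absurd hm (hsm t ht)
      · exact Finset.mem_biUnion.mpr ⟨t, (hmemF t).mp ⟨hm, by omega⟩, hi⟩
    have h6 : F.card = 6 := by
      have := Finset.card_biUnion (s := F) (t := id) hd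
      simp only [id] at this
      rw [hu, Finset.card_univ, h.card_pts, Finset.sum_congr rfl h4] at this
      simp at this; omega
    exact ⟨F, h6, hmemF, h4, hd, hu⟩

end IsGolayLike

end CfsgLib.ExtraspecialLarge
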