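import Cfsg.Agent.Lib.Golay.Stab
import Cfsg.Prelude.Def_SporadicCombinatorics

/-!
The joint stabiliser of a dodecad and a hexad on it is the symmetric group of degree 6.
-/

set_option autoImplicit false

namespace CfsgLib.ExtraspecialLarge.HexadStabilizer

open Cfsg CfsgLib.Golay MulAction
open scoped Pointwise

theorem eq_one_of_fix_five {d s : Finset GolayPt} (hd : d ∈ dodecads) (hs : s ⊆ d)
    (hcard : 5 ≤ s.card) {g : M24} (hg : g • d = d) (hfix : ∀ p ∈ s, g.1 p = p) : g = 1 := by
  obtain ⟨t, ht, ht5⟩ := Finset.exists_subset_card_eq hcard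
  set x : Fin 5 ↪ GolayPt :=
    (Finset.equivFinOfCardEq ht5).symm.toEmbedding.trans (Function.Embedding.subtype _)
  have hx : ∀ i, x i ∈ t := fun i => ((Finset.equivFinOfCardEq ht5).symm i).2
  have h := (sharply_five_transitive hd x x (fun i => hs (ht (hx i))) (fun i => hs (ht (hx i)))).unique
    (y₁ := (⟨g, hg⟩ : stabilizer M24 d)) (y₂ := 1) (fun i => hfix _ (ht (hx i))) (fun i => rfl)
  exact congrArg Subtype.val h

theorem exists_map_hexad {d C : Finset GolayPt} (hd : d ∈ dodecads) (hC : C ∈ hexadsOn d)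
    (x y : Fin 5 ↪ GolayPt) (hx : ∀ i, x i ∈ C) (hy : ∀ i, y i ∈ C) :
    ∃ g ∈ stabilizer M24 d ⊓ stabilizer M24 C, ∀ i, (g : Equiv.Perm GolayPt) (x i) = y i := by
  obtain ⟨hC6, o, ho, hoC⟩ := hC
  have hCd : C ⊆ d := hoC ▸ Finset.inter_subset_right
  have hCo : C ⊆ o := hoC ▸ Finset.inter_subset_left
  obtain ⟨g, hg, -⟩ := sharply_five_transitive hd x y (fun i => hCd (hx i)) (fun i => hCd (hy i))
  have hgd : (g : M24) • d = d := g.2
  have hgo : (g : M24) • o = o := by
    refine octad_unique (smul_mem_octads (g : M24).2 ho) ho ?_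
    have hsub : Finset.univ.map y ⊆ (g : M24) • o ∩ o := by
      intro q hq
      obtain ⟨i, -, rfl⟩ := Finset.mem_map.1 hq
      refine Finset.mem_inter.2 ⟨?_, hCo (hy i)⟩
      rw [← hg i]
      exact Finset.smul_mem_smul_finset (hCo (hx i))
    have h := Finset.card_le_card hsub
    rwa [Finset.card_map, Finset.card_univ, Fintype.card_fin] at h
  refine ⟨g, Subgroup.mem_inf.2 ⟨hgd, ?_⟩, hg⟩
  rw [mem_stabilizer_iff, ← hoC, Finset.smul_finset_inter, hgo, hgd]

theorem smul_eq_iff_mem {g : M24} {C : Finset GolayPt} (h : g • C = C) (p : GolayPt) :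
    g.1 p ∈ C ↔ p ∈ C := by
  conv_lhs => rw [← h]
  exact Finset.smul_mem_smul_finset_iff (g : M24)

/-- The restriction to an invariant set. -/
def restrictHom (H : Subgroup M24) (C : Finset GolayPt) (h : ∀ g ∈ H, g • C = C) :
    H →* Equiv.Perm {p // p ∈ C} where
  toFun g := (g : M24).1.subtypePerm fun p => smul_eq_iff_mem (h g g.2) p
  map_one' := by ext p; rfl
  map_mul' a b := by ext p; rfl

theorem hexad_stabilizer {d C : Finset GolayPt} (hd : d ∈ dodecads) (hC : C ∈ hexadsOn d) :
    Nonempty (↥(stabilizer M24 d ⊓ stabilizer M24 C) ≃* Equiv.Perm (Fin 6)) ∧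
    (∀ g ∈ stabilizer M24 d ⊓ stabilizer M24 C, (∀ p ∈ C, g.1 p = p) → g = 1) ∧
    ∀ g ∈ stabilizer M24 d ⊓ stabilizer M24 C, (∀ p ∈ d \ C, g.1 p = p) → g = 1 := by
  obtain ⟨hC6, o, ho, hoC⟩ := id hC
  have hCd : C ⊆ d := hoC ▸ Finset.inter_subset_right
  have hfaith : ∀ g ∈ stabilizer M24 d ⊓ stabilizer M24 C, (∀ p ∈ C, g.1 p = p) → g = 1 :=
    fun g hg h => eq_one_of_fix_five hd hCd (by omega) hg.1 h
  refine ⟨?_, hfaith, fun g hg h => eq_one_of_fix_five hd Finset.sdiff_subset ?_ hg.1 h⟩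
  · set H := stabilizer M24 d ⊓ stabilizer M24 C with hH
    let φ := restrictHom H C fun g hg => hg.2
    have hinj : Function.Injective φ := by
      rw [injective_iff_map_eq_one]
      intro k hk
      refine Subtype.ext (hfaith k k.2 fun p hp => ?_)
      exact congrArg Subtype.val (DFunLike.congr_fun hk (⟨p, hp⟩ : {p // p ∈ C}))
    have hsurj : Function.Surjective φ := by
      intro σ
      obtain ⟨t, ht, ht5⟩ := Finset.exists_subset_card_eq (s := C) (n := 5) (by omega)
      set x : Fin 5 ↪ GolayPt :=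
        (Finset.equivFinOfCardEq ht5).symm.toEmbedding.trans (Function.Embedding.subtype _)
      have hx : ∀ i, x i ∈ C := fun i => ht ((Finset.equivFinOfCardEq ht5).symm i).2
      let y : Fin 5 ↪ GolayPt := ⟨fun i => (σ ⟨x i, hx i⟩ : GolayPt), fun i j e =>
        x.injective (congrArg (fun p : {p // p ∈ C} => (p : GolayPt)) (σ.injective (Subtype.ext e)))⟩
      obtain ⟨g, hg, hgx⟩ := exists_map_hexad hd hC x y hx (fun i => (σ ⟨x i, hx i⟩).2)
      refine ⟨⟨g, hg⟩, ?_⟩
      set δ : Equiv.Perm {p // p ∈ C} := σ⁻¹ * φ ⟨g, hg⟩ with hδ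
      suffices δ = 1 by rw [hδ, inv_mul_eq_one] at this; exact this.symm
      have hfix : ∀ p : {p // p ∈ C}, (p : GolayPt) ∈ t → δ p = p := by
        intro p hp
        obtain ⟨i, hi⟩ := (Finset.equivFinOfCardEq ht5).symm.surjective ⟨p.1, hp⟩
        have hxi : x i = p.1 := congrArg Subtype.val hi
        have hp' : p = ⟨x i, hx i⟩ := Subtype.ext hxi.symm
        rw [hδ, Equiv.Perm.mul_apply, Equiv.Perm.inv_eq_iff_eq, hp']
        exact Subtype.ext (hgx i)
      refine Equiv.ext fun p => Subtype.ext ?_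
      rw [Equiv.Perm.one_apply]
      by_cases hp : (p : GolayPt) ∈ t
      · rw [hfix p hp]
      · by_contra hne
        have h1 : (δ p : GolayPt) ∉ t := by
          intro hin
          have := hfix (δ p) hin
          rw [δ.injective this] at hin
          exact hp hin
        have hsub : ({(p : GolayPt), (δ p : GolayPt)} : Finset GolayPt) ⊆ C \ t := by
          intro q hq
          simp only [Finset.mem_insert, Finset.mem_singleton] at hq
          rcases hq with rfl | rfl
          · exact Finset.mem_sdiff.2 ⟨p.2, hp⟩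
          · exact Finset.mem_sdiff.2 ⟨(δ p).2, h1⟩
        have hle := Finset.card_le_card hsub
        rw [Finset.card_pair (Ne.symm hne), Finset.card_sdiff_of_subset ht] at hle
        omega
    exact ⟨(MulEquiv.ofBijective φ ⟨hinj, hsurj⟩).trans
      (Equiv.permCongrHom (Finset.equivFinOfCardEq hC6))⟩
  · rw [Finset.card_sdiff_of_subset hCd, hd.2, hC6]
    norm_num

end CfsgLib.ExtraspecialLarge.HexadStabilizer
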