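import Cfsg.Prelude.Def_SporadicCombinatorics
import Cfsg.Agent.Lib.Leech.Norm

/-!
Signed permutations of the code act as automorphisms of the lattice.
-/

set_option autoImplicit false

namespace CfsgLib.ExtraspecialLarge

open Cfsg CfsgLib.Leech
open scoped Pointwise

theorem smul_supports_of_comp {σ : Equiv.Perm GolayPt}
    (h : ∀ w ∈ golayCode, (fun i => w (σ.symm i)) ∈ golayCode) : σ ∈ Cfsg.M24 := by
  rw [MulAction.mem_stabilizer_iff]
  have hsub : ∀ s ∈ supports (golayCode : Set (GolayPt → ZMod 2)),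
      σ • s ∈ supports (golayCode : Set (GolayPt → ZMod 2)) := by
    rintro _ ⟨w, hw, rfl⟩
    refine ⟨_, h w hw, ?_⟩
    ext i
    simp only [support₂, Finset.mem_filter, Finset.mem_univ, true_and, Finset.mem_smul_finset]
    constructor
    · intro hi; exact ⟨σ.symm i, hi, by simp [Equiv.Perm.smul_def]⟩
    · rintro ⟨j, hj, rfl⟩; simpa [Equiv.Perm.smul_def] using hj
  have hfin : (supports (golayCode : Set (GolayPt → ZMod 2))).Finite := Set.toFinite _
  refine Set.eq_of_subset_of_ncard_le ?_ ?_ (Set.toFinite _)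
  · rintro _ ⟨s, hs, rfl⟩; exact hsub s hs
  · rw [show σ • supports (golayCode : Set (GolayPt → ZMod 2)) =
      (fun s => σ • s) '' supports (golayCode : Set (GolayPt → ZMod 2)) from rfl,
      Set.ncard_image_of_injective _ (MulAction.injective σ)]

theorem perm_mem_leechLattice {σ : Equiv.Perm GolayPt}
    (h : ∀ w ∈ golayCode, (fun i => w (σ.symm i)) ∈ golayCode) {x : GolayPt → ℤ}
    (hx : x ∈ leechLattice) : (fun i => x (σ.symm i)) ∈ leechLattice := by
  obtain ⟨m, -, c, hc, z, rfl, hd⟩ := mem_leechLattice_iff.1 hx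
  have e : (fun i => mkVec m c z (σ.symm i)) =
      mkVec m (fun i => c (σ.symm i)) (fun i => z (σ.symm i)) := by
    funext i; simp [mkVec, bitVec]
  rw [e]
  exact mkVec_mem (h c hc) (by rwa [Equiv.sum_comp σ.symm z])

theorem sign_mem_leechLattice {d : GolayPt → ZMod 2} (hd : d ∈ golayCode) {x : GolayPt → ℤ}
    (hx : x ∈ leechLattice) : (fun i => x i - 2 * bitVec d i * x i) ∈ leechLattice := by
  obtain ⟨m, -, c, hc, z, rfl, hdvd⟩ := mem_leechLattice_iff.1 hx
  have e : (fun i => mkVec m c z i - 2 * bitVec d i * mkVec m c z i) = mkVec m c z +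
      ((-m) • mkVec 0 d 0 +
        mkVec 0 0 (fun i => -(bitVec d i * bitVec c i) - 2 * (bitVec d i * z i))) := by
    funext i
    simp [mkVec, bitVec_zero]
    ring
  rw [e]
  refine add_mem hx (add_mem (zsmul_mem (mkVec_mem hd (by simp)) _) (mkVec_mem golayCode.zero_mem ?_))
  rw [Finset.sum_sub_distrib, Finset.sum_neg_distrib, ← Finset.mul_sum, sub_zero]
  exact dvd_sub (dvd_neg.mpr (even_sum_bitVec_mul hd hc)) (dvd_mul_right _ _)

theorem signedPerm_mem {σ : Equiv.Perm GolayPt}
    (h : ∀ w ∈ golayCode, (fun i => w (σ.symm i)) ∈ golayCode) {d : GolayPt → ZMod 2}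
    (hd : d ∈ golayCode) {x : GolayPt → ℤ} (hx : x ∈ leechLattice) :
    signedPerm σ (support₂ d) x ∈ leechLattice := by
  convert sign_mem_leechLattice hd (perm_mem_leechLattice h hx) using 1
  funext i
  rcases zmod2_cases (d i) with hi | hi <;> simp [signedPerm, support₂, bitVec, hi]
  ring

end CfsgLib.ExtraspecialLarge
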