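/-! Witness tables for the centraliser of a fixed-point-free involution of `Cfsg.M24`. -/

set_option autoImplicit false

namespace CfsgLib.ExtraspecialLarge.M24Centralizer

/-- Elements of the centraliser at level 0. -/
def levelTbls0 : List Nat :=
  [984818244535754528103549039458486304,
   962346518202716636756516407676600545,
   569919885448354972780062718036610274,
   305301831005210038238374527114730051,
   775641270192838076275131828176689444,
   609495734393756222760115850862414981,
   681677076351113754358034816064080422,
   878400827601512415160632192719761831,
   545892637405450715553855775802208872,
   751221282496660241976239820939647177,
   3175512249401472193184306629789066,
   847092322979628095222202309178547531,
   96394003190092065258894752296409676,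
   805480742530803816188623142443638125,
   268789514016528858159899537359687790,
   585660940784129270175726128666533583,
   819828941740426397182627546042544368,
   143575785018739465158841274097337649,
   726215796075388358713539029723619058,
   126371718524687847333372432708941843,
   687556710546757896080661197694742260,
   593437223428728131642564558687607957,
   126319602473127218839935803759671606,
   477268157441370090602723096935485975]

/-- Elements of the centraliser at level 1. -/
def levelTbls1 : List Nat :=
  [984818244535754528103549039458486304,
   431311150976029082721978050961595456,
   392817435651944975586898420717290592,
   641676619761599227819171504864232576,
   724832122313302841061645782437921984,
   63794642351129728903202811213711584,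
   91478269490850717875732911438222592,
   425879521858110341595472971177343264,
   144777193191080841898026577860645184,
   819418861738655524188801846714118496,
   395034913024618053619191259776393600,
   96438071364999918574916403895782848,
   417578153700987216941344212275904992,
   958241592925172551187255922413132288,
   855613947027658540872412131189118496,
   669138542955864803965090336935566944,
   70225473273647123295890292351643264,
   845700483433724688274850344129054368,
   805392981234207786588787329884053184,
   832499867266799973752877233361894112]

/-- Elements of the centraliser at level 2. -/
def levelTbls2 : List Nat :=
  [984818244535754528103549039458486304,
   379954624909108566492414667413228576,
   627672209999868113728363817678278688,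
   734036414238633752403396603513215008,
   435031563355980946713563133956529184,
   275706580675859058725924618722681888,
   108557127451575167669125780589815840,
   520780441832078800888130167110773792,
   860712619645309858443502941336219680,
   882347074556571235891377114639350816,
   139684541565862590408508699856061472,
   470190985930296635680837559640607776,
   801036954194895617423175971035074592,
   922027215966956448120727784314491936,
   169166965362431401465062452211636256,
   306819226160646839369365069312089120]

/-- The refinement certificate. -/
def finalCert : List Nat := [10558, 15777, 45159, 31554, 69395, 133817, 525274, 1050548, 2101096, 4196943]

end CfsgLib.ExtraspecialLarge.M24Centralizer
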