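import Cfsg.Agent.Lib.ExtraspecialLarge.M24Invariant
import Cfsg.Agent.Lib.ExtraspecialLarge.M24CentData

/-!
The centraliser in `Cfsg.M24` of a fixed-point-free involution: order 7680, transitive, inside the
stabiliser of the one invariant sextet all of whose tetrads are invariant.
-/

set_option autoImplicit false

namespace CfsgLib.ExtraspecialLarge.M24Centralizer

open Cfsg CfsgLib.Golay
open scoped Pointwise

/-- The tetrad of the distinguished sextet holding point 0. -/
def tet0 : ℕ := 270369

/-- The tetrad of the distinguished sextet holding point 1. -/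
def tet1 : ℕ := 82178

/-- The distinguished sextet of the representative. -/
noncomputable def centSextet : Finset (Finset GolayPt) := GolayStructure.sextetOf (unmask tet0)

/-- The centraliser in `M24` of a permutation. -/
def centM24 (r : Equiv.Perm GolayPt) : Subgroup (Equiv.Perm GolayPt) :=
  M24 ⊓ Subgroup.centralizer {r}

theorem mem_centM24 {r c : Equiv.Perm GolayPt} : c ∈ centM24 r ↔ c ∈ M24 ∧ c * r = r * c := by
  rw [centM24, Subgroup.mem_inf, Subgroup.mem_centralizer_singleton_iff]

/-- The table commutes with the representative and is in `M24`. -/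
def centTbl (t : ℕ) : Bool :=
  inM24 t && (List.range 24).all fun i =>
    tblAt t (tblAt M24Classes.repFree2 i) == tblAt M24Classes.repFree2 (tblAt t i)

theorem exists_cent {r : Equiv.Perm GolayPt} (hr : IsTbl r M24Classes.repFree2) {t : ℕ}
    (ht : centTbl t = true) : ∃ c ∈ centM24 r, IsTbl c t := by
  simp only [centTbl, Bool.and_eq_true, List.all_eq_true, List.mem_range, beq_iff_eq] at ht
  obtain ⟨c, hc⟩ := exists_isTbl (show okTbl t = true by
    have h := ht.1; simp only [inM24, Bool.and_eq_true] at h; exact h.1)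
  refine ⟨c, mem_centM24.2 ⟨mem_M24_of_isTbl hc ht.1, Equiv.ext fun p => idx_injective ?_⟩, hc⟩
  rw [Equiv.Perm.mul_apply, Equiv.Perm.mul_apply, hc, hr, hr, hc]
  exact ht.2 _ (idx_lt p)

/-- Every tetrad of a sextet is invariant. -/
def AllTetradsFixed (r : Equiv.Perm GolayPt) (S : Finset (Finset GolayPt)) : Prop :=
  ∀ T ∈ S, r • T = T

/-- Every tetrad of the sextet of the tetrad `m` is invariant under the table. -/
def distMask (t m : ℕ) : Bool :=
  imgMask t m == m && (List.range 759).all fun j =>
    !(m &&& GolayStructure.fieldAt 24 GolayStructure.octadTable j == m) ||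
      imgMask t (GolayStructure.fieldAt 24 GolayStructure.octadTable j ^^^ m) ==
        GolayStructure.fieldAt 24 GolayStructure.octadTable j ^^^ m

theorem distMask_iff {r : Equiv.Perm GolayPt} {t m : ℕ} (hr : IsTbl r t) (ht : okTbl t = true)
    (hm : m < 2 ^ 24) :
    AllTetradsFixed r (GolayStructure.sextetOf (unmask m)) ↔ distMask t m = true := by
  have hxor : ∀ o : ℕ, unmask m ⊆ unmask o → unmask (o ^^^ m) = unmask o \ unmask m := by
    intro o ho
    ext p
    rw [unmask_xor, Finset.mem_symmDiff, Finset.mem_sdiff]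
    exact ⟨fun h => h.resolve_right fun h' => h'.2 (ho h'.1), Or.inl⟩
  simp only [distMask, Bool.and_eq_true, beq_iff_eq, List.all_eq_true, List.mem_range,
    Bool.or_eq_true, Bool.not_eq_true', beq_eq_false_iff_ne]
  constructor
  · intro h
    refine ⟨unmask_injOn (M24Invariant.imgMask_lt ht _) hm ?_, fun j hj => ?_⟩
    · rw [← smul_unmask hr]
      exact h _ (Finset.mem_insert_self _ _)
    · by_cases hsub : m &&& GolayStructure.fieldAt 24 GolayStructure.octadTable j = m
      · refine Or.inr (unmask_injOn (M24Invariant.imgMask_lt ht _)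
          (Nat.xor_lt_two_pow (GolayStructure.fieldAt_lt_pow ..) hm) ?_)
        rw [← smul_unmask hr]
        refine h _ (Finset.mem_insert_of_mem (GolayStructure.mem_partners.2 ⟨_,
          GolayStructure.octad_mapsTo j hj, unmask_subset hsub, (hxor _ (unmask_subset hsub)).symm⟩))
      · exact Or.inl hsub
  · rintro ⟨h0, h⟩ T hT
    rcases Finset.mem_insert.1 hT with rfl | hT
    · rw [smul_unmask hr, h0]
    · obtain ⟨o, ho, hsub, rfl⟩ := GolayStructure.mem_partners.1 hT
      rw [← GolayStructure.octadAll.image_eq (by norm_num)] at ho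
      obtain ⟨j, hj, rfl⟩ := ho
      change unmask m ⊆ unmask _ at hsub
      rcases h j hj with hne | he
      · refine absurd (unmask_injOn (Nat.and_lt_two_pow _ (GolayStructure.fieldAt_lt_pow ..)) hm
          ?_) hne
        rw [unmask_and, Finset.inter_eq_left]
        exact hsub
      · show r • (unmask _ \ unmask m) = unmask _ \ unmask m
        rw [← hxor _ hsub, smul_unmask hr]
        exact congrArg unmask he

theorem tet_checks :
    M24Invariant.sameSextet tet1 tet0 = true ∧
    M24Invariant.sameSextet (GolayStructure.fieldAt 24 GolayStructure.sextetTable 229) tet0 = true ∧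
    popc tet0 = 4 ∧ popc tet1 = 4 ∧ distMask M24Classes.repFree2 tet0 = true ∧
    (List.range 1771).all (fun k => k == 229 ||
      !distMask M24Classes.repFree2 (GolayStructure.fieldAt 24 GolayStructure.sextetTable k)) =
      true ∧
    tet0.testBit 0 = true ∧ tet1.testBit 1 = true := by
  decide +kernel

theorem okTbl_repFree2 : okTbl M24Classes.repFree2 = true := by decide +kernel

theorem centSextet_mem : centSextet ∈ sextets :=
  GolayStructure.sextetOf_mem (by rw [card_unmask]; exact tet_checks.2.2.1)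

theorem tet1_mem : unmask tet1 ∈ centSextet := by
  have h := (M24Invariant.sextetOf_eq_iff (q := tet1) (m := tet0) (by norm_num [tet1])
    (by norm_num [tet0]) (by rw [card_unmask]; exact tet_checks.2.2.2.1)
    (by rw [card_unmask]; exact tet_checks.2.2.1)).2 tet_checks.1
  rw [centSextet, ← h]
  exact Finset.mem_insert_self _ _

theorem eq_centSextet {r : Equiv.Perm GolayPt} (hr : IsTbl r M24Classes.repFree2)
    {S : Finset (Finset GolayPt)} (hS : S ∈ sextets) (h : AllTetradsFixed r S) :
    S = centSextet := by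
  rw [← GolayStructure.sextetAll.image_eq (by norm_num)] at hS
  obtain ⟨k, hk, rfl⟩ := hS
  replace h : AllTetradsFixed r (GolayStructure.sextetOf
      (unmask (GolayStructure.fieldAt 24 GolayStructure.sextetTable k))) := h
  rw [distMask_iff hr okTbl_repFree2 (GolayStructure.fieldAt_lt_pow ..)] at h
  have h229 : k = 229 := by
    have := List.all_eq_true.1 tet_checks.2.2.2.2.2.1 k (List.mem_range.2 hk)
    simp only [Bool.or_eq_true, beq_iff_eq, Bool.not_eq_true'] at this
    rcases this with e | e
    · exact e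
    · exact absurd (h.symm.trans e) (by simp)
  subst h229
  have hc := List.all_eq_true.1 GolayStructure.sextet_canon 229 (List.mem_range.2 (by norm_num))
  simp only [Bool.and_eq_true, beq_iff_eq] at hc
  exact (M24Invariant.sextetOf_eq_iff (GolayStructure.fieldAt_lt_pow ..) (by norm_num [tet0])
    (by rw [card_unmask, hc.1]) (by rw [card_unmask]; exact tet_checks.2.2.1)).2 tet_checks.2.1

theorem allTetradsFixed_centSextet {r : Equiv.Perm GolayPt}
    (hr : IsTbl r M24Classes.repFree2) : AllTetradsFixed r centSextet :=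
  (distMask_iff hr okTbl_repFree2 (by norm_num [tet0])).2 tet_checks.2.2.2.2.1

theorem smul_centSextet_rep {r : Equiv.Perm GolayPt} (hr : IsTbl r M24Classes.repFree2) :
    r • centSextet = centSextet := by
  refine Finset.eq_of_subset_of_card_le (fun T hT => ?_) (le_of_eq (Finset.card_smul_finset _ _).symm)
  obtain ⟨U, hU, rfl⟩ := Finset.mem_smul_finset.1 hT
  rwa [allTetradsFixed_centSextet hr U hU]

theorem smul_centSextet {r : Equiv.Perm GolayPt} (hr : IsTbl r M24Classes.repFree2)
    {c : Equiv.Perm GolayPt} (hc : c ∈ centM24 r) : c • centSextet = centSextet := by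
  obtain ⟨hcM, hcr⟩ := mem_centM24.1 hc
  refine eq_centSextet hr (M24Invariant.smul_mem_sextets hcM centSextet_mem) fun T hT => ?_
  obtain ⟨U, hU, rfl⟩ := Finset.mem_smul_finset.1 hT
  rw [smul_smul, ← hcr, mul_smul, allTetradsFixed_centSextet hr U hU]

/-- An element of the centraliser fixing a point fixes its tetrad of the distinguished sextet. -/
theorem smul_tetrad {r : Equiv.Perm GolayPt} (hr : IsTbl r M24Classes.repFree2)
    {c : Equiv.Perm GolayPt} (hc : c ∈ centM24 r) {T : Finset GolayPt} (hT : T ∈ centSextet)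
    {p : GolayPt} (hp : p ∈ T) (hcp : c p = p) : c • T = T := by
  by_contra hne
  have hmem : c • T ∈ centSextet := smul_centSextet hr hc ▸ Finset.smul_mem_smul_finset hT
  refine Finset.disjoint_left.1 (GolayStructure.sextet_disjoint centSextet_mem hT hmem
    (fun e => hne e.symm)) hp ?_
  have h := Finset.smul_mem_smul_finset (a := c) hp
  rwa [Equiv.Perm.smul_def, hcp] at h

/-- The sets refined to points. -/
def finalSets : List ℕ := [2 ^ 0, 2 ^ 13, 2 ^ 1, 2 ^ 8, 2 ^ 2, 2 ^ 11, tet0, tet1]

theorem level_checks :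
    levelTbls0.all centTbl = true ∧
    levelTbls1.all (fun t => centTbl t && tblAt t 0 == 0) = true ∧
    levelTbls2.all (fun t => centTbl t && tblAt t 0 == 0 && tblAt t 1 == 1) = true ∧
    (∀ q : GolayPt, (levelTbls0.any fun t => tblAt t 0 == idx q) = true) ∧
    (∀ q : GolayPt, q ∈ (unmask tet0)ᶜ → (levelTbls1.any fun t => tblAt t 1 == idx q) = true) ∧
    (∀ q : GolayPt, q ∈ (unmask tet0 ∪ unmask tet1)ᶜ →
      (levelTbls2.any fun t => tblAt t 2 == idx q) = true) ∧
    tblAt M24Classes.repFree2 0 = 13 ∧ tblAt M24Classes.repFree2 1 = 8 ∧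
    tblAt M24Classes.repFree2 2 = 11 ∧
    ((unmask tet0)ᶜ).card = 20 ∧ ((unmask tet0 ∪ unmask tet1)ᶜ).card = 16 ∧
    pt 1 ∈ (unmask tet0)ᶜ ∧ pt 2 ∈ (unmask tet0 ∪ unmask tet1)ᶜ ∧
    chainOK finalSets [] finalCert = true := by
  decide +kernel

theorem exists_level {r : Equiv.Perm GolayPt} (hr : IsTbl r M24Classes.repFree2) (q : GolayPt) :
    ∃ c ∈ centM24 r, c (pt 0) = q := by
  obtain ⟨t, ht, he⟩ := List.any_eq_true.1 (level_checks.2.2.2.1 q)
  obtain ⟨c, hc, hct⟩ := exists_cent hr (List.all_eq_true.1 level_checks.1 t ht)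
  refine ⟨c, hc, idx_injective ?_⟩
  rw [hct, idx_pt (by norm_num)]
  exact beq_iff_eq.1 he

theorem eq_one_of_fix {r : Equiv.Perm GolayPt} (hr : IsTbl r M24Classes.repFree2)
    {c : Equiv.Perm GolayPt} (hc : c ∈ centM24 r) (h0 : c (pt 0) = pt 0) (h1 : c (pt 1) = pt 1)
    (h2 : c (pt 2) = pt 2) : c = 1 := by
  obtain ⟨hcM, hcr⟩ := mem_centM24.1 hc
  have hpair : ∀ i j, i < 24 → tblAt M24Classes.repFree2 i = j → c (pt i) = pt i →
      c (pt j) = pt j := by
    intro i j hi hij hf
    have e : r (pt i) = pt j := by rw [← pt_idx (r (pt i)), hr, idx_pt hi, hij]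
    rw [← e, ← Equiv.Perm.mul_apply, hcr, Equiv.Perm.mul_apply, hf]
  obtain ⟨-, -, -, -, -, -, e0, e1, e2, -, -, -, -, hchain⟩ := level_checks
  have hmem : c ∈ stabK finalSets := by
    rw [mem_stabK]
    refine ⟨hcM, ?_⟩
    have hsing : ∀ i, i < 24 → c (pt i) = pt i → c • unmask (2 ^ i) = unmask (2 ^ i) := by
      intro i hi hf
      rw [unmask_two_pow_of_lt hi, Finset.smul_finset_singleton, Equiv.Perm.smul_def, hf]
    intro n hn
    simp only [finalSets, List.mem_cons, List.not_mem_nil, or_false] at hn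
    rcases hn with rfl | rfl | rfl | rfl | rfl | rfl | rfl | rfl
    · exact hsing 0 (by norm_num) h0
    · exact hsing 13 (by norm_num) (hpair 0 13 (by norm_num) e0 h0)
    · exact hsing 1 (by norm_num) h1
    · exact hsing 8 (by norm_num) (hpair 1 8 (by norm_num) e1 h1)
    · exact hsing 2 (by norm_num) h2
    · exact hsing 11 (by norm_num) (hpair 2 11 (by norm_num) e2 h2)
    · exact smul_tetrad hr hc (Finset.mem_insert_self _ _)
        ((pt_mem_unmask (by norm_num)).2 tet_checks.2.2.2.2.2.2.1) h0
    · exact smul_tetrad hr hc tet1_mem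
        ((pt_mem_unmask (by norm_num)).2 tet_checks.2.2.2.2.2.2.2) h1
  rw [stabK_eq_bot hchain] at hmem
  exact Subgroup.mem_bot.1 hmem

theorem natCard_centM24 {r : Equiv.Perm GolayPt} (hr : IsTbl r M24Classes.repFree2) :
    Nat.card (centM24 r) = 7680 := by
  obtain ⟨-, g1, g2, -, x1, x2, -, -, -, n1, n2, m1, m2, -⟩ := level_checks
  have hz0 : pt 0 ∈ unmask tet0 := (pt_mem_unmask (by norm_num)).2 tet_checks.2.2.2.2.2.2.1
  have hz1 : pt 1 ∈ unmask tet1 := (pt_mem_unmask (by norm_num)).2 tet_checks.2.2.2.2.2.2.2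
  have hout : ∀ (c : Equiv.Perm GolayPt) (U : Finset GolayPt), c • U = U → ∀ q ∈ Uᶜ,
      c q ∈ Uᶜ := by
    intro c U hU q hq
    rw [Finset.mem_compl] at hq ⊢
    rw [← hU]
    exact fun h => hq (by
      obtain ⟨u, hu, e⟩ := Finset.mem_smul_finset.1 h
      rwa [← c.injective e])
  rw [card_subgroup_mul (K := centM24 r) (p := pt 0) (O := Finset.univ)
      (fun g _ => Finset.mem_univ _) (fun q _ => exists_level hr q),
    card_subgroup_mul (p := pt 1) (O := (unmask tet0)ᶜ),
    card_subgroup_mul (p := pt 2) (O := (unmask tet0 ∪ unmask tet1)ᶜ), n1, n2]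
  · have hbot : centM24 r ⊓ MulAction.stabilizer (Equiv.Perm GolayPt) (pt 0) ⊓
        MulAction.stabilizer (Equiv.Perm GolayPt) (pt 1) ⊓
        MulAction.stabilizer (Equiv.Perm GolayPt) (pt 2) = ⊥ := by
      rw [Subgroup.eq_bot_iff_forall]
      intro c hc
      simp only [Subgroup.mem_inf, MulAction.mem_stabilizer_iff, Equiv.Perm.smul_def] at hc
      exact eq_one_of_fix hr hc.1.1.1 hc.1.1.2 hc.1.2 hc.2
    rw [hbot, Subgroup.card_bot, Finset.card_univ, GolayStructure.card_golayPt]
  · intro c hc
    simp only [Subgroup.mem_inf, MulAction.mem_stabilizer_iff, Equiv.Perm.smul_def] at hc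
    refine hout c _ ?_ _ m2
    rw [Finset.smul_finset_union, smul_tetrad hr hc.1.1 (Finset.mem_insert_self _ _) hz0 hc.1.2,
      smul_tetrad hr hc.1.1 tet1_mem hz1 hc.2]
  · intro q hq
    obtain ⟨t, ht, he⟩ := List.any_eq_true.1 (x2 q hq)
    have h := List.all_eq_true.1 g2 t ht
    simp only [Bool.and_eq_true, beq_iff_eq] at h he
    obtain ⟨c, hc, hct⟩ := exists_cent hr h.1.1
    refine ⟨c, ⟨⟨hc, ?_⟩, ?_⟩, idx_injective (by rw [hct, idx_pt (by norm_num), he])⟩ <;>
      · show c (pt _) = pt _
        refine idx_injective ?_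
        rw [hct, idx_pt (by norm_num)]
        first
          | exact h.1.2
          | exact h.2
  · intro c hc
    simp only [Subgroup.mem_inf, MulAction.mem_stabilizer_iff, Equiv.Perm.smul_def] at hc
    exact hout c _ (smul_tetrad hr hc.1 (Finset.mem_insert_self _ _) hz0 hc.2) _ m1
  · intro q hq
    obtain ⟨t, ht, he⟩ := List.any_eq_true.1 (x1 q hq)
    have h := List.all_eq_true.1 g1 t ht
    simp only [Bool.and_eq_true, beq_iff_eq] at h he
    obtain ⟨c, hc, hct⟩ := exists_cent hr h.1
    refine ⟨c, ⟨hc, ?_⟩, idx_injective (by rw [hct, idx_pt (by norm_num), he])⟩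
    show c (pt _) = pt _
    refine idx_injective ?_
    rw [hct, idx_pt (by norm_num)]
    exact h.2

/-- The table of a fixed-point-free element of order 3 of the centraliser. -/
def centThree : ℕ := 337507125430566186163118744458965711

theorem centThree_checks : centTbl centThree = true ∧
    ((List.range 24).all fun x => M24Classes.iterAt centThree 3 x == x) = true ∧
    (∀ p : GolayPt, tblAt centThree (idx p) ≠ idx p) := by
  decide +kernel

theorem natCard_cent_conj {r w t : Equiv.Perm GolayPt} (hw : w ∈ M24) (h : w * r * w⁻¹ = t) :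
    Nat.card (centM24 t) = Nat.card (centM24 r) := by
  have hfwd : ∀ c ∈ centM24 r, w * c * w⁻¹ ∈ centM24 t := by
    intro c hc
    obtain ⟨hc, e⟩ := mem_centM24.1 hc
    refine mem_centM24.2 ⟨mul_mem (mul_mem hw hc) (inv_mem hw), ?_⟩
    calc w * c * w⁻¹ * t = w * (c * r) * w⁻¹ := by rw [← h]; group
      _ = t * (w * c * w⁻¹) := by rw [e, ← h]; group
  have hbwd : ∀ c ∈ centM24 t, w⁻¹ * c * w ∈ centM24 r := by
    intro c hc
    obtain ⟨hc, e⟩ := mem_centM24.1 hc
    refine mem_centM24.2 ⟨mul_mem (mul_mem (inv_mem hw) hc) hw, ?_⟩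
    rw [← h] at e
    calc w⁻¹ * c * w * r = w⁻¹ * (c * (w * r * w⁻¹)) * w := by group
      _ = r * (w⁻¹ * c * w) := by rw [e]; group
  exact (Nat.card_congr
    { toFun := fun c => ⟨w * c.1 * w⁻¹, hfwd _ c.2⟩
      invFun := fun c => ⟨w⁻¹ * c.1 * w, hbwd _ c.2⟩
      left_inv := fun c => Subtype.ext (by simp [mul_assoc])
      right_inv := fun c => Subtype.ext (by simp [mul_assoc]) }).symm

/-- An element of order 3 commuting with a fixed-point-free involution has no fixed point. -/
theorem three_fixedPointFree {r : Equiv.Perm GolayPt} (hr : IsTbl r M24Classes.repFree2)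
    {x : Equiv.Perm GolayPt} (hx : x ∈ centM24 r) (h3 : orderOf x = 3) (p : GolayPt) :
    x p ≠ p := by
  have : Fact (Nat.Prime 3) := ⟨Nat.prime_three⟩
  obtain ⟨y, hy, hyt⟩ := exists_cent hr centThree_checks.1
  have hy3 : y ^ 3 = 1 := Equiv.ext fun q => idx_injective (by
    rw [M24Classes.iterAt_spec hyt, Equiv.Perm.one_apply]
    exact beq_iff_eq.1 (List.all_eq_true.1 centThree_checks.2.1 _ (List.mem_range.2 (idx_lt q))))
  have hyfix : ∀ q, y q ≠ q := fun q e => centThree_checks.2.2 q (by rw [← hyt, e])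
  let X : centM24 r := ⟨x, hx⟩
  let Y : centM24 r := ⟨y, hy⟩
  have hXo : orderOf X = 3 := by rw [← Subgroup.orderOf_coe]; exact h3
  have hYo : orderOf Y = 3 := orderOf_eq_prime (Subtype.ext hy3)
    (fun e => hyfix p (by rw [show y = 1 from congrArg Subtype.val e]; rfl))
  have hfac : (Nat.card (centM24 r)).factorization 3 = 1 := by
    rw [natCard_centM24 hr, Nat.factorization_def _ Nat.prime_three]
    rw [show (7680 : ℕ) = 3 ^ 1 * 2560 by norm_num, padicValNat.mul (by norm_num) (by norm_num),
      padicValNat.prime_pow, padicValNat.eq_zero_of_not_dvd (by norm_num)]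
  let P : Sylow 3 (centM24 r) := Sylow.ofCard (Subgroup.zpowers X) (by
    rw [Nat.card_zpowers, hXo, hfac, pow_one])
  let Q : Sylow 3 (centM24 r) := Sylow.ofCard (Subgroup.zpowers Y) (by
    rw [Nat.card_zpowers, hYo, hfac, pow_one])
  obtain ⟨c, hc⟩ := MulAction.exists_smul_eq (centM24 r) P Q
  have hmem : Y ∈ (Subgroup.zpowers X).map (MulAut.conj c).toMonoidHom := by
    have h1 : Y ∈ ((c • P : Sylow 3 (centM24 r)) : Subgroup (centM24 r)) :=
      hc.symm ▸ Subgroup.mem_zpowers Y
    exact h1
  rw [MonoidHom.map_zpowers, Subgroup.mem_zpowers_iff] at hmem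
  obtain ⟨k, hk⟩ := hmem
  intro hfix
  refine hyfix ((c : Equiv.Perm GolayPt) p) ?_
  have e : y = (c : Equiv.Perm GolayPt) * x ^ k * (c : Equiv.Perm GolayPt)⁻¹ := by
    have hk' : (MulAut.conj c X) ^ k = Y := hk
    rw [← map_zpow, MulAut.conj_apply] at hk'
    have := congrArg Subtype.val hk'
    simpa [X, Y] using this.symm
  rw [e, Equiv.Perm.mul_apply, Equiv.Perm.mul_apply, Equiv.Perm.inv_def, Equiv.symm_apply_apply,
    Equiv.Perm.zpow_apply_eq_self_of_apply_eq_self hfix k]

end CfsgLib.ExtraspecialLarge.M24Centralizer
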