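import Cfsg.Agent.Lib.ExtraspecialLarge.M24Classes
import Cfsg.Agent.Lib.GolayStructure.OctadOrbits
import Cfsg.Agent.Lib.GolayStructure.SextetOrbits
import Cfsg.Agent.Lib.GolayStructure.TrioOrbits
import Cfsg.Agent.Lib.GolayStructure.DodecadOrbits

/-!
Counting the octads, dodecads, sextets and trios mapped to themselves by a permutation given by a
table.
-/

set_option autoImplicit false

namespace CfsgLib.ExtraspecialLarge.M24Invariant

open Cfsg CfsgLib.Golay
open scoped Pointwise

/-- Conjugate elements fix as many elements of an invariant set. -/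
theorem ncard_fixed_conj {X : Type*} [MulAction (Equiv.Perm GolayPt) X] {Ω : Set X}
    (hΩ : ∀ g ∈ M24, ∀ x ∈ Ω, g • x ∈ Ω) {w r g : Equiv.Perm GolayPt} (hw : w ∈ M24)
    (h : w * r * w⁻¹ = g) :
    {x | x ∈ Ω ∧ g • x = x}.ncard = {x | x ∈ Ω ∧ r • x = x}.ncard := by
  have hset : {x | x ∈ Ω ∧ g • x = x} = (fun x => w • x) '' {x | x ∈ Ω ∧ r • x = x} := by
    ext x
    constructor
    · rintro ⟨hx, hgx⟩
      refine ⟨w⁻¹ • x, ⟨hΩ _ (inv_mem hw) _ hx, ?_⟩, smul_inv_smul _ _⟩
      rw [← h, mul_smul, mul_smul] at hgx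
      rw [eq_inv_smul_iff, hgx]
    · rintro ⟨y, ⟨hy, hry⟩, rfl⟩
      refine ⟨hΩ _ hw _ hy, ?_⟩
      rw [← h, mul_smul, mul_smul, inv_smul_smul, hry]
  rw [hset, Set.ncard_image_of_injective _ (MulAction.injective w)]

/-- Counting fixed elements in an injective enumeration. -/
theorem ncard_fixed_enum {X : Type*} [MulAction (Equiv.Perm GolayPt) X] {Ω : Set X} {N : ℕ}
    {f : ℕ → X} (hf : f '' {k | k < N} = Ω) (hinj : Set.InjOn f {k | k < N})
    (r : Equiv.Perm GolayPt) (b : ℕ → Bool) (hb : ∀ k < N, r • f k = f k ↔ b k = true) :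
    {x | x ∈ Ω ∧ r • x = x}.ncard = ((List.range N).filter b).length := by
  have hset : {x | x ∈ Ω ∧ r • x = x} = f '' {k | k < N ∧ b k = true} := by
    ext x
    constructor
    · rintro ⟨hx, hrx⟩
      rw [← hf] at hx
      obtain ⟨k, hk, rfl⟩ := hx
      exact ⟨k, ⟨hk, (hb k hk).1 hrx⟩, rfl⟩
    · rintro ⟨k, ⟨hk, hbk⟩, rfl⟩
      exact ⟨hf ▸ ⟨k, hk, rfl⟩, (hb k hk).2 hbk⟩
  rw [hset, (hinj.mono fun k hk => hk.1).ncard_image,
    show {k | k < N ∧ b k = true} = ↑((List.range N).filter b).toFinset by ext; simp,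
    Set.ncard_coe_finset, List.toFinset_card_of_nodup (List.nodup_range.filter _)]

theorem imgMask_lt {t : ℕ} (h : okTbl t = true) (m : ℕ) : imgMask t m < 2 ^ 24 := by
  simp only [okTbl, Bool.and_eq_true, List.all_eq_true, List.mem_range, decide_eq_true_eq] at h
  apply Nat.lt_pow_two_of_testBit
  intro j hj
  by_contra hb
  obtain ⟨i, hi, -, he⟩ := testBit_imgMask.1 (by simpa using hb)
  have := h.1 i hi
  omega

/-- Octads fixed by a table permutation. -/
def octadCount (t : ℕ) : ℕ :=
  ((List.range 759).filter fun k => imgMask t (GolayStructure.fieldAt 24 GolayStructure.octadTable k)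
    == GolayStructure.fieldAt 24 GolayStructure.octadTable k).length

theorem ncard_fixed_octads {r : Equiv.Perm GolayPt} {t : ℕ} (h : IsTbl r t)
    (ht : okTbl t = true) :
    {o : Finset GolayPt | o ∈ octads ∧ r • o = o}.ncard = octadCount t := by
  refine ncard_fixed_enum (GolayStructure.octadAll.image_eq (by norm_num))
    GolayStructure.octadAll.injOn r _ fun k _ => ?_
  show r • unmask _ = unmask _ ↔ _
  rw [smul_unmask h, beq_iff_eq]
  exact ⟨fun e => unmask_injOn (imgMask_lt ht _) (GolayStructure.fieldAt_lt_pow ..) e,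
    fun e => congrArg unmask e⟩

/-- Dodecads fixed by a table permutation. -/
def dodecadCount (t : ℕ) : ℕ :=
  ((List.range 2576).filter fun k =>
    imgMask t (GolayStructure.fieldAt 24 GolayStructure.dodecadTable k)
    == GolayStructure.fieldAt 24 GolayStructure.dodecadTable k).length

theorem ncard_fixed_dodecads {r : Equiv.Perm GolayPt} {t : ℕ} (h : IsTbl r t)
    (ht : okTbl t = true) :
    {o : Finset GolayPt | o ∈ dodecads ∧ r • o = o}.ncard = dodecadCount t := by
  refine ncard_fixed_enum (GolayStructure.dodecadAll.image_eq (by norm_num))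
    GolayStructure.dodecadAll.injOn r _ fun k _ => ?_
  show r • unmask _ = unmask _ ↔ _
  rw [smul_unmask h, beq_iff_eq]
  exact ⟨fun e => unmask_injOn (imgMask_lt ht _) (GolayStructure.fieldAt_lt_pow ..) e,
    fun e => congrArg unmask e⟩

/-- `q` is a tetrad of the sextet of the tetrad `m`. -/
def sameSextet (q m : ℕ) : Bool := q == m || (q &&& m == 0 && inCode (q ||| m))

theorem sextetOf_eq_iff {q m : ℕ} (hq : q < 2 ^ 24) (hm : m < 2 ^ 24)
    (hq4 : (unmask q).card = 4) (hm4 : (unmask m).card = 4) :
    GolayStructure.sextetOf (unmask q) = GolayStructure.sextetOf (unmask m) ↔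
      sameSextet q m = true := by
  simp only [sameSextet, Bool.or_eq_true, Bool.and_eq_true, beq_iff_eq]
  constructor
  · intro e
    have hmem : unmask q ∈ GolayStructure.sextetOf (unmask m) :=
      e ▸ Finset.mem_insert_self _ _
    by_cases hne : unmask q = unmask m
    · exact Or.inl (unmask_injOn hq hm hne)
    have hS := GolayStructure.sextetOf_mem hm4
    have hmm : unmask m ∈ GolayStructure.sextetOf (unmask m) := Finset.mem_insert_self _ _
    have hd := GolayStructure.sextet_disjoint hS hmem hmm hne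
    refine Or.inr ⟨unmask_injOn (Nat.and_lt_two_pow _ hm) (by norm_num) ?_, ?_⟩
    · rw [unmask_and, unmask_zero, Finset.disjoint_iff_inter_eq_empty.1 hd]
    · refine (unmask_mem_supports_iff (Nat.or_lt_two_pow hq hm)).1 ?_
      rw [unmask_or]
      exact (hS.2.2 _ hmem _ hmm hne).1
  · rintro (rfl | ⟨hd, hc⟩)
    · rfl
    · have hdis := disjoint_unmask hd
      have ho : unmask q ∪ unmask m ∈ octads := by
        refine ⟨?_, by rw [Finset.card_union_of_disjoint hdis, hq4, hm4]⟩
        rw [← unmask_or]
        exact mem_supports_iff.2 ⟨_, inCode_iff.1 hc, rfl⟩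
      exact (GolayStructure.eq_sextetOf (GolayStructure.sextetOf_mem hm4)
        (Finset.mem_insert_of_mem (GolayStructure.mem_partners.2 ⟨_, ho, Finset.subset_union_right,
          Finset.union_sdiff_cancel_right hdis⟩))).symm

/-- Sextets fixed by a table permutation. -/
def sextetCount (t : ℕ) : ℕ :=
  ((List.range 1771).filter fun k =>
    sameSextet (imgMask t (GolayStructure.fieldAt 24 GolayStructure.sextetTable k))
      (GolayStructure.fieldAt 24 GolayStructure.sextetTable k)).length

theorem ncard_fixed_sextets {r : Equiv.Perm GolayPt} (hr : r ∈ M24) {t : ℕ} (h : IsTbl r t)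
    (ht : okTbl t = true) :
    {S : Finset (Finset GolayPt) | S ∈ sextets ∧ r • S = S}.ncard = sextetCount t := by
  refine ncard_fixed_enum (GolayStructure.sextetAll.image_eq (by norm_num))
    GolayStructure.sextetAll.injOn r _ fun k hk => ?_
  set m := GolayStructure.fieldAt 24 GolayStructure.sextetTable k with hm
  show r • GolayStructure.sextetOf (unmask m) = GolayStructure.sextetOf (unmask m) ↔ _
  have hc := List.all_eq_true.1 GolayStructure.sextet_canon k (List.mem_range.2 hk)
  simp only [Bool.and_eq_true, beq_iff_eq] at hc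
  have h4 : (unmask m).card = 4 := by rw [card_unmask, hc.1]
  have e : r • GolayStructure.sextetOf (unmask m) = GolayStructure.sextetOf (r • unmask m) :=
    GolayStructure.smul_sextetOf ⟨r, hr⟩ h4
  rw [e, smul_unmask h]
  refine sextetOf_eq_iff (imgMask_lt ht _) (GolayStructure.fieldAt_lt_pow ..) ?_ h4
  rw [← smul_unmask h, Finset.card_smul_finset, h4]

theorem mem_trioDec_iff {m q : ℕ} (hm : m < 2 ^ 48) (hq : q < 2 ^ 24) :
    unmask q ∈ GolayStructure.trioDec m ↔ GolayStructure.trioHas m q = true := by
  refine ⟨fun h => ?_, GolayStructure.trioHas_mem⟩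
  have h1 : m / 16777216 < 2 ^ 24 := by omega
  have h2 : m % 16777216 < 2 ^ 24 := by omega
  simp only [GolayStructure.trioDec, GolayStructure.trioOf, Finset.mem_insert,
    Finset.mem_singleton] at h
  simp only [GolayStructure.trioHas, Bool.or_eq_true, beq_iff_eq]
  rcases h with h | h | h
  · exact Or.inl (Or.inl (unmask_injOn hq h1 h))
  · exact Or.inl (Or.inr (unmask_injOn hq h2 h))
  · refine Or.inr (unmask_injOn hq (Nat.xor_lt_two_pow (Nat.or_lt_two_pow h1 h2)
      (by norm_num [fullMask])) ?_)
    rw [h, unmask_compl, unmask_or]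

/-- Trios fixed by a table permutation. -/
def trioCount (t : ℕ) : ℕ :=
  ((List.range 3795).filter fun k =>
    GolayStructure.trioHas (GolayStructure.fieldAt 48 GolayStructure.trioTable k)
        (imgMask t (GolayStructure.fieldAt 48 GolayStructure.trioTable k / 16777216)) &&
      GolayStructure.trioHas (GolayStructure.fieldAt 48 GolayStructure.trioTable k)
        (imgMask t (GolayStructure.fieldAt 48 GolayStructure.trioTable k % 16777216))).length

theorem ncard_fixed_trios {r : Equiv.Perm GolayPt} (hr : r ∈ M24) {t : ℕ} (h : IsTbl r t)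
    (ht : okTbl t = true) :
    {T : Finset (Finset GolayPt) | T ∈ trios ∧ r • T = T}.ncard = trioCount t := by
  refine ncard_fixed_enum (GolayStructure.trioAll.image_eq (by norm_num))
    GolayStructure.trioAll.injOn r _ fun k hk => ?_
  have hlt := GolayStructure.fieldAt_lt_pow 48 GolayStructure.trioTable k
  set m := GolayStructure.fieldAt 48 GolayStructure.trioTable k with hm
  show r • GolayStructure.trioDec m = GolayStructure.trioDec m ↔ _
  have hT : GolayStructure.trioDec m ∈ trios := GolayStructure.trio_mapsTo k hk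
  have hA : unmask (m / 16777216) ∈ GolayStructure.trioDec m := by
    simp [GolayStructure.trioDec, GolayStructure.trioOf]
  have hB : unmask (m % 16777216) ∈ GolayStructure.trioDec m := by
    simp [GolayStructure.trioDec, GolayStructure.trioOf]
  rw [Bool.and_eq_true, ← mem_trioDec_iff hlt (imgMask_lt ht _),
    ← mem_trioDec_iff hlt (imgMask_lt ht _), ← smul_unmask h, ← smul_unmask h]
  constructor
  · intro e
    exact ⟨e ▸ Finset.smul_mem_smul_finset hA, e ▸ Finset.smul_mem_smul_finset hB⟩
  · rintro ⟨h1, h2⟩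
    have hc := List.all_eq_true.1 GolayStructure.trio_canon k (List.mem_range.2 hk)
    simp only [GolayStructure.trioCanon, GolayStructure.trioOk, Bool.and_eq_true] at hc
    have hne : r • unmask (m / 16777216) ≠ r • unmask (m % 16777216) := fun e =>
      GolayStructure.octad_ne_of_disjoint
        (mem_octads_iff.2 ⟨_, inCode_iff.1 (Bool.and_eq_true _ _ ▸
          GolayStructure.isOctad_spec hc.1.1.1.1 : _ ∧ _).1,
          beq_iff_eq.1 (Bool.and_eq_true _ _ ▸
          GolayStructure.isOctad_spec hc.1.1.1.1 : _ ∧ _).2, rfl⟩)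
        (disjoint_unmask (beq_iff_eq.1 hc.1.1.2)) (smul_left_cancel _ e)
    have hg : r • GolayStructure.trioDec m ∈ trios :=
      GolayStructure.smul_mem_trios ⟨r, hr⟩ hT
    rw [GolayStructure.eq_trioOf hg (Finset.smul_mem_smul_finset hA)
        (Finset.smul_mem_smul_finset hB) hne]
    conv_rhs => rw [GolayStructure.eq_trioOf hT h1 h2 hne]

theorem smul_mem_sextets {g : Equiv.Perm GolayPt} (hg : g ∈ M24) {S : Finset (Finset GolayPt)}
    (hS : S ∈ sextets) : g • S ∈ sextets := GolayStructure.smul_mem_sextets ⟨g, hg⟩ hS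

theorem smul_mem_trios {g : Equiv.Perm GolayPt} (hg : g ∈ M24) {S : Finset (Finset GolayPt)}
    (hS : S ∈ trios) : g • S ∈ trios := GolayStructure.smul_mem_trios ⟨g, hg⟩ hS

set_option maxRecDepth 100000 in
theorem counts :
    octadCount M24Classes.repFix3 = 21 ∧ trioCount M24Classes.repFix3 = 15 ∧
    sextetCount M24Classes.repFix3 = 16 ∧ dodecadCount M24Classes.repFix3 = 20 ∧
    trioCount M24Classes.repFree3 = 15 ∧ sextetCount M24Classes.repFree3 = 7 ∧
    octadCount M24Classes.repFix2 = 71 ∧ trioCount M24Classes.repFix2 = 99 ∧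
    sextetCount M24Classes.repFix2 = 91 ∧
    octadCount M24Classes.repFree2 = 15 ∧ trioCount M24Classes.repFree2 = 75 ∧
    sextetCount M24Classes.repFree2 = 51 := by
  decide +kernel

end CfsgLib.ExtraspecialLarge.M24Invariant
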