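import Cfsg.Agent.Lib.ExtraspecialLarge.M9Data
import Cfsg.Agent.Lib.Golay.Stab
import Mathlib.GroupTheory.SpecificGroups.Quaternion

/-!
The subgroup of `Cfsg.M24` fixing a dodecad and three of its points: a normal elementary abelian
Sylow 3-subgroup of order 9, quaternion Sylow 2-subgroups.
-/

set_option autoImplicit false
set_option maxRecDepth 100000

namespace CfsgLib.ExtraspecialLarge.M9

open Cfsg CfsgLib.Golay MulAction
open scoped Pointwise

/-- The table of a quaternion element. -/
def quatTbl : QuaternionGroup 2 → ℕ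
  | .a i => quatA.getD i.val 0
  | .xa i => quatX.getD i.val 0

theorem chain_checks :
    chainOK [4, 2, 1, dodMask] (chainM12.drop 3) finalM12 = true ∧
    chainOK [8, 4, 2, 1, dodMask] (chainM12.drop 4) finalM12 = true ∧
    chainOrder (chainM12.drop 3) = 72 ∧ chainOrder (chainM12.drop 4) = 8 := by
  decide +kernel

theorem three_checks :
    (expThree.all fun t => inM24 t && [dodMask, 1, 2, 4].all fun s => imgMask t s == s) = true ∧
    (expThree.all fun a => expThree.all fun b => expThree.any fun c => isCompTbl c a b) = true ∧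
    (expThree.any fun c => (List.range 24).all fun i => tblAt c i == i) = true ∧
    ((chainM12.drop 3).all fun l => l.2.2.all fun t => expThree.all fun e => expThree.any fun e' =>
      (List.range 24).all fun i => tblAt t (tblAt e i) == tblAt e' (tblAt t i)) = true ∧
    (expThree.all fun t => (List.range 24).all fun i => tblAt t (tblAt t (tblAt t i)) == i) = true ∧
    expThree.Nodup ∧ expThree.length = 9 ∧ (expThree.all fun t => decide (t < 2 ^ 120)) = true := by
  decide +kernel

theorem quat_checks :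
    (∀ u : QuaternionGroup 2, (inM24 (quatTbl u) &&
      [dodMask, 1, 2, 4, 8].all fun s => imgMask (quatTbl u) s == s) = true) ∧
    (∀ u v : QuaternionGroup 2, isCompTbl (quatTbl (u * v)) (quatTbl u) (quatTbl v) = true) ∧
    (∀ u v : QuaternionGroup 2,
      ((List.range 24).all fun i => tblAt (quatTbl u) i == tblAt (quatTbl v) i) = true → u = v) := by
  decide +kernel

/-- The standard group of order 72. -/
def stdM9 : Subgroup (Equiv.Perm GolayPt) := stabK [4, 2, 1, dodMask]

theorem natCard_stdM9 : Nat.card stdM9 = 72 := by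
  rw [stdM9, card_stabK chain_checks.1, chain_checks.2.2.1]

theorem exists_std {t : ℕ}
    (h : (inM24 t && [dodMask, 1, 2, 4].all fun s => imgMask t s == s) = true) :
    ∃ g ∈ stdM9, IsTbl g t := by
  simp only [Bool.and_eq_true, List.all_eq_true, beq_iff_eq] at h
  obtain ⟨g, hg⟩ := exists_isTbl (Bool.and_eq_true _ _ ▸ h.1 : okTbl t = true ∧ _).1
  refine ⟨g, mem_stabK_of_isTbl hg h.1 fun n hn => h.2 n ?_, hg⟩
  simp only [List.mem_cons, List.not_mem_nil, or_false] at hn ⊢
  tauto

/-- The elements of exponent 3, as a subgroup. -/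
def threeGroup : Subgroup (Equiv.Perm GolayPt) where
  carrier := {g | ∃ t ∈ expThree, IsTbl g t}
  one_mem' := by
    obtain ⟨c, hc, h⟩ := List.any_eq_true.1 three_checks.2.2.1
    exact ⟨c, hc, fun p => (beq_iff_eq.1 (List.all_eq_true.1 h _ (List.mem_range.2 (idx_lt p)))).symm⟩
  mul_mem' := by
    rintro a b ⟨s, hs, ha⟩ ⟨t, ht, hb⟩
    obtain ⟨c, hc, h⟩ := List.any_eq_true.1
      (List.all_eq_true.1 (List.all_eq_true.1 three_checks.2.1 s hs) t ht)
    exact ⟨c, hc, ha.mul hb h⟩
  inv_mem' := by
    rintro a ⟨s, hs, ha⟩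
    obtain ⟨c, hc, h⟩ := List.any_eq_true.1
      (List.all_eq_true.1 (List.all_eq_true.1 three_checks.2.1 s hs) s hs)
    refine ⟨c, hc, ?_⟩
    have h3 := List.all_eq_true.1 three_checks.2.2.2.2.1 s hs
    have e : a⁻¹ = a * a := by
      rw [inv_eq_iff_mul_eq_one]
      refine Equiv.ext fun p => idx_injective ?_
      simp only [Equiv.Perm.mul_apply, Equiv.Perm.one_apply]
      rw [ha, ha, ha]
      exact beq_iff_eq.1 (List.all_eq_true.1 h3 _ (List.mem_range.2 (idx_lt p)))
    rw [e]
    exact ha.mul ha h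

theorem tbl_unique {g : Equiv.Perm GolayPt} {s t : ℕ} (hs : IsTbl g s) (ht : IsTbl g t)
    (hs' : s < 2 ^ 120) (ht' : t < 2 ^ 120) : s = t := by
  apply Nat.eq_of_testBit_eq
  intro b
  rcases Nat.lt_or_ge b 120 with hb | hb
  · have h : tblAt s (b / 5) = tblAt t (b / 5) := by
      have e1 := hs (pt (b / 5))
      have e2 := ht (pt (b / 5))
      rw [idx_pt (by omega)] at e1 e2
      exact e1.symm.trans e2
    have e := congrArg (fun x => x.testBit (b % 5)) h
    simp only [tblAt, show (32 : ℕ) = 2 ^ 5 by norm_num, Nat.testBit_mod_two_pow,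
      Nat.testBit_shiftRight, show b % 5 < 5 from Nat.mod_lt _ (by norm_num), decide_true,
      Bool.true_and, Nat.div_add_mod] at e
    exact e
  · have h2 : 2 ^ 120 ≤ 2 ^ b := Nat.pow_le_pow_right two_pos hb
    rw [Nat.testBit_lt_two_pow (lt_of_lt_of_le hs' h2), Nat.testBit_lt_two_pow (lt_of_lt_of_le ht' h2)]

theorem natCard_threeGroup : Nat.card threeGroup = 9 := by
  classical
  obtain ⟨hmem, -, -, -, -, hnd, hlen, hsmall⟩ := three_checks
  have hex : ∀ i : Fin expThree.length, ∃ g : threeGroup, IsTbl g.1 expThree[i] := fun i => by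
    obtain ⟨g, -, hg⟩ := exists_std (List.all_eq_true.1 hmem _ (List.getElem_mem i.2))
    exact ⟨⟨g, expThree[i], List.getElem_mem i.2, hg⟩, hg⟩
  choose f hf using hex
  have hlt : ∀ i : Fin expThree.length, expThree[i] < 2 ^ 120 := fun i =>
    of_decide_eq_true (List.all_eq_true.1 hsmall _ (List.getElem_mem i.2))
  have hbij : Function.Bijective f := by
    constructor
    · intro i j e
      have hj := hf j
      rw [← e] at hj
      exact Fin.ext (hnd.getElem_inj_iff.1 (tbl_unique (hf i) hj (hlt i) (hlt j)))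
    · rintro ⟨g, t, ht, hg⟩
      obtain ⟨i, hi, rfl⟩ := List.getElem_of_mem ht
      exact ⟨⟨i, hi⟩, Subtype.ext ((hf ⟨i, hi⟩).ext hg)⟩
  rw [← Nat.card_congr (Equiv.ofBijective f hbij), Nat.card_fin, hlen]

theorem threeGroup_le : threeGroup ≤ stdM9 := by
  rintro g ⟨t, ht, hg⟩
  obtain ⟨g', hg', hgt⟩ := exists_std (List.all_eq_true.1 three_checks.1 t ht)
  rwa [hg.ext hgt]

theorem stdM9_normalizes : ∀ g ∈ stdM9, ∀ e ∈ threeGroup, g * e * g⁻¹ ∈ threeGroup := by
  let N : Subgroup (Equiv.Perm GolayPt) := Subgroup.normalizer (threeGroup : Set (Equiv.Perm GolayPt))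
  have hle : stdM9 ≤ N := by
    refine stabK_le chain_checks.1 fun l hl t ht g hg => ?_
    have hmaps : ∀ e ∈ threeGroup, g * e * g⁻¹ ∈ threeGroup := by
      rintro e ⟨s, hs, he⟩
      obtain ⟨s', hs', h⟩ := List.any_eq_true.1 (List.all_eq_true.1
        (List.all_eq_true.1 (List.all_eq_true.1 three_checks.2.2.2.1 l hl) t ht) s hs)
      obtain ⟨e', -, he'⟩ := exists_std (List.all_eq_true.1 three_checks.1 s' hs')
      refine ⟨s', hs', ?_⟩
      have heq : g * e * g⁻¹ = e' := by
        rw [mul_inv_eq_iff_eq_mul]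
        refine Equiv.ext fun p => idx_injective ?_
        rw [Equiv.Perm.mul_apply, Equiv.Perm.mul_apply, hg, he, he', hg]
        exact beq_iff_eq.1 (List.all_eq_true.1 h _ (List.mem_range.2 (idx_lt p)))
      rwa [heq]
    rw [Subgroup.mem_normalizer_iff]
    intro e
    refine ⟨hmaps e, fun h => ?_⟩
    -- conjugation is injective on the finite set, hence surjective
    have hsurj : Set.SurjOn (fun e => g * e * g⁻¹) (threeGroup : Set (Equiv.Perm GolayPt))
        (threeGroup : Set (Equiv.Perm GolayPt)) :=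
      ((Set.toFinite _).injOn_iff_bijOn_of_mapsTo hmaps).1
        (fun a _ b _ e => mul_left_cancel (mul_right_cancel e)) |>.surjOn
    obtain ⟨e₀, he₀, he⟩ := hsurj h
    have : e₀ = e := mul_left_cancel (mul_right_cancel he)
    exact this ▸ he₀
  exact fun g hg e he => (Subgroup.mem_normalizer_iff.1 (hle hg) e).1 he

theorem three_exponent : ∀ g ∈ threeGroup, g ^ 3 = 1 := by
  rintro g ⟨t, ht, hg⟩
  refine Equiv.ext fun p => idx_injective ?_
  rw [pow_succ, pow_two, Equiv.Perm.mul_apply, Equiv.Perm.mul_apply, Equiv.Perm.one_apply, hg, hg, hg]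
  exact beq_iff_eq.1 (List.all_eq_true.1 (List.all_eq_true.1 three_checks.2.2.2.2.1 t ht) _
    (List.mem_range.2 (idx_lt p)))

/-- The quaternion group inside the standard group. -/
theorem exists_quat : ∃ φ : QuaternionGroup 2 →* stdM9, Function.Injective φ := by
  have hex : ∀ u, ∃ g : stdM9, IsTbl g.1 (quatTbl u) := fun u => by
    have h := quat_checks.1 u
    simp only [Bool.and_eq_true, List.all_eq_true] at h
    obtain ⟨g, hg, hgt⟩ := exists_std (t := quatTbl u) (by
      simp only [Bool.and_eq_true, List.all_eq_true]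
      refine ⟨h.1, fun n hn => h.2 n ?_⟩
      simp only [List.mem_cons, List.not_mem_nil, or_false] at hn ⊢
      tauto)
    exact ⟨⟨g, hg⟩, hgt⟩
  choose f hf using hex
  refine ⟨MonoidHom.mk' f fun u v => ?_, fun u v e => ?_⟩
  · exact Subtype.ext ((hf (u * v)).ext ((hf u).mul (hf v) (quat_checks.2.1 u v)))
  · refine quat_checks.2.2 u v ?_
    simp only [List.all_eq_true, List.mem_range, beq_iff_eq]
    intro i hi
    have h1 := hf u (pt i)
    have h2 := hf v (pt i)
    rw [idx_pt hi] at h1 h2
    have e' : f u = f v := e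
    rw [e'] at h1
    exact h1.symm.trans h2

/-- The Sylow statement, for any group isomorphic to the standard one. -/
theorem sylow_structure {H : Type*} [Group H] (f : stdM9 ≃* H) :
    (∀ Q : Sylow 3 H, (Q : Subgroup H).Normal ∧ Nat.card ↥Q = 9 ∧ ∀ x ∈ (Q : Subgroup H), x ^ 3 = 1) ∧
      ∀ P : Sylow 2 H, Nonempty (↥P ≃* QuaternionGroup 2) := by
  have : Fact (Nat.Prime 3) := ⟨Nat.prime_three⟩
  have : Fact (Nat.Prime 2) := ⟨Nat.prime_two⟩
  have hcard : Nat.card H = 72 := by rw [← Nat.card_congr f.toEquiv, natCard_stdM9]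
  have : Finite H := Nat.finite_of_card_ne_zero (by rw [hcard]; norm_num)
  constructor
  · let E : Subgroup H := (threeGroup.subgroupOf stdM9).map f.toMonoidHom
    have hE9 : Nat.card E = 9 := by
      rw [← Nat.card_congr (Subgroup.equivMapOfInjective _ _ f.injective).toEquiv,
        Nat.card_congr (Subgroup.subgroupOfEquivOfLe threeGroup_le).toEquiv, natCard_threeGroup]
    have hEn : E.Normal := by
      refine Subgroup.Normal.map ⟨fun e he g => ?_⟩ _ f.surjective
      rw [Subgroup.mem_subgroupOf] at he ⊢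
      exact stdM9_normalizes g.1 g.2 e.1 he
    intro Q
    have hfac : (Nat.card H).factorization 3 = 2 := by
      rw [hcard, Nat.factorization_def _ Nat.prime_three,
        show (72 : ℕ) = 3 ^ 2 * 8 by norm_num, padicValNat.mul (by norm_num) (by norm_num),
        padicValNat.prime_pow, padicValNat.eq_zero_of_not_dvd (by norm_num)]
    let P : Sylow 3 H := Sylow.ofCard E (by rw [hE9, hfac]; norm_num)
    obtain ⟨c, hc⟩ := MulAction.exists_smul_eq H P Q
    have hPn : (P : Subgroup H).Normal := hEn
    have hQ : Q = P := by rw [← hc]; exact Sylow.smul_eq_of_normal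
    rw [hQ]
    refine ⟨hEn, hE9, ?_⟩
    rintro _ ⟨e, he, rfl⟩
    rw [← map_pow]
    rw [show e ^ 3 = 1 from Subtype.ext (three_exponent _ he), map_one]
  · intro P
    obtain ⟨φ, hφ⟩ := exists_quat
    let ψ : QuaternionGroup 2 →* H := f.toMonoidHom.comp φ
    have hψ : Function.Injective ψ := f.injective.comp hφ
    have hfac : (Nat.card H).factorization 2 = 3 := by
      rw [hcard, Nat.factorization_def _ Nat.prime_two,
        show (72 : ℕ) = 2 ^ 3 * 9 by norm_num, padicValNat.mul (by norm_num) (by norm_num),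
        padicValNat.prime_pow, padicValNat.eq_zero_of_not_dvd (by norm_num)]
    let P₀ : Sylow 2 H := Sylow.ofCard ψ.range (by
      rw [← Nat.card_congr (MonoidHom.ofInjective hψ).toEquiv, hfac, Nat.card_eq_fintype_card,
        QuaternionGroup.card]
      norm_num)
    exact ⟨(P.equiv P₀).trans (MonoidHom.ofInjective hψ).symm⟩

/-- The joint stabiliser of a dodecad and three of its points is a conjugate of the standard one. -/
theorem exists_iso {d : Finset GolayPt} (hd : d ∈ dodecads) {p q r : GolayPt} (hp : p ∈ d)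
    (hq : q ∈ d) (hr : r ∈ d) (hpq : p ≠ q) (hpr : p ≠ r) (hqr : q ≠ r) :
    Nonempty (stdM9 ≃* ↥(stabilizer M24 d ⊓ stabilizer M24 p ⊓ stabilizer M24 q ⊓ stabilizer M24 r)) := by
  classical
  obtain ⟨c, hc⟩ := dodecad_transitive dodMask_mem hd
  have hback : ∀ u ∈ d, c⁻¹ • u ∈ unmask dodMask := fun u hu => by
    rw [← inv_smul_smul c (unmask dodMask), hc]
    exact Finset.smul_mem_smul_finset hu
  -- two further points
  obtain ⟨s, hs, hs2⟩ := Finset.exists_subset_card_eq
    (s := (((unmask dodMask).erase (c⁻¹ • p)).erase (c⁻¹ • q)).erase (c⁻¹ • r)) (n := 2) (by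
      rw [Finset.card_erase_of_mem, Finset.card_erase_of_mem, Finset.card_erase_of_mem, dodMask_card]
      · norm_num
      · exact hback p hp
      · simp [hpq.symm, hback q hq]
      · simp [hpr.symm, hqr.symm, hback r hr])
  obtain ⟨u, v, huv, rfl⟩ := Finset.card_eq_two.1 hs2
  have hu := hs (Finset.mem_insert_self u {v})
  have hv := hs (Finset.mem_insert_of_mem (Finset.mem_singleton_self v))
  simp only [Finset.mem_erase] at hu hv
  obtain ⟨hu3, hu2, hu1, hum⟩ := hu
  obtain ⟨hv3, hv2, hv1, hvm⟩ := hv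
  let y : Fin 5 ↪ GolayPt := ⟨![c⁻¹ • p, c⁻¹ • q, c⁻¹ • r, u, v], by
    have := hpq.symm; have := hpr.symm; have := hqr.symm
    have := hu1.symm; have := hu2.symm; have := hu3.symm
    have := hv1.symm; have := hv2.symm; have := hv3.symm; have := huv.symm
    intro i j e
    fin_cases i <;> fin_cases j <;> simp_all⟩
  let b : Fin 5 ↪ GolayPt := ⟨![pt 0, pt 1, pt 2, pt 3, pt 4], by decide +kernel⟩
  obtain ⟨g, hg, -⟩ := sharply_five_transitive dodMask_mem b y (by decide +kernel) (fun i => by
    fin_cases i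
    exacts [hback p hp, hback q hq, hback r hr, hum, hvm])
  set a : M24 := c * (g : M24) with ha
  have had : a • unmask dodMask = d := by rw [ha, mul_smul, g.2, hc]
  have hap : a • pt 0 = p := by
    rw [ha, mul_smul, show (g : M24) • pt 0 = c⁻¹ • p from hg 0, smul_inv_smul]
  have haq : a • pt 1 = q := by
    rw [ha, mul_smul, show (g : M24) • pt 1 = c⁻¹ • q from hg 1, smul_inv_smul]
  have har : a • pt 2 = r := by
    rw [ha, mul_smul, show (g : M24) • pt 2 = c⁻¹ • r from hg 2, smul_inv_smul]
  set B := stabilizer M24 (unmask dodMask) ⊓ stabilizer M24 (pt 0) ⊓ stabilizer M24 (pt 1) ⊓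
    stabilizer M24 (pt 2) with hB
  have hstd : B = stdM9.subgroupOf M24 := by
    ext x
    rw [Subgroup.mem_subgroupOf, show stdM9 = stabK [2 ^ 2, 2 ^ 1, 2 ^ 0, dodMask] from rfl,
      stabK_cons_two_pow (by norm_num), stabK_cons_two_pow (by norm_num),
      stabK_cons_two_pow (by norm_num)]
    simp only [hB, Subgroup.mem_inf, stabilizer_dodMask, Subgroup.mem_subgroupOf]
    exact Iff.rfl
  have hmap : B.map (MulAut.conj a).toMonoidHom =
      stabilizer M24 d ⊓ stabilizer M24 p ⊓ stabilizer M24 q ⊓ stabilizer M24 r := by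
    rw [← had, ← hap, ← haq, ← har, hB, Subgroup.map_inf _ _ _ (MulAut.conj a).injective,
      Subgroup.map_inf _ _ _ (MulAut.conj a).injective,
      Subgroup.map_inf _ _ _ (MulAut.conj a).injective]
    simp only [MulAction.stabilizer_smul_eq_stabilizer_map_conj]
  exact ⟨((Subgroup.subgroupOfEquivOfLe (stabK_le_M24 _)).symm.trans
    (MulEquiv.subgroupCongr hstd.symm)).trans
    ((Subgroup.equivMapOfInjective B _ (MulAut.conj a).injective).trans
      (MulEquiv.subgroupCongr hmap))⟩

end CfsgLib.ExtraspecialLarge.M9
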