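/-! Certificate data: the stabiliser of a dodecad and three of its points. -/

set_option autoImplicit false

namespace CfsgLib.ExtraspecialLarge.M9

/-- The elements of exponent 3. -/
def expThree : List Nat :=
  [984818244535754528103549039458486304,
   487607080158395075740321133224921120,
   984769902586367543974814854303385632,
   928952864966028496604741530750814240,
   984534996141977609297800625156032544,
   928718206277989008510816407558424608,
   487655643029606470073469406179395616,
   487373122709212905255923294881187872,
   929000492124499343650182431580424224]

/-- Powers of an element of order 4 fixing a fourth point. -/
def quatA : List Nat :=
  [984818244535754528103549039458486304,
   719923664328491199848526586197411872,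
   970499966350631336865513127433832480,
   715872302521680643580706198532491296]

/-- The other coset. -/
def quatX : List Nat :=
  [608405391266436187982588441666881568,
   232652365823391711183829569059784736,
   609271311764373893382231684089481248,
   227578386318009578406903204956702752]

end CfsgLib.ExtraspecialLarge.M9
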