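import Cfsg.Agent.Lib.GolayStructure.OctadOrbits
import Cfsg.Agent.Lib.GolayStructure.Suborbits
import Cfsg.Agent.Lib.Golay.Stab

/-!
The joint stabiliser of two octads: its order, and the symmetric group of degree 6 for two octads
meeting in two points.
-/

set_option autoImplicit false
set_option maxRecDepth 100000

namespace CfsgLib.ExtraspecialLarge.OctadPair

open Cfsg CfsgLib.Golay CfsgLib.GolayStructure MulAction
open scoped Pointwise

/-- The mask of the root of a part. -/
def rootMask (P : Part) : ℕ := fieldAt 24 octadTable P.root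

theorem natCard_stab_baseOctad : Nat.card (stabilizer M24 baseOctad) = 322560 := by
  have h := Subgroup.card_mul_index (stabilizer M24 baseOctad)
  rw [index_stabilizer, orbit_baseOctad, ncard_octads, natCard_M24] at h
  omega

theorem natCard_inf_stabilizer {G Y : Type*} [Group G] [MulAction G Y] (H : Subgroup G) (y : Y) :
    Nat.card ↥(H ⊓ stabilizer G y) * (orbit H y).ncard = Nat.card H := by
  rw [show Nat.card ↥(H ⊓ stabilizer G y) = Nat.card (stabilizer H y) from Nat.card_congr
    { toFun := fun g => ⟨⟨g.1, g.2.1⟩, g.2.2⟩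
      invFun := fun g => ⟨g.1.1, g.1.2, g.2⟩
      left_inv := fun g => rfl
      right_inv := fun g => rfl }, ← index_stabilizer, Subgroup.card_mul_index]

theorem exists_pair_rep {o o' : Finset GolayPt} (ho : o ∈ octads) (ho' : o' ∈ octads) :
    ∃ g : M24, ∃ P ∈ octadStabParts, g • baseOctad = o ∧ g • unmask (rootMask P) = o' ∧
      (o ∩ o').card = popc (fieldAt 24 octadTable octadRoot &&& rootMask P) := by
  obtain ⟨g, rfl⟩ := exists_smul_baseOctad ho
  obtain ⟨P, hP, hx⟩ := octadSub.exists_part (by norm_num) (smul_mem_octads g⁻¹ ho')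
  obtain ⟨h, hh, he⟩ := octadSub.related octadSub_gens hP (octadSub.root_mem P) hx
  have e1 : (g * h) • baseOctad = g • baseOctad := by rw [mul_smul, mem_stabilizer_iff.1 hh]
  have e2 : (g * h) • unmask (rootMask P) = o' := by
    rw [mul_smul, show h • unmask (rootMask P) = g⁻¹ • o' from he, smul_inv_smul]
  refine ⟨g * h, P, hP, e1, e2, ?_⟩
  rw [← e1, ← e2, ← Finset.smul_finset_inter, GolayStructure.card_smul, baseOctad, card_inter_unmask]

theorem octadSizes :
    (octadStabParts.all fun P =>
      (popc (fieldAt 24 octadTable octadRoot &&& rootMask P) != 0 || P.size + 1 == 30) &&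
      (popc (fieldAt 24 octadTable octadRoot &&& rootMask P) != 4 || P.size + 1 == 280) &&
      (popc (fieldAt 24 octadTable octadRoot &&& rootMask P) != 2 ||
        (P.size + 1 == 448 && rootMask P == 31554))) = true := by
  decide +kernel

theorem natCard_base_pair {P : Part} (hP : P ∈ octadStabParts) :
    Nat.card ↥(stabilizer M24 baseOctad ⊓ stabilizer M24 (unmask (rootMask P))) * (P.size + 1) =
      322560 := by
  have horb : orbit (stabilizer M24 baseOctad) (unmask (rootMask P)) = octadSub.set P :=
    octadSub.orbit_eq (by norm_num) octadSub_gens (fun h _ x hx => smul_mem_octads h hx) octadInv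
      octadInv_smul octadSub_sep hP
  have h := natCard_inf_stabilizer (stabilizer M24 baseOctad) (unmask (rootMask P))
  rw [horb, octadSub.ncard_set hP, natCard_stab_baseOctad] at h
  exact h

theorem natCard_pair {o o' : Finset GolayPt} (ho : o ∈ octads) (ho' : o' ∈ octads) :
    ((o ∩ o').card = 0 → Nat.card ↥(stabilizer M24 o ⊓ stabilizer M24 o') = 10752) ∧
    ((o ∩ o').card = 4 → Nat.card ↥(stabilizer M24 o ⊓ stabilizer M24 o') = 1152) ∧
    ((o ∩ o').card = 2 → Nat.card ↥(stabilizer M24 o ⊓ stabilizer M24 o') = 720) := by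
  obtain ⟨g, P, hP, rfl, rfl, hc⟩ := exists_pair_rep ho ho'
  rw [← Nat.card_congr (stabilizerInfEquiv g baseOctad (unmask (rootMask P))).toEquiv]
  have h := natCard_base_pair hP
  have hs := List.all_eq_true.1 octadSizes P hP
  simp only [Bool.and_eq_true, Bool.or_eq_true, bne_iff_ne, ne_eq, beq_iff_eq] at hs
  rw [hc]
  refine ⟨fun e => ?_, fun e => ?_, fun e => ?_⟩
  · rw [hs.1.1.resolve_left (not_not.2 e)] at h; omega
  · rw [hs.1.2.resolve_left (not_not.2 e)] at h; omega
  · rw [(hs.2.resolve_left (not_not.2 e)).1] at h; omega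

/-- The six points of the first of two standard octads outside the second. -/
def sixPts : List ℕ := [0, 2, 4, 5, 10, 23]

theorem six_checks :
    chainOK [1, 4, 16, 32, 1024, 8388608, 8391797, 31554] []
      [12222476, 5210132, 5279, 42232, 10558, 69395, 133817, 262637, 1050548] = true ∧
    (unmask 8391797 \ unmask 31554).card = 6 ∧
    (∀ i ∈ sixPts, pt i ∈ unmask 8391797 \ unmask 31554) ∧
    fieldAt 24 octadTable octadRoot = 8391797 := by
  decide +kernel

/-- Two standard octads meeting in two points have joint stabiliser `S₆`. -/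
theorem base_pair_iso {P : Part} (hP : P ∈ octadStabParts)
    (h2 : popc (fieldAt 24 octadTable octadRoot &&& rootMask P) = 2) :
    Nonempty (↥(stabilizer M24 baseOctad ⊓ stabilizer M24 (unmask (rootMask P))) ≃*
      Equiv.Perm (Fin 6)) := by
  classical
  have hcard := natCard_base_pair hP
  have hs := List.all_eq_true.1 octadSizes P hP
  simp only [Bool.and_eq_true, Bool.or_eq_true, bne_iff_ne, ne_eq, beq_iff_eq] at hs
  obtain ⟨hsz, hroot⟩ := hs.2.resolve_left (not_not.2 h2)
  rw [hsz] at hcard
  obtain ⟨hchain, hA, hmemA, hb⟩ := six_checks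
  have hbase : baseOctad = unmask 8391797 := by rw [baseOctad, hb]
  rw [hroot] at hcard ⊢
  set H : Subgroup M24 := stabilizer M24 baseOctad ⊓ stabilizer M24 (unmask 31554) with hH
  set A : Finset GolayPt := unmask 8391797 \ unmask 31554 with hAdef
  have hfix : ∀ k : H, ((k : M24) : Equiv.Perm GolayPt) • unmask 8391797 = unmask 8391797 ∧
      ((k : M24) : Equiv.Perm GolayPt) • unmask 31554 = unmask 31554 := fun k =>
    ⟨hbase ▸ k.2.1, k.2.2⟩
  have hinv : ∀ k : H, ∀ p, ((k : M24) : Equiv.Perm GolayPt) p ∈ A ↔ p ∈ A := by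
    intro k p
    have hk : ((k : M24) : Equiv.Perm GolayPt) • A = A := by
      rw [hAdef, Finset.smul_finset_sdiff, (hfix k).1, (hfix k).2]
    conv_lhs => rw [← hk]
    exact Finset.smul_mem_smul_finset_iff _
  let φ : H →* Equiv.Perm {p // p ∈ A} :=
    { toFun := fun k => ((k : M24) : Equiv.Perm GolayPt).subtypePerm (fun p => hinv k p)
      map_one' := by ext p; rfl
      map_mul' := fun a b => by ext p; rfl }
  have hinj : Function.Injective φ := by
    rw [injective_iff_map_eq_one]
    intro k hk
    have hp : ∀ p ∈ A, ((k : M24) : Equiv.Perm GolayPt) p = p := fun p hp => by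
      have e := congrArg Subtype.val (DFunLike.congr_fun hk (⟨p, hp⟩ : {p // p ∈ A}))
      exact e
    have hmem : ((k : M24) : Equiv.Perm GolayPt) ∈
        stabK [1, 4, 16, 32, 1024, 8388608, 8391797, 31554] := by
      rw [mem_stabK]
      refine ⟨(k : M24).2, ?_⟩
      have hsing : ∀ i ∈ sixPts, i < 24 →
          ((k : M24) : Equiv.Perm GolayPt) • unmask (2 ^ i) = unmask (2 ^ i) := by
        intro i hi hlt
        rw [unmask_two_pow_of_lt hlt, Finset.smul_finset_singleton, Equiv.Perm.smul_def,
          hp _ (hmemA i hi)]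
      intro n hn
      simp only [List.mem_cons, List.not_mem_nil, or_false] at hn
      rcases hn with rfl | rfl | rfl | rfl | rfl | rfl | rfl | rfl
      · exact hsing 0 (by decide) (by norm_num)
      · exact hsing 2 (by decide) (by norm_num)
      · exact hsing 4 (by decide) (by norm_num)
      · exact hsing 5 (by decide) (by norm_num)
      · exact hsing 10 (by decide) (by norm_num)
      · exact hsing 23 (by decide) (by norm_num)
      · exact (hfix k).1
      · exact (hfix k).2
    rw [stabK_eq_bot hchain, Subgroup.mem_bot] at hmem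
    exact Subtype.ext (Subtype.ext hmem)
  have hbij : Function.Bijective φ := by
    refine (Fintype.bijective_iff_injective_and_card φ).2 ⟨hinj, ?_⟩
    rw [← Nat.card_eq_fintype_card, Fintype.card_perm, Fintype.card_coe, hA]
    have : Nat.card H = 720 := by omega
    rw [this]; rfl
  exact ⟨(MulEquiv.ofBijective φ hbij).trans (Equiv.permCongrHom
    (Finset.equivFinOfCardEq hA))⟩

theorem pair_iso {o o' : Finset GolayPt} (ho : o ∈ octads) (ho' : o' ∈ octads)
    (h2 : (o ∩ o').card = 2) :
    Nonempty (↥(stabilizer M24 o ⊓ stabilizer M24 o') ≃* Equiv.Perm (Fin 6)) := by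
  obtain ⟨g, P, hP, rfl, rfl, hc⟩ := exists_pair_rep ho ho'
  obtain ⟨e⟩ := base_pair_iso hP (hc ▸ h2)
  exact ⟨(stabilizerInfEquiv g _ _).symm.trans e⟩

end CfsgLib.ExtraspecialLarge.OctadPair
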