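import Cfsg.Agent.Lib.ExtraspecialLarge.OctadTrioData
import Cfsg.Agent.Lib.ExtraspecialLarge.M24Invariant
import Cfsg.Agent.Lib.Golay.Stab

/-!
The 15 trios through an octad: the stabiliser of the octad is doubly transitive on them, with the
pointwise stabiliser of the octad as kernel.
-/

set_option autoImplicit false
set_option maxRecDepth 100000

namespace CfsgLib.ExtraspecialLarge.OctadTrios

open Cfsg CfsgLib.Golay CfsgLib.GolayStructure MulAction
open scoped Pointwise

/-- The packed pair of the `i`-th trio through the base octad. -/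
def trioAt (i : ℕ) : ℕ := fieldAt 48 trioTable (trioRanks.getD i 0)

/-- Ordered pairs of these trios. -/
def pairTrioKind : Kind (Finset (Finset GolayPt) × Finset (Finset GolayPt)) where
  dec m := (trioDec (trioAt (m / 16)), trioDec (trioAt (m % 16)))
  ok t p r := trioKind.ok t (trioAt (p / 16)) (trioAt (r / 16)) &&
    trioKind.ok t (trioAt (p % 16)) (trioAt (r % 16))
  ok_spec t ht p r h := by
    rw [Bool.and_eq_true] at h
    exact Prod.ext (trioKind.ok_spec t ht _ _ h.1) (trioKind.ok_spec t ht _ _ h.2)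

/-- The tree on ordered pairs. -/
def pairPart : Part := ⟨1, pairTree, 209⟩

theorem trio_checks :
    fieldAt 24 octadTable octadRoot = octMask ∧
    (List.range 3795).all (fun k => !trioHas (fieldAt 48 trioTable k) octMask ||
      trioRanks.contains k) = true ∧
    ((List.range 3795).filter fun k => trioHas (fieldAt 48 trioTable k) octMask).length = 15 ∧
    trioRanks.all (fun k => decide (k < 3795) && trioHas (fieldAt 48 trioTable k) octMask) = true ∧
    pairTrioKind.checkPart octadStabGens (fun r => r) pairPart = true ∧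
    ((List.range 15).all fun i => (List.range 15).all fun j =>
      i == j || pairPart.ranks.contains (i * 16 + j)) = true ∧
    trioRanks.length = 15 := by
  decide +kernel

theorem kernel_checks :
    (chainOctad.all fun l => l.2.2.all fun t => trioRanks.all fun k =>
      trioHas (fieldAt 48 trioTable k) (Golay.imgMask t (fieldAt 48 trioTable k / 16777216)) &&
        trioHas (fieldAt 48 trioTable k) (Golay.imgMask t (fieldAt 48 trioTable k % 16777216))) = true ∧
    chainOK kernelSets [] kernelCert = true ∧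
    (kernelSets.all fun n => n == 2 || n == octMask || (n.testBit 1 && decide (n < 2 ^ 24) &&
      trioRanks.any fun k => trioHas (fieldAt 48 trioTable k) n)) = true ∧
    octMask.testBit 1 = false ∧
    (chainOctad.head?.map fun l => (l.1, (List.range 24).all fun i =>
      octMask.testBit i || l.2.2.any fun t => Golay.tblAt t l.1 == i)) = some (1, true) := by
  decide +kernel

theorem baseOctad_eq : baseOctad = unmask octMask := by rw [baseOctad, trio_checks.1]

theorem mem_trio_iff {k : ℕ} :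
    baseOctad ∈ trioDec (fieldAt 48 trioTable k) ↔
      trioHas (fieldAt 48 trioTable k) octMask = true := by
  rw [baseOctad_eq]
  exact M24Invariant.mem_trioDec_iff (fieldAt_lt_pow ..) (by norm_num [octMask])

theorem exists_rank {T : Finset (Finset GolayPt)} (hT : T ∈ trios) (hb : baseOctad ∈ T) :
    ∃ i < 15, T = trioDec (trioAt i) := by
  rw [← trioAll.image_eq (by norm_num)] at hT
  obtain ⟨k, hk, rfl⟩ := hT
  have hc := List.all_eq_true.1 trio_checks.2.1 k (List.mem_range.2 hk)
  simp only [Bool.or_eq_true, Bool.not_eq_true', List.contains_iff_mem] at hc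
  have hmem : k ∈ trioRanks := hc.resolve_left (by
    have h : trioHas (fieldAt 48 trioTable k) octMask = true := mem_trio_iff.1 hb
    rw [h]; simp)
  obtain ⟨i, hi, rfl⟩ := List.getElem_of_mem hmem
  refine ⟨i, trio_checks.2.2.2.2.2.2 ▸ hi, ?_⟩
  rw [trioAt, List.getD_eq_getElem _ _ hi]
  rfl

theorem ncard_base : {T | T ∈ trios ∧ baseOctad ∈ T}.ncard = 15 := by
  have hset : {T | T ∈ trios ∧ baseOctad ∈ T} =
      (fun k => trioDec (fieldAt 48 trioTable k)) ''
        {k | k < 3795 ∧ trioHas (fieldAt 48 trioTable k) octMask = true} := by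
    ext T
    constructor
    · rintro ⟨hT, hb⟩
      rw [← trioAll.image_eq (by norm_num)] at hT
      obtain ⟨k, hk, rfl⟩ := hT
      exact ⟨k, ⟨hk, mem_trio_iff.1 hb⟩, rfl⟩
    · rintro ⟨k, ⟨hk, hh⟩, rfl⟩
      exact ⟨trio_mapsTo k hk, mem_trio_iff.2 hh⟩
  rw [hset, Set.InjOn.ncard_image (f := fun k => trioDec (fieldAt 48 trioTable k))
      (trioAll.injOn.mono fun k hk => hk.1),
    show {k | k < 3795 ∧ trioHas (fieldAt 48 trioTable k) octMask = true} =
      ↑((List.range 3795).filter fun k => trioHas (fieldAt 48 trioTable k) octMask).toFinset by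
        ext; simp,
    Set.ncard_coe_finset, List.toFinset_card_of_nodup (List.nodup_range.filter _),
    trio_checks.2.2.1]

theorem two_transitive {T₁ T₂ T₁' T₂' : Finset (Finset GolayPt)} (h₁ : T₁ ∈ trios) (h₂ : T₂ ∈ trios)
    (h₁' : T₁' ∈ trios) (h₂' : T₂' ∈ trios) (b₁ : baseOctad ∈ T₁) (b₂ : baseOctad ∈ T₂)
    (b₁' : baseOctad ∈ T₁') (b₂' : baseOctad ∈ T₂') (hne : T₁ ≠ T₂) (hne' : T₁' ≠ T₂') :
    ∃ g : M24, g • baseOctad = baseOctad ∧ g • T₁ = T₁' ∧ g • T₂ = T₂' := by
  have key : ∀ A B, A ∈ trios → B ∈ trios → baseOctad ∈ A → baseOctad ∈ B → A ≠ B →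
      (A, B) ∈ orbit (stabilizer M24 baseOctad) (pairTrioKind.dec 1) := by
    intro A B hA hB bA bB hAB
    obtain ⟨i, hi, rfl⟩ := exists_rank hA bA
    obtain ⟨j, hj, rfl⟩ := exists_rank hB bB
    have hc := List.all_eq_true.1 (List.all_eq_true.1 trio_checks.2.2.2.2.2.1 i
      (List.mem_range.2 hi)) j (List.mem_range.2 hj)
    simp only [Bool.or_eq_true, beq_iff_eq, List.contains_iff_mem] at hc
    rcases hc with rfl | hc
    · exact absurd rfl hAB
    have h := Kind.mem_orbit (K := pairTrioKind) (R := fun r => r) trio_checks.2.2.2.2.1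
      octad_stabGens (H := stabilizer M24 baseOctad) octadSub_gens (i * 16 + j) hc
    have e : pairTrioKind.dec (i * 16 + j) = (trioDec (trioAt i), trioDec (trioAt j)) := by
      simp only [pairTrioKind]
      rw [show (i * 16 + j) / 16 = i by omega, show (i * 16 + j) % 16 = j by omega]
    rw [← e]
    exact h
  obtain ⟨a, ha⟩ := key _ _ h₁ h₂ b₁ b₂ hne
  obtain ⟨b, hb⟩ := key _ _ h₁' h₂' b₁' b₂' hne'
  have e : ((b * a⁻¹ : stabilizer M24 baseOctad) : M24) • (T₁, T₂) = (T₁', T₂') := by
    rw [← ha, ← hb]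
    show (b * a⁻¹) • a • pairTrioKind.dec 1 = b • pairTrioKind.dec 1
    rw [← mul_smul, inv_mul_cancel_right]
  exact ⟨_, (b * a⁻¹).2, congrArg Prod.fst e, congrArg Prod.snd e⟩

theorem smul_trio_of_mem_stabK {n : Equiv.Perm GolayPt} (hn : n ∈ stabK octadPts)
    {T : Finset (Finset GolayPt)} (hT : T ∈ trios) (hb : baseOctad ∈ T) : n • T = T := by
  obtain ⟨i, hi, rfl⟩ := exists_rank hT hb
  have hi' : i < trioRanks.length := trio_checks.2.2.2.2.2.2.symm ▸ hi
  set k := trioRanks[i] with hk
  have hmem : k ∈ trioRanks := List.getElem_mem hi'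
  have hTk : trioAt i = fieldAt 48 trioTable k := by rw [trioAt, List.getD_eq_getElem _ _ hi']
  rw [hTk] at hT hb ⊢
  have hle : stabK octadPts ≤
      stabilizer (Equiv.Perm GolayPt) (trioDec (fieldAt 48 trioTable k)) ⊓ M24 := by
    refine stabK_le chainOctad_ok fun l hl t ht g hg => ?_
    have hgM : g ∈ M24 := by
      have hok := chainOctad_ok
      obtain ⟨l0, hl0⟩ : ∃ l0, chainOctad = [l0] := ⟨_, rfl⟩
      rw [hl0, List.mem_singleton] at hl
      subst hl
      rw [hl0] at hok
      simp only [chainOK, Bool.and_eq_true, List.all_eq_true] at hok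
      exact mem_M24_of_isTbl hg (hok.1.2 t ht).1
    refine ⟨?_, hgM⟩
    have hc := List.all_eq_true.1 (List.all_eq_true.1 (List.all_eq_true.1 kernel_checks.1 l hl) t ht)
      k hmem
    simp only [Bool.and_eq_true] at hc
    have hlt := fieldAt_lt_pow 48 trioTable k
    have m1 := trioHas_mem hc.1
    have m2 := trioHas_mem hc.2
    rw [← Golay.smul_unmask hg] at m1 m2
    have hrk : k < 3795 := by
      have := List.all_eq_true.1 trio_checks.2.2.2.1 k hmem
      simp only [Bool.and_eq_true, decide_eq_true_eq] at this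
      exact this.1
    have hTm : trioDec (fieldAt 48 trioTable k) ∈ trios := trio_mapsTo k hrk
    have hA : unmask (fieldAt 48 trioTable k / 16777216) ∈ trioDec (fieldAt 48 trioTable k) := by
      simp [trioDec, trioOf]
    have hB : unmask (fieldAt 48 trioTable k % 16777216) ∈ trioDec (fieldAt 48 trioTable k) := by
      simp [trioDec, trioOf]
    have hcan := List.all_eq_true.1 trio_canon k (List.mem_range.2 hrk)
    simp only [trioCanon, trioOk, Bool.and_eq_true] at hcan
    have hne : g • unmask (fieldAt 48 trioTable k / 16777216) ≠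
        g • unmask (fieldAt 48 trioTable k % 16777216) := fun e => by
      refine octad_ne_of_disjoint (mem_octads_unmask (isOctad_spec hcan.1.1.1.1))
        (disjoint_unmask (beq_iff_eq.1 hcan.1.1.2)) (smul_left_cancel _ e)
    have hg' : g • trioDec (fieldAt 48 trioTable k) ∈ trios :=
      GolayStructure.smul_mem_trios ⟨g, hgM⟩ hTm
    show g • trioKind.dec _ = trioKind.dec _
    change g • trioDec (fieldAt 48 trioTable k) = trioDec (fieldAt 48 trioTable k)
    rw [eq_trioOf hg' (Finset.smul_mem_smul_finset hA) (Finset.smul_mem_smul_finset hB) hne]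
    conv_rhs => rw [eq_trioOf hTm m1 m2 hne]
  exact (hle hn).1

theorem fixes_pointwise {g : M24} (hg : g • baseOctad = baseOctad)
    (h : ∀ T ∈ trios, baseOctad ∈ T → g • T = T) : ∀ p ∈ baseOctad, g.1 p = p := by
  obtain ⟨l, hl⟩ : ∃ l, chainOctad.head? = some l := ⟨_, rfl⟩
  have hk := kernel_checks.2.2.2.2
  rw [hl, Option.map_some, Option.some.injEq, Prod.mk.injEq, List.all_eq_true] at hk
  obtain ⟨hl1, hcov⟩ := hk
  have hb1 : pt 1 ∉ unmask octMask := by
    rw [pt_mem_unmask (by norm_num), kernel_checks.2.2.2.1]; simp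
  have hq : g.1 (pt 1) ∉ unmask octMask := by
    intro hin
    rw [← baseOctad_eq] at hin hb1
    rw [← hg] at hin
    exact hb1 ((Finset.smul_mem_smul_finset_iff _).1 hin)
  have hc := hcov (idx (g.1 (pt 1))) (List.mem_range.2 (idx_lt _))
  simp only [Bool.or_eq_true, List.any_eq_true, beq_iff_eq] at hc
  rw [mem_unmask] at hq
  obtain ⟨t, ht, hte⟩ := hc.resolve_left hq
  obtain ⟨n, hn, hnt⟩ : ∃ n ∈ stabK octadPts, IsTbl n t := by
    have hok := chainOctad_ok
    obtain ⟨l0, hl0⟩ : ∃ l0, chainOctad = [l0] := ⟨_, rfl⟩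
    rw [hl0] at hl hok
    simp only [List.head?_cons, Option.some.injEq] at hl
    subst hl
    simp only [chainOK, Bool.and_eq_true, List.all_eq_true, beq_iff_eq] at hok
    obtain ⟨hm, hs⟩ := hok.1.2 t ht
    obtain ⟨n, hn⟩ := exists_isTbl (Bool.and_eq_true _ _ ▸ hm : okTbl t = true ∧ _).1
    exact ⟨n, mem_stabK_of_isTbl hn hm hs, hn⟩
  have hpt : n (pt 1) = g.1 (pt 1) := idx_injective (by
    rw [hnt, idx_pt (by norm_num)]
    rw [hl1] at hte
    exact hte)
  have hnM : n ∈ M24 := stabK_le_M24 _ hn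
  have hnfix : ∀ p ∈ baseOctad, n p = p := by
    intro p hp
    have hmem : n ∈ M24 ⊓ fixingSubgroup (Equiv.Perm GolayPt)
        ((unmask octMask : Finset GolayPt) : Set GolayPt) := by rw [octadPts_inf]; exact hn
    exact (mem_fixingSubgroup_iff _).1 hmem.2 p (baseOctad_eq ▸ hp)
  set x : Equiv.Perm GolayPt := n⁻¹ * g.1 with hx
  have hxb : x • baseOctad = baseOctad := by
    rw [hx, mul_smul, show g.1 • baseOctad = baseOctad from hg, inv_smul_eq_iff]
    conv_lhs => rw [← hg]
    ext q
    constructor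
    · intro hq'
      have hq'' : q ∈ baseOctad := hg ▸ hq'
      exact Finset.mem_smul_finset.2 ⟨q, hq'', hnfix q hq''⟩
    · intro hq'
      obtain ⟨u, hu, rfl⟩ := Finset.mem_smul_finset.1 hq'
      rw [Equiv.Perm.smul_def, hnfix u hu]
      exact hg.symm ▸ hu
  have hx1 : x (pt 1) = pt 1 := by
    rw [hx, Equiv.Perm.mul_apply, ← hpt, Equiv.Perm.inv_def, Equiv.symm_apply_apply]
  have hxT : ∀ T ∈ trios, baseOctad ∈ T → x • T = T := by
    intro T hT hb
    rw [hx, mul_smul, show g.1 • T = T from h T hT hb, inv_smul_eq_iff,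
      smul_trio_of_mem_stabK hn hT hb]
  have hxmem : x ∈ stabK kernelSets := by
    rw [mem_stabK]
    refine ⟨mul_mem (inv_mem hnM) g.2, fun m hm => ?_⟩
    have hc := List.all_eq_true.1 kernel_checks.2.2.1 m hm
    simp only [Bool.or_eq_true, Bool.and_eq_true, beq_iff_eq, List.any_eq_true,
      decide_eq_true_eq] at hc
    rcases hc with (rfl | rfl) | ⟨⟨hbit, hlt⟩, k, hk, hhas⟩
    · rw [show (2 : ℕ) = 2 ^ 1 by norm_num, unmask_two_pow_of_lt (by norm_num),
        Finset.smul_finset_singleton, Equiv.Perm.smul_def, hx1]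
    · rw [← baseOctad_eq, hxb]
    · have hkc := List.all_eq_true.1 trio_checks.2.2.2.1 k hk
      simp only [Bool.and_eq_true, decide_eq_true_eq] at hkc
      have hT := trio_mapsTo k hkc.1
      have hmT : unmask m ∈ trioDec (fieldAt 48 trioTable k) := trioHas_mem hhas
      have hxT' : x • trioDec (fieldAt 48 trioTable k) = trioDec (fieldAt 48 trioTable k) :=
        hxT _ hT (mem_trio_iff.2 hkc.2)
      by_contra hne
      have hm2 : x • unmask m ∈ trioDec (fieldAt 48 trioTable k) := by
        rw [← hxT']; exact Finset.smul_mem_smul_finset hmT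
      refine Finset.disjoint_left.1 (hT.2.2 _ hmT _ hm2
        (fun e => hne e.symm)) ((pt_mem_unmask (by norm_num)).2 hbit) ?_
      have := Finset.smul_mem_smul_finset (a := x)
        ((pt_mem_unmask (n := m) (i := 1) (by norm_num)).2 hbit)
      rwa [Equiv.Perm.smul_def, hx1] at this
  rw [stabK_eq_bot kernel_checks.2.1, Subgroup.mem_bot, hx, inv_mul_eq_one] at hxmem
  intro p hp
  rw [← hxmem]
  exact hnfix p hp

theorem octad_trios {o : Finset GolayPt} (ho : o ∈ octads) :
    {T | T ∈ trios ∧ o ∈ T}.ncard = 15 ∧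
    (∀ T₁ T₂ T₁' T₂' : Finset (Finset GolayPt), T₁ ∈ trios → T₂ ∈ trios → T₁' ∈ trios →
      T₂' ∈ trios → o ∈ T₁ → o ∈ T₂ → o ∈ T₁' → o ∈ T₂' → T₁ ≠ T₂ → T₁' ≠ T₂' →
      ∃ g : M24, g • o = o ∧ g • T₁ = T₁' ∧ g • T₂ = T₂') ∧
    ∀ g : M24, g • o = o → ((∀ T ∈ trios, o ∈ T → g • T = T) ↔ ∀ p ∈ o, g.1 p = p) := by
  obtain ⟨c, rfl⟩ := exists_smul_baseOctad ho
  have hback : ∀ {T : Finset (Finset GolayPt)}, c • baseOctad ∈ T → baseOctad ∈ c⁻¹ • T := by
    intro T h
    rw [← inv_smul_smul c baseOctad]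
    exact Finset.smul_mem_smul_finset h
  refine ⟨?_, ?_, fun g hg => ⟨fun h p hp => ?_, fun h T hT hb => ?_⟩⟩
  · have e : {T | T ∈ trios ∧ c • baseOctad ∈ T} =
        (c • ·) '' {T | T ∈ trios ∧ baseOctad ∈ T} := by
      ext T
      constructor
      · rintro ⟨hT, hb⟩
        exact ⟨c⁻¹ • T, ⟨smul_mem_trios _ hT, hback hb⟩, smul_inv_smul c T⟩
      · rintro ⟨S, ⟨hS, hb⟩, rfl⟩
        exact ⟨smul_mem_trios _ hS, Finset.smul_mem_smul_finset hb⟩
    rw [e, Set.ncard_image_of_injective _ (MulAction.injective c), ncard_base]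
  · intro T₁ T₂ T₁' T₂' h₁ h₂ h₁' h₂' b₁ b₂ b₁' b₂' hne hne'
    obtain ⟨g, g0, g1, g2⟩ := two_transitive (smul_mem_trios c⁻¹ h₁) (smul_mem_trios c⁻¹ h₂)
      (smul_mem_trios c⁻¹ h₁') (smul_mem_trios c⁻¹ h₂') (hback b₁) (hback b₂) (hback b₁')
      (hback b₂') (fun e => hne (smul_left_cancel _ e)) (fun e => hne' (smul_left_cancel _ e))
    refine ⟨c * g * c⁻¹, ?_, ?_, ?_⟩
    · rw [mul_smul, mul_smul, inv_smul_smul, g0]
    · rw [mul_smul, mul_smul, g1, smul_inv_smul]
    · rw [mul_smul, mul_smul, g2, smul_inv_smul]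
  · obtain ⟨q, hq, rfl⟩ := Finset.mem_smul_finset.1 hp
    have hfix := fixes_pointwise (g := c⁻¹ * g * c) (by rw [mul_smul, mul_smul, hg, inv_smul_smul])
      (fun T hT hb => by
        rw [mul_smul, mul_smul, h _ (smul_mem_trios c hT) (Finset.smul_mem_smul_finset hb),
          inv_smul_smul]) q hq
    have : (c⁻¹ * g * c) • q = q := hfix
    rw [mul_smul, mul_smul, inv_smul_eq_iff] at this
    exact this
  · have hn : ((c⁻¹ * g * c : M24) : Equiv.Perm GolayPt) ∈ stabK octadPts := by
      rw [← octadPts_inf]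
      refine ⟨(c⁻¹ * g * c).2, (mem_fixingSubgroup_iff _).2 fun q hq => ?_⟩
      have hq' : q ∈ baseOctad := baseOctad_eq ▸ hq
      show (c⁻¹ * g * c) • q = q
      rw [mul_smul, mul_smul, inv_smul_eq_iff]
      exact h _ (Finset.smul_mem_smul_finset hq')
    have h' : (c⁻¹ * g * c) • (c⁻¹ • T) = c⁻¹ • T :=
      smul_trio_of_mem_stabK hn (smul_mem_trios c⁻¹ hT) (hback hb)
    rw [mul_smul, mul_smul, smul_inv_smul, smul_left_cancel_iff] at h'
    exact h'

end CfsgLib.ExtraspecialLarge.OctadTrios
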