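import Cfsg.Agent.Lib.Golay.Stab
import Cfsg.Prelude.Def_SporadicCombinatorics
import Cfsg.Prelude.Def_Spor_Mathieu

/-!
The two-point Mathieu group in the stabiliser of the pair, and the two classes of one-point
stabilisers in the stabiliser of a dodecad.
-/

set_option autoImplicit false

namespace CfsgLib.ExtraspecialLarge.PairStabilizer

open Cfsg CfsgLib.Golay MulAction
open scoped Pointwise

theorem mem_M22 {x : Equiv.Perm GolayPt} :
    x ∈ Spor.M22 ↔ x ∈ M24 ∧ x none = none ∧ x (some 0) = some 0 := by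
  simp only [Spor.M22, Spor.M23, Subgroup.mem_inf, mem_stabilizer_iff, Equiv.Perm.smul_def,
    and_assoc]

theorem exists_M22_move {p q : GolayPt} (hp : p ≠ none) (hp0 : p ≠ some 0) (hq : q ≠ none)
    (hq0 : q ≠ some 0) (hpq : p ≠ q) :
    ∃ x ∈ Spor.M22, x p = p ∧ x q ≠ q := by
  classical
  obtain ⟨q', -, hq'⟩ := Finset.exists_mem_notMem_of_card_lt_card
    (s := ({none, some 0, p, q} : Finset GolayPt)) (t := Finset.univ) (by
      refine lt_of_le_of_lt Finset.card_le_four ?_
      rw [Finset.card_univ, Fintype.card_option, ZMod.card]; norm_num)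
  simp only [Finset.mem_insert, Finset.mem_singleton, not_or] at hq'
  have h4 : IsMultiplyPretransitive M24 GolayPt 4 :=
    have := M24_five_transitive
    isMultiplyPretransitive_of_le (n := 5) (by norm_num) (by rw [card_golayPt]; norm_num)
  let a : Fin 4 ↪ GolayPt := ⟨![none, some 0, p, q], by
    intro i j e
    fin_cases i <;> fin_cases j <;> simp_all [eq_comm]⟩
  let b : Fin 4 ↪ GolayPt := ⟨![none, some 0, p, q'], by
    obtain ⟨e1, e2, e3, e4⟩ := hq'
    intro i j e
    fin_cases i <;> fin_cases j <;> simp_all [eq_comm]⟩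
  obtain ⟨g, hg⟩ := h4.exists_smul_eq a b
  have h : ∀ i, g.1 (a i) = b i := fun i => DFunLike.congr_fun hg i
  refine ⟨g.1, mem_M22.2 ⟨g.2, h 0, h 1⟩, h 2, ?_⟩
  have h3 : g.1 q = q' := h 3
  rw [h3]
  exact hq'.2.2.2

theorem octad_not_separated {c : Equiv.Perm GolayPt} (hc : c ∈ M24) (h1 : c none = some 0)
    (hfix : ∀ p, p ≠ none → p ≠ some 0 → c p = p) : False := by
  classical
  obtain ⟨s, hs, hs4⟩ := Finset.exists_subset_card_eq
    (s := ((Finset.univ : Finset GolayPt).erase none).erase (some 0)) (n := 4) (by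
      rw [Finset.card_erase_of_mem (by simp), Finset.card_erase_of_mem (by simp),
        Finset.card_univ, Fintype.card_option, ZMod.card]
      norm_num)
  have hns : (none : GolayPt) ∉ s := fun h => by simpa using hs h
  obtain ⟨o, ⟨ho, hso⟩, -⟩ := exists_octad_above (s := insert none s)
    (by rw [Finset.card_insert_of_notMem hns, hs4])
  have hno : (none : GolayPt) ∈ o := hso (Finset.mem_insert_self _ _)
  have hall : ∀ q ∈ o, q ≠ none → q ≠ some 0 → q ∈ c • o := fun q hq a b =>
    (hfix q a b) ▸ Finset.smul_mem_smul_finset hq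
  have h0 : (some 0 : GolayPt) ∈ c • o := h1 ▸ Finset.smul_mem_smul_finset hno
  have heq : c • o = o := by
    refine octad_unique (smul_mem_octads hc ho) ho ?_
    have hsub : o.erase none ⊆ c • o ∩ o := fun q hq => by
      obtain ⟨a, b⟩ := Finset.mem_erase.1 hq
      refine Finset.mem_inter.2 ⟨?_, b⟩
      by_cases e : q = some 0
      · exact e ▸ h0
      · exact hall q b a e
    have := Finset.card_le_card hsub
    rw [Finset.card_erase_of_mem hno, ho.2] at this
    omega
  -- the octad holds both points; separate them by another octad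
  have h0o : (some 0 : GolayPt) ∈ o := heq ▸ h0
  have hpair : ({none, some 0} : Finset GolayPt).card = 2 := Finset.card_pair (by simp)
  obtain ⟨p, hpmem, hpo⟩ : ∃ p, p ∈ (Finset.univ : Finset GolayPt) ∧ p ∉ o :=
    Finset.exists_mem_notMem_of_card_lt_card (by
      rw [ho.2, Finset.card_univ, Fintype.card_option, ZMod.card]; norm_num)
  obtain ⟨t, ht, ht3⟩ := Finset.exists_subset_card_eq (s := (o.erase none).erase (some 0)) (n := 3)
    (by rw [Finset.card_erase_of_mem (by simp [h0o]), Finset.card_erase_of_mem hno, ho.2]; norm_num)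
  have htno : (none : GolayPt) ∉ t := fun h => by simpa using ht h
  have hpt : p ∉ insert none t := by
    simp only [Finset.mem_insert, not_or]
    exact ⟨fun e => hpo (e ▸ hno), fun h => hpo (Finset.mem_of_mem_erase
      (Finset.mem_of_mem_erase (ht h)))⟩
  obtain ⟨o2, ⟨ho2, hso2⟩, -⟩ := exists_octad_above (s := insert p (insert none t))
    (by rw [Finset.card_insert_of_notMem hpt, Finset.card_insert_of_notMem htno, ht3])
  have hne : o2 ≠ o := fun e => hpo (e ▸ hso2 (Finset.mem_insert_self _ _))
  have h2no : (none : GolayPt) ∈ o2 :=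
    hso2 (Finset.mem_insert_of_mem (Finset.mem_insert_self _ _))
  by_cases h02 : (some 0 : GolayPt) ∈ o2
  · -- five common points
    refine hne (octad_unique ho2 ho ?_)
    have hsub : insert (some 0) (insert none t) ⊆ o2 ∩ o := by
      intro q hq
      simp only [Finset.mem_insert] at hq
      rcases hq with rfl | rfl | hq
      · exact Finset.mem_inter.2 ⟨h02, h0o⟩
      · exact Finset.mem_inter.2 ⟨h2no, hno⟩
      · exact Finset.mem_inter.2 ⟨hso2 (Finset.mem_insert_of_mem (Finset.mem_insert_of_mem hq)),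
          Finset.mem_of_mem_erase (Finset.mem_of_mem_erase (ht hq))⟩
    have := Finset.card_le_card hsub
    rw [Finset.card_insert_of_notMem (by simp; exact fun h => by simpa using ht h),
      Finset.card_insert_of_notMem htno, ht3] at this
    exact this
  · have h20 : (some 0 : GolayPt) ∈ c • o2 := h1 ▸ Finset.smul_mem_smul_finset h2no
    refine h02 ?_
    have heq2 : c • o2 = o2 := by
      refine octad_unique (smul_mem_octads hc ho2) ho2 ?_
      have hsub : o2.erase none ⊆ c • o2 ∩ o2 := fun q hq => by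
        obtain ⟨a, b⟩ := Finset.mem_erase.1 hq
        refine Finset.mem_inter.2 ⟨?_, b⟩
        have hq0 : q ≠ some 0 := fun e => h02 (e ▸ b)
        exact (hfix q a hq0) ▸ Finset.smul_mem_smul_finset b
      have := Finset.card_le_card hsub
      rw [Finset.card_erase_of_mem h2no, ho2.2] at this
      omega
    exact heq2 ▸ h20

theorem pair_result {g : Equiv.Perm GolayPt} (hg : g ∈ M24) (h₁ : g none = some 0)
    (h₂ : g (some 0) = none) :
    Spor.M22.relIndex (M24 ⊓ stabilizer (Equiv.Perm GolayPt) ({none, some 0} : Finset GolayPt)) = 2 ∧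
    (∀ x ∈ Spor.M22, g * x * g⁻¹ ∈ Spor.M22) ∧
    ¬ ∃ h ∈ Spor.M22, ∀ x ∈ Spor.M22, g * x * g⁻¹ = h * x * h⁻¹ := by
  classical
  have hi1 : g⁻¹ none = some 0 := by rw [Equiv.Perm.inv_eq_iff_eq, h₂]
  have hi2 : g⁻¹ (some 0) = none := by rw [Equiv.Perm.inv_eq_iff_eq, h₁]
  refine ⟨?_, fun x hx => ?_, ?_⟩
  · set K := M24 ⊓ stabilizer (Equiv.Perm GolayPt) ({none, some 0} : Finset GolayPt) with hK
    have hgK : g ∈ K := ⟨hg, by
      show g • ({none, some 0} : Finset GolayPt) = _
      rw [Finset.smul_finset_insert, Finset.smul_finset_singleton, Equiv.Perm.smul_def,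
        Equiv.Perm.smul_def, h₁, h₂, Finset.pair_comm]⟩
    have hpair : ∀ k ∈ K, ∀ q ∈ ({none, some 0} : Finset GolayPt),
        k q ∈ ({none, some 0} : Finset GolayPt) := fun k hk q hq => by
      have h := Finset.smul_mem_smul_finset (a := k) hq
      rwa [show k • ({none, some 0} : Finset GolayPt) = {none, some 0} from hk.2] at h
    have hsub : Spor.M22.subgroupOf K = stabilizer K (none : GolayPt) := by
      ext k
      rw [Subgroup.mem_subgroupOf, mem_M22, mem_stabilizer_iff]
      refine ⟨fun h => h.2.1, fun h => ⟨k.2.1, h, ?_⟩⟩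
      have hk := hpair k k.2 (some 0) (by simp)
      simp only [Finset.mem_insert, Finset.mem_singleton] at hk
      rcases hk with hk | hk
      · exact absurd (k.1.injective (hk.trans (show k.1 none = none from h).symm)) (by simp)
      · exact hk
    have horb : orbit K (none : GolayPt) = ↑({none, some 0} : Finset GolayPt) := by
      ext q
      constructor
      · rintro ⟨k, rfl⟩
        exact hpair k k.2 none (by simp)
      · intro hq
        simp only [Finset.coe_insert, Finset.coe_singleton, Set.mem_insert_iff,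
          Set.mem_singleton_iff] at hq
        rcases hq with rfl | rfl
        · exact mem_orbit_self _
        · exact ⟨⟨g, hgK⟩, h₁⟩
    rw [Subgroup.relIndex, hsub, index_stabilizer, horb, Set.ncard_coe_finset,
      Finset.card_pair (by simp)]
  · obtain ⟨hxM, hx0, hx1⟩ := mem_M22.1 hx
    refine mem_M22.2 ⟨mul_mem (mul_mem hg hxM) (inv_mem hg), ?_, ?_⟩
    · rw [Equiv.Perm.mul_apply, Equiv.Perm.mul_apply, hi1, hx1, h₂]
    · rw [Equiv.Perm.mul_apply, Equiv.Perm.mul_apply, hi2, hx0, h₁]
  · rintro ⟨h, hh, hall⟩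
    obtain ⟨hhM, hh0, hh1⟩ := mem_M22.1 hh
    have hj0 : h⁻¹ none = none := by rw [Equiv.Perm.inv_eq_iff_eq, hh0]
    have hj1 : h⁻¹ (some 0) = some 0 := by rw [Equiv.Perm.inv_eq_iff_eq, hh1]
    set c := h⁻¹ * g with hc
    have hc1 : c none = some 0 := by rw [hc, Equiv.Perm.mul_apply, h₁, hj1]
    have hc2 : c (some 0) = none := by rw [hc, Equiv.Perm.mul_apply, h₂, hj0]
    refine octad_not_separated (mul_mem (inv_mem hhM) hg) hc1 fun p hp hp0 => ?_
    by_contra hne
    have hcn : c p ≠ none := fun e => hp0 (c.injective (e.trans hc2.symm))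
    have hc0 : c p ≠ some 0 := fun e => hp (c.injective (e.trans hc1.symm))
    obtain ⟨x, hx, hxp, hxq⟩ := exists_M22_move hp hp0 hcn hc0 (Ne.symm hne)
    refine hxq ?_
    have e : x * c = c * x := by
      have e' := hall x hx
      rw [hc]
      calc x * (h⁻¹ * g) = h⁻¹ * (h * x * h⁻¹) * g := by group
        _ = h⁻¹ * g * x := by rw [← e']; group
    calc x (c p) = (x * c) p := rfl
      _ = c p := by rw [e, Equiv.Perm.mul_apply, hxp]

theorem squareDodecad_eq : Spor.squareDodecad = unmask dodMask := by decide +kernel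

theorem dodecad_classes :
    Nonempty (↥(Spor.M12 ⊓ stabilizer (Equiv.Perm GolayPt) (none : GolayPt)) ≃* ↥Spor.M11) ∧
    (¬ ∃ k ∈ Spor.M12, MulAut.conj k • Spor.M11 =
      Spor.M12 ⊓ stabilizer (Equiv.Perm GolayPt) (none : GolayPt)) ∧
    ∃ g ∈ M24, g • Spor.squareDodecad = Finset.univ \ Spor.squareDodecad ∧
      MulAut.conj g • Spor.M11 = Spor.M12 ⊓ stabilizer (Equiv.Perm GolayPt) (none : GolayPt) := by
  classical
  have hd : Spor.squareDodecad ∈ dodecads := squareDodecad_eq ▸ dodMask_mem
  have h0d : (some 0 : GolayPt) ∈ Spor.squareDodecad := by rw [squareDodecad_eq]; decide +kernel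
  have hnd : (none : GolayPt) ∉ Spor.squareDodecad := by rw [squareDodecad_eq]; decide +kernel
  set D := Spor.squareDodecad with hD
  have hDc : Finset.univ \ D ∈ dodecads := by
    refine ⟨?_, by rw [Finset.card_sdiff_of_subset (Finset.subset_univ _), Finset.card_univ,
      Fintype.card_option, ZMod.card, hd.2]⟩
    rw [show Finset.univ \ D = symmDiff D Finset.univ by
      ext p; simp [Finset.mem_symmDiff]]
    exact symmDiff_mem_supports hd.1
      (mem_supports_iff.2 ⟨fullMask, inCode_iff.1 (by decide +kernel), unmask_fullMask⟩)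
  obtain ⟨a, ha, ha0⟩ := card_stabilizer_dodecad_point hd h0d
  obtain ⟨b, hb, hb0⟩ := card_stabilizer_dodecad_point hDc
    (show (none : GolayPt) ∈ Finset.univ \ D by simp [hnd])
  set g : M24 := b * a⁻¹ with hg
  have hgD : g • D = Finset.univ \ D := by rw [hg, mul_smul, ← ha, inv_smul_smul, hb, ha]
  have hg0 : g • (some 0 : GolayPt) = none := by
    rw [hg, mul_smul, ← ha0, inv_smul_smul, hb0]
  have hM11 : ∀ x : Equiv.Perm GolayPt, x ∈ Spor.M11 ↔ x ∈ M24 ∧ x • D = D ∧ x (some 0) = some 0 :=
    fun x => by simp only [Spor.M11, Spor.M12, Subgroup.mem_inf, mem_stabilizer_iff, hD,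
      Equiv.Perm.smul_def, and_assoc]
  have hstab : ∀ x : Equiv.Perm GolayPt, x • (Finset.univ \ D) = Finset.univ \ D ↔ x • D = D := by
    intro x
    rw [Finset.smul_finset_sdiff, Finset.smul_finset_univ]
    constructor
    · intro h
      rwa [← Finset.compl_eq_univ_sdiff, ← Finset.compl_eq_univ_sdiff, compl_inj_iff] at h
    · intro h; rw [h]
  have hconj : MulAut.conj (g : Equiv.Perm GolayPt) • Spor.M11 =
      Spor.M12 ⊓ stabilizer (Equiv.Perm GolayPt) (none : GolayPt) := by
    ext x
    rw [Subgroup.mem_pointwise_smul_iff_inv_smul_mem, hM11]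
    simp only [Spor.M12, Subgroup.mem_inf, mem_stabilizer_iff, MulAut.smul_def, MulAut.conj_inv_apply]
    have hgD' : (g : Equiv.Perm GolayPt) • D = Finset.univ \ D := hgD
    have hg0' : (g : Equiv.Perm GolayPt) (some 0) = none := hg0
    constructor
    · rintro ⟨h1, h2, h3⟩
      have hxM : x ∈ M24 := by
        have := mul_mem (mul_mem g.2 h1) (inv_mem g.2)
        simpa [mul_assoc] using this
      refine ⟨⟨hxM, (hstab x).1 ?_⟩, ?_⟩
      · rw [mul_smul, mul_smul, inv_smul_eq_iff, hgD'] at h2
        exact h2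
      · rw [Equiv.Perm.mul_apply, Equiv.Perm.mul_apply, hg0', Equiv.Perm.inv_eq_iff_eq,
          hg0'] at h3
        exact h3
    · rintro ⟨⟨h1, h2⟩, h3⟩
      refine ⟨mul_mem (mul_mem (inv_mem g.2) h1) g.2, ?_, ?_⟩
      · rw [mul_smul, mul_smul, inv_smul_eq_iff, hgD']
        exact (hstab x).2 h2
      · rw [Equiv.Perm.mul_apply, Equiv.Perm.mul_apply, hg0', Equiv.Perm.inv_eq_iff_eq, hg0']
        exact h3
  refine ⟨?_, ?_, g, g.2, hgD, hconj⟩
  · rw [← hconj]
    exact ⟨(Subgroup.equivSMul (MulAut.conj (g : Equiv.Perm GolayPt)) Spor.M11).symm⟩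
  · rintro ⟨k, hk, hkeq⟩
    obtain ⟨hkM, hkD⟩ := hk
    have hkD' : k • D = D := hkD
    set q := k (some 0) with hq
    have hqd : q ∈ D := hkD' ▸ Finset.smul_mem_smul_finset h0d
    obtain ⟨p, hp, hpn⟩ : ∃ p ∉ D, p ≠ (none : GolayPt) := by
      obtain ⟨p, -, hp⟩ := Finset.exists_mem_notMem_of_card_lt_card
        (s := insert none D) (t := Finset.univ) (by
          rw [Finset.card_insert_of_notMem hnd, hd.2, Finset.card_univ, Fintype.card_option,
            ZMod.card]; norm_num)
      simp only [Finset.mem_insert, not_or] at hp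
      exact ⟨p, hp.2, hp.1⟩
    obtain ⟨p', hp', hpn', hpp⟩ : ∃ p', p' ∉ D ∧ p' ≠ none ∧ p' ≠ p := by
      obtain ⟨p', -, hp'⟩ := Finset.exists_mem_notMem_of_card_lt_card
        (s := insert p (insert none D)) (t := Finset.univ) (by
          refine lt_of_le_of_lt ((Finset.card_insert_le _ _).trans
            (Nat.succ_le_succ (Finset.card_insert_le _ _))) ?_
          rw [hd.2, Finset.card_univ, Fintype.card_option, ZMod.card]; norm_num)
      simp only [Finset.mem_insert, not_or] at hp'
      exact ⟨p', hp'.2.2, hp'.2.1, hp'.1⟩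
    let x : Fin 3 ↪ GolayPt := ⟨![none, p, p'], by
      intro i j e
      have := hpn.symm; have := hpn'.symm; have := hpp.symm
      fin_cases i <;> fin_cases j <;> simp_all⟩
    let y : Fin 3 ↪ GolayPt := ⟨![p, none, p'], by
      intro i j e
      have := hpn.symm; have := hpn'.symm; have := hpp.symm
      fin_cases i <;> fin_cases j <;> simp_all⟩
    obtain ⟨m, hm, hmx⟩ := three_transitive_outside hd hqd x y
      (fun i => by fin_cases i; exacts [hnd, hp, hp'])
      (fun i => by fin_cases i; exacts [hp, hnd, hp'])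
    have hmem : (m : Equiv.Perm GolayPt) ∈ MulAut.conj k • Spor.M11 := by
      rw [Subgroup.mem_pointwise_smul_iff_inv_smul_mem, hM11]
      simp only [MulAut.smul_def, MulAut.conj_inv_apply]
      refine ⟨mul_mem (mul_mem (inv_mem hkM) m.2) hkM, ?_, ?_⟩
      · rw [mul_smul, mul_smul, hkD', show (m : Equiv.Perm GolayPt) • D = D from hm.1,
          inv_smul_eq_iff, hkD']
      · rw [Equiv.Perm.mul_apply, Equiv.Perm.mul_apply, Equiv.Perm.inv_eq_iff_eq]
        exact hm.2
    rw [hkeq] at hmem
    have hfix : (m : Equiv.Perm GolayPt) none = none := hmem.2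
    have h' : (m : Equiv.Perm GolayPt) none = p := hmx 0
    exact hpn (h'.symm.trans hfix)

end CfsgLib.ExtraspecialLarge.PairStabilizer
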