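import Mathlib

/-!
# A reflection calculus for simply-laced Coxeter relations

`G` is any group with elements `s 0, …, s (n-1)` satisfying the simply-laced Coxeter relations of a graph
given by neighbour lists `nb`.  A vector `v : List ℕ` reached from a simple root by height-increasing simple
reflections determines a well defined element of `G` (`Rep.unique`), and these elements are permuted by
conjugation in the same way as the roots are permuted by simple reflections (`Rep.act`).
-/

set_option autoImplicit false

namespace CfsgLib.ExtraspecialLarge.RootRefl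

variable {G : Type*} [Group G]

/-- coefficient -/
def cf (v : List ℕ) (i : ℕ) : ℕ := v.getD i 0

/-- sum of the coefficients at the neighbours of `i` -/
def nsum (nb : ℕ → List ℕ) (v : List ℕ) (i : ℕ) : ℕ := ((nb i).map (cf v)).sum

/-- simple reflection on non-negative vectors -/
def rf (nb : ℕ → List ℕ) (v : List ℕ) (i : ℕ) : List ℕ := v.set i (nsum nb v i - cf v i)

/-- simple root -/
def unitVec (n i : ℕ) : List ℕ := (List.replicate n 0).set i 1

/-- action of a simple reflection on positive roots up to sign -/
def act (nb : ℕ → List ℕ) (n i : ℕ) (v : List ℕ) : List ℕ :=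
  if v = unitVec n i then v else rf nb v i

/-- action of a word -/
def track (nb : ℕ → List ℕ) (n : ℕ) (w : List ℕ) (v : List ℕ) : List ℕ := w.foldr (act nb n) v

/-- the element of a word -/
def wp (s : ℕ → G) (w : List ℕ) : G := (w.map s).prod

/-- the graph is a simple graph on `0, …, n-1` -/
structure Graph (n : ℕ) (nb : ℕ → List ℕ) : Prop where
  lt : ∀ i, i < n → ∀ j ∈ nb i, j < n
  irr : ∀ i, i < n → i ∉ nb i
  symm : ∀ i, i < n → ∀ j ∈ nb i, i ∈ nb j
  nodup : ∀ i, i < n → (nb i).Nodup

/-- the simply-laced Coxeter relations -/
structure Cox (n : ℕ) (nb : ℕ → List ℕ) (s : ℕ → G) : Prop where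
  sq : ∀ i, i < n → s i * s i = 1
  comm : ∀ i, i < n → ∀ j, j < n → i ≠ j → j ∉ nb i → s i * s j = s j * s i
  braid : ∀ i, i < n → ∀ j ∈ nb i, s i * s j * s i = s j * s i * s j

/-- elements attached to positive roots -/
inductive Rep (n : ℕ) (nb : ℕ → List ℕ) (s : ℕ → G) : List ℕ → G → Prop
  | base (i : ℕ) : i < n → Rep n nb s (unitVec n i) (s i)
  | up {v : List ℕ} {x : G} (i : ℕ) : i < n → Rep n nb s v x → 2 * cf v i < nsum nb v i →
      Rep n nb s (rf nb v i) (s i * x * s i)

/-! ### list lemmas -/

lemma cf_set {v : List ℕ} {p : ℕ} (hp : p < v.length) (a j : ℕ) :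
    cf (v.set p a) j = if j = p then a else cf v j := by
  unfold cf
  simp only [List.getD_eq_getElem?_getD, List.getElem?_set]
  by_cases h : j = p
  · subst h; simp [hp]
  · simp [h, Ne.symm h]

lemma sum_map_set {v : List ℕ} {p : ℕ} (hp : p < v.length) (a : ℕ) :
    ∀ l : List ℕ, l.Nodup →
      (l.map (cf (v.set p a))).sum + (if p ∈ l then cf v p else 0)
        = (l.map (cf v)).sum + (if p ∈ l then a else 0)
  | [], _ => by simp
  | b :: l, h => by
    have hl := sum_map_set hp a l (List.nodup_cons.1 h).2
    have hb := (List.nodup_cons.1 h).1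
    simp only [List.map_cons, List.sum_cons, cf_set hp, List.mem_cons]
    by_cases hbp : b = p
    · subst hbp; simp [hb] at hl ⊢; omega
    · have : p ≠ b := Ne.symm hbp
      simp [hbp, this]; omega

lemma sum_set_add : ∀ {v : List ℕ} {p : ℕ}, p < v.length → ∀ a : ℕ,
    (v.set p a).sum + cf v p = v.sum + a
  | [], p, h, a => absurd h (by simp)
  | x :: l, 0, _, a => by simp [cf]; omega
  | x :: l, p + 1, h, a => by
    have := sum_set_add (v := l) (p := p) (by simpa using h) a
    simp [cf] at this ⊢; omega

lemma ext_cf {n : ℕ} {v w : List ℕ} (hv : v.length = n) (hw : w.length = n)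
    (h : ∀ j, j < n → cf v j = cf w j) : v = w := by
  refine List.ext_getElem (hv.trans hw.symm) fun j h1 h2 => ?_
  have := h j (hv ▸ h1)
  simpa [cf, List.getD_eq_getElem?_getD, h1, h2] using this

lemma length_rf (nb : ℕ → List ℕ) (v : List ℕ) (i : ℕ) : (rf nb v i).length = v.length := by
  simp [rf]

lemma length_unitVec (n i : ℕ) : (unitVec n i).length = n := by simp [unitVec]

lemma cf_replicate (n j : ℕ) : cf (List.replicate n 0) j = 0 := by
  unfold cf
  rw [List.getD_eq_getElem?_getD, List.getElem?_replicate]
  split <;> rfl

lemma cf_unitVec {n i : ℕ} (hi : i < n) (j : ℕ) : cf (unitVec n i) j = if j = i then 1 else 0 := by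
  rw [unitVec, cf_set (by simpa using hi), cf_replicate]

lemma sum_unitVec {n i : ℕ} (hi : i < n) : (unitVec n i).sum = 1 := by
  have := sum_set_add (v := List.replicate n 0) (p := i) (by simpa using hi) 1
  rw [cf_replicate] at this
  simpa [unitVec] using this

variable {n : ℕ} {nb : ℕ → List ℕ} {s : ℕ → G}

lemma cf_rf {v : List ℕ} {p : ℕ} (hv : v.length = n) (hp : p < n) (j : ℕ) :
    cf (rf nb v p) j = if j = p then nsum nb v p - cf v p else cf v j :=
  cf_set (hv ▸ hp) _ _

lemma nsum_rf (hg : Graph n nb) {v : List ℕ} {p i : ℕ} (hv : v.length = n) (hp : p < n) (hi : i < n) :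
    nsum nb (rf nb v p) i + (if p ∈ nb i then cf v p else 0)
      = nsum nb v i + (if p ∈ nb i then nsum nb v p - cf v p else 0) :=
  sum_map_set (hv ▸ hp) _ _ (hg.nodup i hi)

lemma nsum_rf_self (hg : Graph n nb) {v : List ℕ} {p : ℕ} (hv : v.length = n) (hp : p < n) :
    nsum nb (rf nb v p) p = nsum nb v p := by
  simpa [hg.irr p hp] using nsum_rf hg hv hp hp

lemma nsum_unitVec (hg : Graph n nb) {i p : ℕ} (hi : i < n) (hp : p < n) :
    nsum nb (unitVec n i) p = if i ∈ nb p then 1 else 0 := by
  have := sum_map_set (v := List.replicate n 0) (p := i) (by simpa using hi) 1 (nb p) (hg.nodup p hp)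
  have e : cf (List.replicate n 0) = fun _ => 0 := funext (cf_replicate n)
  simp only [e, ite_self, add_zero, List.map_const', List.sum_replicate, smul_eq_mul, mul_zero, zero_add] at this
  exact this

lemma Rep.length_eq {v : List ℕ} {x : G} (h : Rep n nb s v x) : v.length = n := by
  induction h with
  | base i _ => exact length_unitVec n i
  | up i _ _ _ ih => rw [length_rf]; exact ih

lemma Rep.sum_lt {v : List ℕ} {x : G} {i : ℕ} (h : Rep n nb s v x) (hi : i < n)
    (hc : 2 * cf v i < nsum nb v i) : v.sum < (rf nb v i).sum := by
  have := sum_set_add (v := v) (p := i) (h.length_eq ▸ hi) (nsum nb v i - cf v i)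
  unfold rf; omega

lemma Rep.one_le_sum {v : List ℕ} {x : G} (h : Rep n nb s v x) : 1 ≤ v.sum := by
  induction h with
  | base i hi => rw [sum_unitVec hi]
  | up i hi hr hc ih => exact le_trans ih (le_of_lt (hr.sum_lt hi hc))

lemma Rep.unit_eq {i : ℕ} {x : G} (hi : i < n) (h : Rep n nb s (unitVec n i) x) : x = s i := by
  generalize hv : unitVec n i = v at h
  cases h with
  | base q hq =>
    have := congrArg (fun l => cf l q) hv
    simp [cf_unitVec hq, cf_unitVec hi] at this
    exact congrArg s this
  | up q hq hr hc =>
    have h1 := hr.sum_lt hq hc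
    rw [← hv, sum_unitVec hi] at h1
    have := hr.one_le_sum; omega

/-! ### the key property -/

/-- behaviour of a representative under all simple reflections -/
def Good (n : ℕ) (nb : ℕ → List ℕ) (s : ℕ → G) (v : List ℕ) (x : G) : Prop :=
  ∀ i, i < n →
    (2 * cf v i = nsum nb v i → s i * x * s i = x) ∧
    (nsum nb v i < 2 * cf v i → v ≠ unitVec n i →
      cf v i ≤ nsum nb v i ∧ Rep n nb s (rf nb v i) (s i * x * s i))

theorem Rep.good (hg : Graph n nb) (hs : Cox n nb s) : ∀ {v : List ℕ} {x : G},
    Rep n nb s v x → Good n nb s v x := by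
  suffices H : ∀ m : ℕ, ∀ {v : List ℕ} {x : G}, v.sum = m → Rep n nb s v x → Good n nb s v x from
    fun {v x} h => H v.sum rfl h
  intro m
  induction m using Nat.strong_induction_on with
  | _ m IH =>
  intro v x hm hr i hi
  cases hr with
  | base p hp =>
    have hc := cf_unitVec hp i
    have hn := nsum_unitVec hg hp hi
    refine ⟨fun h => ?_, fun h hne => ?_⟩
    · rw [hc, hn] at h
      have hpi : i ≠ p := by
        rintro rfl; simp [hg.irr i hi] at h
      simp [hpi] at h
      rw [hs.comm i hi p hp hpi h, mul_assoc, hs.sq i hi, mul_one]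
    · rw [hc, hn] at h
      by_cases hpi : i = p
      · exact absurd (hpi ▸ rfl) hne
      · simp [hpi] at h
  | @up w y p hp hw hc0 =>
    have hwl := hw.length_eq
    have hlt := hw.sum_lt hp hc0
    have IHw := IH w.sum (hm ▸ hlt) rfl hw
    have hvp : cf (rf nb w p) p = nsum nb w p - cf w p := by simp [cf_rf hwl hp]
    have hSp := nsum_rf_self hg hwl hp
    have hp2 := hs.sq p hp
    have hi2 := hs.sq i hi
    by_cases hip : i = p
    · subst hip
      refine ⟨fun h => by omega, fun _ _ => ⟨by omega, ?_⟩⟩
      have e1 : rf nb (rf nb w i) i = w := by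
        refine ext_cf (by rw [length_rf, length_rf, hwl]) hwl fun j _ => ?_
        rw [cf_rf (v := rf nb w i) (by rw [length_rf, hwl]) hp, cf_rf hwl hp]
        by_cases hj : j = i
        · subst hj; simp [hSp]; omega
        · simp [hj, cf_rf hwl hp]
      have e2 : s i * (s i * y * s i) * s i = y := by
        simp [← mul_assoc, hp2]; rw [mul_assoc, hp2, mul_one]
      rw [e1, e2]; exact hw
    have hvi : cf (rf nb w p) i = cf w i := by simp [cf_rf hwl hp, hip]
    have hadd := nsum_rf hg hwl hp hi
    by_cases hadj : p ∈ nb i
    swap
    · -- commuting case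
      have hcm := hs.comm i hi p hp hip hadj
      simp [hadj] at hadd
      have hnadj : i ∉ nb p := fun h => hadj (hg.symm p hp i h)
      refine ⟨fun h => ?_, fun h hne => ?_⟩
      · have := (IHw i hi).1 (by omega)
        calc s i * (s p * y * s p) * s i = (s i * s p) * y * (s p * s i) := by group
          _ = (s p * s i) * y * (s i * s p) := by rw [hcm]
          _ = s p * (s i * y * s i) * s p := by group
          _ = s p * y * s p := by rw [this]
      · have hne' : w ≠ unitVec n i := by
          intro hw'
          rw [hw', nsum_unitVec hg hi hp] at hc0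
          simp [hnadj] at hc0
        obtain ⟨hle, hr'⟩ := (IHw i hi).2 (by omega) hne'
        refine ⟨by omega, ?_⟩
        have hwl' : (rf nb w i).length = n := by rw [length_rf, hwl]
        have hS' : nsum nb (rf nb w i) p = nsum nb w p := by
          simpa [hnadj] using nsum_rf hg hwl hi hp
        have hp' : cf (rf nb w i) p = cf w p := by simp [cf_rf hwl hi, Ne.symm hip]
        have hup := Rep.up p hp hr' (by omega)
        have e1 : rf nb (rf nb w i) p = rf nb (rf nb w p) i := by
          refine ext_cf (by rw [length_rf, hwl']) (by rw [length_rf, length_rf, hwl]) fun j _ => ?_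
          rw [cf_rf hwl' hp, cf_rf (v := rf nb w p) (by rw [length_rf, hwl]) hi, hS', hp', hvi, hadd,
            cf_rf hwl hi, cf_rf hwl hp]
          split_ifs <;> omega
        have e2 : s p * (s i * y * s i) * s p = s i * (s p * y * s p) * s i := by
          calc s p * (s i * y * s i) * s p = (s p * s i) * y * (s i * s p) := by group
            _ = (s i * s p) * y * (s p * s i) := by rw [hcm]
            _ = _ := by group
        rw [← e1, ← e2]; exact hup
    · -- braid case
      simp [hadj] at hadd
      have hbr := hs.braid i hi p hadj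
      have hadj' : i ∈ nb p := hg.symm i hi p hadj
      by_cases hsmall : 2 * cf (rf nb w p) i < nsum nb (rf nb w p) i
      · exact ⟨fun h => by omega, fun h _ => by omega⟩
      by_cases hwu : w = unitVec n i
      · subst hwu
        have hy : y = s i := hw.unit_eq hi
        subst hy
        have hci : cf (unitVec n i) i = 1 := by simp [cf_unitVec hi]
        have hcp : cf (unitVec n i) p = 0 := by simp [cf_unitVec hi, Ne.symm hip]
        have hn1 : nsum nb (unitVec n i) i = 0 := by simp [nsum_unitVec hg hi hi, hg.irr i hi]
        have hn2 : nsum nb (unitVec n i) p = 1 := by simp [nsum_unitVec hg hi hp, hadj']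
        refine ⟨fun h => by omega, fun _ _ => ⟨by omega, ?_⟩⟩
        have e1 : rf nb (rf nb (unitVec n i) p) i = unitVec n p := by
          refine ext_cf (by rw [length_rf, length_rf, length_unitVec]) (length_unitVec _ _) fun j _ => ?_
          rw [cf_rf (v := rf nb (unitVec n i) p) (by rw [length_rf, length_unitVec]) hi, cf_rf (length_unitVec _ _) hp, cf_unitVec hp]
          by_cases hj : j = i
          · subst hj; simp [hip]; omega
          · by_cases hj' : j = p
            · subst hj'; simp [Ne.symm hip]; omega
            · simp [hj, hj', cf_unitVec hi, cf_rf (length_unitVec n i) hp]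
        have e2 : s i * (s p * s i * s p) * s i = s p := by
          calc s i * (s p * s i * s p) * s i = s i * (s i * s p * s i) * s i := by rw [hbr]
            _ = (s i * s i) * s p * (s i * s i) := by group
            _ = s p := by rw [hi2, one_mul, mul_one]
        rw [e1, e2]; exact Rep.base p hp
      -- general position
      obtain ⟨hle, hr'⟩ := (IHw i hi).2 (by omega) hwu
      have hwl' : (rf nb w i).length = n := by rw [length_rf, hwl]
      have hw'i : cf (rf nb w i) i = nsum nb w i - cf w i := by simp [cf_rf hwl hi]
      have hw'p : cf (rf nb w i) p = cf w p := by simp [cf_rf hwl hi, Ne.symm hip]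
      have hS' : nsum nb (rf nb w i) p + cf w i = nsum nb w p + (nsum nb w i - cf w i) := by
        simpa [hadj'] using nsum_rf hg hwl hi hp
      have hS'i := nsum_rf_self hg hwl hi
      have hlt' : (rf nb w i).sum < m := by
        have := sum_set_add (v := w) (p := i) (hwl ▸ hi) (nsum nb w i - cf w i)
        subst hm; unfold rf at hlt ⊢; omega
      have IH' := IH _ hlt' rfl hr' p hp
      refine ⟨fun h => ?_, fun h _ => ?_⟩
      · have h0 := IH'.1 (by omega)
        calc s i * (s p * y * s p) * s i
            = (s i * s p * s i) * (s i * y * s i) * (s i * s p * s i) := by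
              have : y = s i * (s i * y * s i) * s i := by
                simp [← mul_assoc, hi2]; rw [mul_assoc, hi2, mul_one]
              conv_lhs => rw [this]
              group
          _ = (s p * s i * s p) * (s i * y * s i) * (s p * s i * s p) := by rw [hbr]
          _ = s p * s i * (s p * (s i * y * s i) * s p) * s i * s p := by group
          _ = s p * s i * (s i * y * s i) * s i * s p := by rw [h0]
          _ = s p * ((s i * s i) * y * (s i * s i)) * s p := by group
          _ = s p * y * s p := by rw [hi2, one_mul, mul_one]
      · have hne' : rf nb w i ≠ unitVec n p := by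
          intro he
          rw [he] at hw'i hw'p hS'i
          simp [cf_unitVec hp, hip, nsum_unitVec hg hp hi, hadj] at hw'i hw'p hS'i
          omega
        obtain ⟨hle', hr''⟩ := IH'.2 (by omega) hne'
        set w' := rf nb w i with hw'def
        have hwl'' : (rf nb w' p).length = n := by rw [length_rf, hwl']
        have h2i : cf (rf nb w' p) i = cf w' i := by simp [cf_rf hwl' hp, hip]
        have h2p : cf (rf nb w' p) p = nsum nb w' p - cf w' p := by simp [cf_rf hwl' hp]
        have hS2i : nsum nb (rf nb w' p) i + cf w' p = nsum nb w' i + (nsum nb w' p - cf w' p) := by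
          simpa [hadj] using nsum_rf hg hwl' hp hi
        have hS2p := nsum_rf_self hg hwl' hp
        have hup1 := Rep.up i hi hr'' (by omega)
        set w2 := rf nb w' p with hw2def
        have hwl3 : (rf nb w2 i).length = n := by rw [length_rf, hwl'']
        have h3p : cf (rf nb w2 i) p = cf w2 p := by simp [cf_rf hwl'' hi, Ne.symm hip]
        have hS3p : nsum nb (rf nb w2 i) p + cf w2 i = nsum nb w2 p + (nsum nb w2 i - cf w2 i) := by
          simpa [hadj'] using nsum_rf hg hwl'' hi hp
        have hup2 := Rep.up p hp hup1 (by omega)
        refine ⟨by omega, ?_⟩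
        have e1 : rf nb (rf nb w2 i) p = rf nb (rf nb w p) i := by
          refine ext_cf (by rw [length_rf, hwl3]) (by rw [length_rf, length_rf, hwl]) fun j _ => ?_
          have q1 := cf_rf (nb := nb) hwl3 hp j
          have q2 := cf_rf (nb := nb) hwl'' hi j
          have q3 := cf_rf (nb := nb) hwl' hp j
          have q4 := cf_rf (nb := nb) hwl hi j
          have q5 := cf_rf (nb := nb) (v := rf nb w p) (by rw [length_rf, hwl]) hi j
          have q6 := cf_rf (nb := nb) hwl hp j
          rw [← hw2def] at q3
          rw [← hw'def] at q4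
          rw [q1, q2, q3, q4, q5, q6]
          by_cases hj : j = p
          · have hji : j ≠ i := hj ▸ Ne.symm hip
            simp only [hj, if_true, if_false, Ne.symm hip]
            omega
          · by_cases hj' : j = i
            · simp only [hj', if_true, if_false, hip]
              omega
            · simp [hj, hj']
        have e2 : s p * (s i * (s p * (s i * y * s i) * s p) * s i) * s p
            = s i * (s p * y * s p) * s i := by
          calc s p * (s i * (s p * (s i * y * s i) * s p) * s i) * s p
              = (s p * s i * s p) * (s i * y * s i) * (s p * s i * s p) := by group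
            _ = (s i * s p * s i) * (s i * y * s i) * (s i * s p * s i) := by rw [hbr]
            _ = s i * s p * ((s i * s i) * y * (s i * s i)) * s p * s i := by group
            _ = s i * (s p * y * s p) * s i := by rw [hi2, one_mul, mul_one]; group
        rw [← e1, ← e2]; exact hup2

theorem Rep.act (hg : Graph n nb) (hs : Cox n nb s) {v : List ℕ} {x : G} (h : Rep n nb s v x)
    {i : ℕ} (hi : i < n) : Rep n nb s (RootRefl.act nb n i v) (s i * x * s i) := by
  unfold RootRefl.act
  split
  · next he =>
    subst he
    have key : x = s i := h.unit_eq hi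
    subst key
    rw [hs.sq i hi, one_mul]; exact h
  · next hne =>
    rcases lt_trichotomy (2 * cf v i) (nsum nb v i) with hc | hc | hc
    · exact Rep.up i hi h hc
    · have e : rf nb v i = v := by
        refine ext_cf (by rw [length_rf, h.length_eq]) h.length_eq fun j _ => ?_
        rw [cf_rf h.length_eq hi]; split
        · next hj => subst hj; omega
        · rfl
      rw [e, (h.good hg hs i hi).1 hc]; exact h
    · exact ((h.good hg hs i hi).2 hc hne).2

theorem Rep.unique (hg : Graph n nb) (hs : Cox n nb s) : ∀ {v : List ℕ} {x y : G},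
    Rep n nb s v x → Rep n nb s v y → x = y := by
  suffices H : ∀ m : ℕ, ∀ {v : List ℕ} {x y : G}, v.sum = m → Rep n nb s v x → Rep n nb s v y → x = y from
    fun {v x y} h h' => H v.sum rfl h h'
  intro m
  induction m using Nat.strong_induction_on with
  | _ m IH =>
  intro v x y hm hx hy
  cases hy with
  | base p hp => exact hx.unit_eq hp
  | @up w z p hp hw hc =>
    have hlt := hw.sum_lt hp hc
    have hwl := hw.length_eq
    have hne : rf nb w p ≠ unitVec n p := by
      intro he
      rw [he, sum_unitVec hp] at hlt
      have := hw.one_le_sum; omega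
    have hvp : cf (rf nb w p) p = nsum nb w p - cf w p := by simp [cf_rf hwl hp]
    have hSp := nsum_rf_self hg hwl hp
    have hr := ((hx.good hg hs p hp).2 (by omega) hne).2
    have e : rf nb (rf nb w p) p = w := by
      refine ext_cf (by rw [length_rf, length_rf, hwl]) hwl fun j _ => ?_
      rw [cf_rf (v := rf nb w p) (by rw [length_rf, hwl]) hp, cf_rf hwl hp]
      by_cases hj : j = p
      · subst hj; simp [hSp]; omega
      · simp [hj, cf_rf hwl hp]
    rw [e] at hr
    have := IH w.sum (hm ▸ hlt) rfl hr hw
    rw [← this]
    simp [← mul_assoc, hs.sq p hp]; rw [mul_assoc, hs.sq p hp, mul_one]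

end CfsgLib.ExtraspecialLarge.RootRefl
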