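/-! Certificate data for the normaliser of a subgroup of order 7 of `Cfsg.M24`. -/

set_option autoImplicit false

namespace CfsgLib.ExtraspecialLarge.SevenNormalizer

/-- An element of order 7 fixing points 4, 12, 18. -/
def rep7 : Nat := 675081883103835147120728243077107043

/-- Elements of its centraliser covering the 21 moved points. -/
def transTbls : List Nat :=
  [984818244535754528103549039458486304,
   902949112253977091013953205360253473,
   143329862310544143785276033936770530,
   675081883103835147120728243077107043,
   357619530765357909113446774734017637,
   984796677067083704576193308738062566,
   902946594631747777006083572433869287,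
   715813271772125195427232963151757512,
   917391970377674751411528388348919817,
   917380579085322065725683526957220042,
   104760829584174904510348863312732491,
   104758311382255329520354985895305517,
   357627154077416924815347613452752526,
   816826515641758075949103315274751439,
   603752087964315337298434849696816176,
   816825264665307133731367600506887345,
   291477810850811958287480029044222259,
   675089471637635129030997274974539188,
   13266652139521783466828861066524021,
   544310168668007263845623191314905270,
   432266612282852008185984447796481687]

/-- Elements of the normaliser fixing point 0: exponent, images of 4, 12, 18, table. -/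
def stabData : List (Nat × List Nat × Nat) :=
  [(1, [4, 12, 18], 984818244535754528103549039458486304),
   (1, [12, 4, 18], 228001363311221454468151101670655040),
   (2, [4, 12, 18], 359649888285508876252947528072550880),
   (2, [12, 4, 18], 399850178705032599044709799426244288),
   (4, [4, 12, 18], 792737051193891780925378049471993472),
   (4, [12, 4, 18], 458856937454809348621267042539459232)]

/-- Excluded exponents and images, with six points refuting them. -/
def excluded : List (Nat × List Nat × Nat) :=
  [(1, [4, 18, 12], 5273),
   (1, [12, 18, 4], 5273),
   (1, [18, 4, 12], 5273),
   (1, [18, 12, 4], 5273),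
   (2, [4, 18, 12], 5273),
   (2, [12, 18, 4], 5273),
   (2, [18, 4, 12], 5273),
   (2, [18, 12, 4], 5273),
   (3, [4, 12, 18], 274457),
   (3, [4, 18, 12], 274457),
   (3, [12, 4, 18], 274457),
   (3, [12, 18, 4], 274457),
   (3, [18, 4, 12], 274457),
   (3, [18, 12, 4], 274457),
   (4, [4, 18, 12], 5273),
   (4, [12, 18, 4], 5273),
   (4, [18, 4, 12], 5273),
   (4, [18, 12, 4], 5273),
   (5, [4, 12, 18], 274457),
   (5, [4, 18, 12], 274457),
   (5, [12, 4, 18], 274457),
   (5, [12, 18, 4], 274457),
   (5, [18, 4, 12], 274457),
   (5, [18, 12, 4], 274457),
   (6, [4, 12, 18], 274457),
   (6, [4, 18, 12], 274457),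
   (6, [12, 4, 18], 274457),
   (6, [12, 18, 4], 274457),
   (6, [18, 4, 12], 274457),
   (6, [18, 12, 4], 274457)]

/-- Two elements of the centraliser which do not commute. -/
def ncPair : Nat × Nat := (291477810850811958287480029044222259, 624595075668701138190041913173448712)

/-- The invariant trio. -/
def trioMasks : List Nat := [418953, 1084018, 15274244]

/-- The ten points determining an element fixing point 0. -/
def tenPts : List Nat := [4, 12, 18, 0, 3, 7, 13, 17, 10, 14]

/-- Refinement certificate for the ten points. -/
def tenCert : List Nat := [5279, 15777, 42232, 18147, 69395, 133817, 525274, 1050548, 2101096, 4196943]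

end CfsgLib.ExtraspecialLarge.SevenNormalizer
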