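import Cfsg.Agent.Lib.ExtraspecialLarge.SevenData
import Cfsg.Agent.Lib.ExtraspecialLarge.M24Invariant

/-!
The normaliser and the centraliser in `Cfsg.M24` of an element of order 7: orders 126 and 42; a
point orbit of length 21, and a point stabiliser determined by ten points.
-/

set_option autoImplicit false
set_option maxRecDepth 100000

namespace CfsgLib.ExtraspecialLarge.SevenNormalizer

open Cfsg CfsgLib.Golay MulAction
open scoped Pointwise

/-- The points fixed by the representative. -/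
def fixPts : List ℕ := [4, 12, 18]

/-- The image of a listed point prescribed by an exponent and the images of the fixed points. -/
def codeMap (k : ℕ) (π : List ℕ) (d : ℕ) : ℕ :=
  if tenPts.idxOf d < 3 then π.getD (tenPts.idxOf d) 0
  else M24Classes.iterAt rep7 ((tenPts.idxOf d - 3) * k) 0

/-- The prescribed image of a mask. -/
def codeImg (k : ℕ) (π : List ℕ) (m : ℕ) : ℕ :=
  (tenPts.filter m.testBit).foldr (fun d acc => 2 ^ codeMap k π d ||| acc) 0

/-- Is the mask inside an octad? -/
def inOctad (m : ℕ) : Bool :=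
  (List.range 759).any fun j =>
    m &&& GolayStructure.fieldAt 24 GolayStructure.octadTable j == m

/-- The six points refute the code. -/
def refutes (k : ℕ) (π : List ℕ) (m : ℕ) : Bool :=
  decide (m < 2 ^ 24) && decide (codeImg k π m < 2 ^ 24) &&
    ((List.range 24).all fun i => !m.testBit i || tenPts.contains i) &&
    inOctad m != inOctad (codeImg k π m)

/-- A code is listed, degenerate or refuted. -/
def codeOk (k : ℕ) (π : List ℕ) : Bool :=
  (stabData.any fun e => e.1 == k && e.2.1 == π) || decide (¬ π.Nodup) ||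
    excluded.any fun e => e.1 == k && e.2.1 == π && refutes k π e.2.2

theorem code_checks :
    ([1, 2, 3, 4, 5, 6].all fun k => fixPts.all fun a => fixPts.all fun b => fixPts.all fun c =>
      codeOk k [a, b, c]) = true ∧
    chainOK (tenPts.map (2 ^ ·)) [] tenCert = true ∧
    (tenPts.all fun d => decide (d < 24)) = true := by
  decide +kernel

theorem rep_checks :
    inM24 rep7 = true ∧
    ((List.range 24).all fun i => M24Classes.iterAt rep7 7 i == i) = true ∧
    tblAt rep7 0 ≠ 0 ∧
    (∀ p : GolayPt, tblAt rep7 (idx p) = idx p ↔ idx p ∈ fixPts) ∧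
    (((List.range 7).all fun i =>
      tenPts.getD (i + 3) 0 == M24Classes.iterAt rep7 i 0)) = true ∧
    tenPts.take 3 = fixPts ∧ tenPts.length = 10 ∧ tenPts.Nodup := by
  decide +kernel

theorem data_checks :
    (transTbls.all fun t => inM24 t &&
      (List.range 24).all fun i => tblAt t (tblAt rep7 i) == tblAt rep7 (tblAt t i)) = true ∧
    (∀ q : GolayPt, idx q ∉ fixPts → (transTbls.any fun t => tblAt t 0 == idx q) = true) ∧
    (stabData.all fun e => [1, 2, 4].contains e.1 && inM24 e.2.2 && tblAt e.2.2 0 == 0 &&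
      ((List.range 24).all fun i =>
        tblAt e.2.2 (tblAt rep7 i) == M24Classes.iterAt rep7 e.1 (tblAt e.2.2 i)) &&
      fixPts.map (tblAt e.2.2) == e.2.1) = true ∧
    (stabData.map fun e => (e.1, e.2.1)).Nodup ∧ stabData.length = 6 ∧
    (stabData.filter fun e => e.1 == 1).length = 2 ∧
    (inM24 ncPair.1 && inM24 ncPair.2 &&
      ((List.range 24).all fun i => tblAt ncPair.1 (tblAt rep7 i) == tblAt rep7 (tblAt ncPair.1 i)) &&
      ((List.range 24).all fun i => tblAt ncPair.2 (tblAt rep7 i) == tblAt rep7 (tblAt ncPair.2 i)) &&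
      !(List.range 24).all fun i =>
        tblAt ncPair.1 (tblAt ncPair.2 i) == tblAt ncPair.2 (tblAt ncPair.1 i)) = true ∧
    ((List.range 24).all fun i => fixPts.contains i || decide (0 < i + 1)) = true ∧
    (Finset.univ.filter fun q : GolayPt => idx q ∉ fixPts).card = 21 := by
  decide +kernel

theorem trio_mask_checks :
    (trioMasks.all fun m => decide (m < 2 ^ 24) && inCode m && popc m == 8) = true ∧
    (trioMasks.all fun a => trioMasks.all fun b => a == b || a &&& b == 0) = true ∧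
    trioMasks.Nodup ∧ trioMasks.length = 3 ∧
    (transTbls.all fun t => trioMasks.all fun m => trioMasks.contains (imgMask t m)) = true ∧
    (stabData.all fun e => trioMasks.all fun m => trioMasks.contains (imgMask e.2.2 m)) = true := by
  decide +kernel

variable {r : Equiv.Perm GolayPt}

theorem rep_pow_seven (hr : IsTbl r rep7) : r ^ 7 = 1 := Equiv.ext fun p => idx_injective (by
  rw [M24Classes.iterAt_spec hr, Equiv.Perm.one_apply]
  exact beq_iff_eq.1 (List.all_eq_true.1 rep_checks.2.1 _ (List.mem_range.2 (idx_lt p))))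

theorem orderOf_rep (hr : IsTbl r rep7) : orderOf r = 7 := by
  have : Fact (Nat.Prime 7) := ⟨by norm_num⟩
  refine orderOf_eq_prime (rep_pow_seven hr) fun e => rep_checks.2.2.1 ?_
  have h := hr (pt 0)
  rw [e, Equiv.Perm.one_apply, idx_pt (by norm_num)] at h
  exact h.symm

theorem fixed_iff (hr : IsTbl r rep7) (q : GolayPt) : r q = q ↔ idx q ∈ fixPts := by
  rw [← rep_checks.2.2.2.1 q, ← hr q]
  exact ⟨congrArg idx, fun h => idx_injective h⟩

theorem apply_fixed (hr : IsTbl r rep7) {k : ℕ} (hk : ¬ 7 ∣ k) {g : Equiv.Perm GolayPt}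
    (hg : g * r = r ^ k * g) {q : GolayPt} (hq : r q = q) : r (g q) = g q := by
  have h1 : (r ^ k) (g q) = g q := by rw [← Equiv.Perm.mul_apply, ← hg, Equiv.Perm.mul_apply, hq]
  have hcop : Nat.Coprime k (orderOf r) := by
    rw [orderOf_rep hr, Nat.coprime_comm]
    exact ((by norm_num : Nat.Prime 7).coprime_iff_not_dvd).2 hk
  obtain ⟨m, hm⟩ := exists_pow_eq_self_of_coprime hcop
  conv_lhs => rw [← hm]
  exact Equiv.Perm.pow_apply_eq_self_of_apply_eq_self h1 m

theorem apply_code (hr : IsTbl r rep7) {k : ℕ} {g : Equiv.Perm GolayPt} (hg : g * r = r ^ k * g)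
    (h0 : g (pt 0) = pt 0) {d : ℕ} (hd : d ∈ tenPts) :
    idx (g (pt d)) = codeMap k (fixPts.map fun i => idx (g (pt i))) d := by
  obtain ⟨j, hj, rfl⟩ := List.getElem_of_mem hd
  obtain ⟨-, -, -, -, hcyc, htake, hlen, hnd⟩ := rep_checks
  rw [codeMap, hnd.idxOf_getElem j hj]
  by_cases hj3 : j < 3
  · rw [if_pos hj3]
    have e : tenPts[j] = fixPts.getD j 0 := by
      rw [← htake, List.getD_eq_getElem _ _ (by rw [List.length_take]; omega), List.getElem_take]
    rw [e]
    interval_cases j <;> rfl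
  · rw [if_neg hj3]
    have hi : j - 3 < 7 := by omega
    have hc := List.all_eq_true.1 hcyc (j - 3) (List.mem_range.2 hi)
    rw [beq_iff_eq, Nat.sub_add_cancel (by omega), List.getD_eq_getElem _ _ hj] at hc
    have hpt : pt tenPts[j] = (r ^ (j - 3)) (pt 0) := idx_injective (by
      rw [M24Classes.iterAt_spec hr, idx_pt (i := 0) (by norm_num), idx_pt, hc]
      exact of_decide_eq_true (List.all_eq_true.1 code_checks.2.2 _ (List.getElem_mem hj)))
    have hs : g * r ^ (j - 3) = (r ^ k) ^ (j - 3) * g :=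
      (show SemiconjBy g r (r ^ k) from hg).pow_right (j - 3)
    rw [hpt, ← Equiv.Perm.mul_apply, hs, Equiv.Perm.mul_apply, h0, ← pow_mul, mul_comm,
      M24Classes.iterAt_spec hr, idx_pt (by norm_num)]

theorem testBit_codeImg (k : ℕ) (π : List ℕ) (m i : ℕ) :
    (codeImg k π m).testBit i = true ↔ ∃ d ∈ tenPts, m.testBit d = true ∧ codeMap k π d = i := by
  rw [codeImg]
  have aux : ∀ l : List ℕ, (l.foldr (fun d acc => 2 ^ codeMap k π d ||| acc) 0).testBit i = true ↔
      ∃ d ∈ l, codeMap k π d = i := by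
    intro l
    induction l with
    | nil => simp
    | cons a l ih =>
      rw [List.foldr_cons, Nat.testBit_lor, Bool.or_eq_true, ih, Nat.testBit_two_pow,
        decide_eq_true_iff]
      simp
  rw [aux]
  simp only [List.mem_filter, and_assoc]

theorem inOctad_iff {m : ℕ} (hm : m < 2 ^ 24) :
    inOctad m = true ↔ ∃ o ∈ octads, unmask m ⊆ o := by
  simp only [inOctad, List.any_eq_true, List.mem_range, beq_iff_eq]
  constructor
  · rintro ⟨j, hj, h⟩
    exact ⟨_, GolayStructure.octad_mapsTo j hj, unmask_subset h⟩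
  · rintro ⟨o, ho, h⟩
    rw [← GolayStructure.octadAll.image_eq (by norm_num)] at ho
    obtain ⟨j, hj, rfl⟩ := ho
    refine ⟨j, hj, unmask_injOn (Nat.and_lt_two_pow _ (GolayStructure.fieldAt_lt_pow ..)) hm ?_⟩
    rw [unmask_and, Finset.inter_eq_left]
    exact h

/-- An element of the normaliser fixing point 0 has a listed code. -/
theorem code_listed (hr : IsTbl r rep7) {k : ℕ} (hk : k ∈ [1, 2, 3, 4, 5, 6])
    {g : Equiv.Perm GolayPt} (hgM : g ∈ M24) (hg : g * r = r ^ k * g) (h0 : g (pt 0) = pt 0) :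
    ∃ e ∈ stabData, e.1 = k ∧ e.2.1 = fixPts.map fun i => idx (g (pt i)) := by
  have hk7 : ¬ 7 ∣ k := by
    simp only [List.mem_cons, List.not_mem_nil, or_false] at hk
    rcases hk with rfl | rfl | rfl | rfl | rfl | rfl <;> decide
  have hfix : ∀ i ∈ fixPts, idx (g (pt i)) ∈ fixPts := by
    intro i hi
    have hi24 : i < 24 := by
      simp only [fixPts, List.mem_cons, List.not_mem_nil, or_false] at hi
      omega
    exact (fixed_iff hr _).1 (apply_fixed hr hk7 hg ((fixed_iff hr _).2 (by rwa [idx_pt hi24])))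
  set a := idx (g (pt 4)) with ha
  set b := idx (g (pt 12)) with hb
  set c := idx (g (pt 18)) with hc
  have hπ : (fixPts.map fun i => idx (g (pt i))) = [a, b, c] := rfl
  rw [hπ]
  have h := List.all_eq_true.1 (List.all_eq_true.1 (List.all_eq_true.1
    (List.all_eq_true.1 code_checks.1 k hk) a (hfix 4 (by decide))) b (hfix 12 (by decide))) c
    (hfix 18 (by decide))
  simp only [codeOk, Bool.or_eq_true, List.any_eq_true, Bool.and_eq_true, beq_iff_eq,
    decide_eq_true_eq] at h
  rcases h with (⟨e, he, he1, he2⟩ | hnd) | ⟨e, -, -, href⟩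
  · exact ⟨e, he, he1, he2⟩
  · refine absurd ?_ hnd
    rw [← hπ]
    exact List.Nodup.map_on (fun i hi j hj e => by
      have hi24 : i < 24 := by
        simp only [fixPts, List.mem_cons, List.not_mem_nil, or_false] at hi; omega
      have hj24 : j < 24 := by
        simp only [fixPts, List.mem_cons, List.not_mem_nil, or_false] at hj; omega
      rw [← idx_pt hi24, ← idx_pt hj24, g.injective (idx_injective e)]) (by decide)
  · exfalso
    generalize e.2.2 = m at href
    simp only [refutes, Bool.and_eq_true, decide_eq_true_eq, bne_iff_ne, ne_eq, List.all_eq_true,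
      List.mem_range, Bool.or_eq_true, Bool.not_eq_true', List.contains_iff_mem] at href
    obtain ⟨⟨⟨hm, hf⟩, hsub⟩, hdiff⟩ := href
    have himg : g • unmask m = unmask (codeImg k [a, b, c] m) := by
      ext q
      rw [Finset.mem_smul_finset, mem_unmask, testBit_codeImg]
      constructor
      · rintro ⟨p, hp, rfl⟩
        have hd : idx p ∈ tenPts := (hsub _ (idx_lt p)).resolve_left (by
          rw [mem_unmask.1 hp]; simp)
        refine ⟨idx p, hd, mem_unmask.1 hp, ?_⟩
        rw [← hπ, ← apply_code hr hg h0 hd, pt_idx]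
        rfl
      · rintro ⟨d, hd, hmd, he⟩
        have hd24 : d < 24 := of_decide_eq_true (List.all_eq_true.1 code_checks.2.2 d hd)
        refine ⟨pt d, (pt_mem_unmask hd24).2 hmd, idx_injective ?_⟩
        rw [Equiv.Perm.smul_def, apply_code hr hg h0 hd, hπ, he]
    refine hdiff (Bool.eq_iff_iff.2 ?_)
    rw [inOctad_iff hm, inOctad_iff hf, ← himg]
    constructor
    · rintro ⟨o, ho, h⟩
      exact ⟨g • o, Golay.smul_mem_octads hgM ho, Finset.smul_finset_subset_smul_finset h⟩
    · rintro ⟨o, ho, h⟩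
      refine ⟨g⁻¹ • o, Golay.smul_mem_octads (inv_mem hgM) ho, ?_⟩
      have h' := Finset.smul_finset_subset_smul_finset (a := g⁻¹) h
      rwa [inv_smul_smul] at h'

theorem eq_of_code (hr : IsTbl r rep7) {k : ℕ} {g g' : Equiv.Perm GolayPt} (hgM : g ∈ M24)
    (hg'M : g' ∈ M24) (hg : g * r = r ^ k * g) (hg' : g' * r = r ^ k * g')
    (h0 : g (pt 0) = pt 0) (h0' : g' (pt 0) = pt 0)
    (hπ : (fixPts.map fun i => idx (g (pt i))) = fixPts.map fun i => idx (g' (pt i))) : g = g' := by
  have hmem : g⁻¹ * g' ∈ stabK (tenPts.map (2 ^ ·)) := by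
    rw [mem_stabK]
    refine ⟨mul_mem (inv_mem hgM) hg'M, fun n hn => ?_⟩
    obtain ⟨d, hd, rfl⟩ := List.mem_map.1 hn
    have hd24 : d < 24 := of_decide_eq_true (List.all_eq_true.1 code_checks.2.2 d hd)
    have e : g (pt d) = g' (pt d) :=
      idx_injective (by rw [apply_code hr hg h0 hd, apply_code hr hg' h0' hd, hπ])
    rw [unmask_two_pow_of_lt hd24, Finset.smul_finset_singleton, Equiv.Perm.smul_def,
      Equiv.Perm.mul_apply, ← e, Equiv.Perm.inv_def, Equiv.symm_apply_apply]
  rw [stabK_eq_bot code_checks.2.1, Subgroup.mem_bot, inv_mul_eq_one] at hmem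
  exact hmem

theorem exists_trans (hr : IsTbl r rep7) {q : GolayPt} (hq : idx q ∉ fixPts) :
    ∃ g ∈ M24, g * r = r * g ∧ g (pt 0) = q ∧ ∃ t ∈ transTbls, IsTbl g t := by
  obtain ⟨t, ht, he⟩ := List.any_eq_true.1 (data_checks.2.1 q hq)
  have h := List.all_eq_true.1 data_checks.1 t ht
  simp only [Bool.and_eq_true, List.all_eq_true, List.mem_range, beq_iff_eq] at h
  obtain ⟨g, hg⟩ := exists_isTbl (Bool.and_eq_true _ _ ▸ h.1 : okTbl t = true ∧ _).1
  refine ⟨g, mem_M24_of_isTbl hg h.1, Equiv.ext fun p => idx_injective ?_, idx_injective ?_, t, ht, hg⟩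
  · rw [Equiv.Perm.mul_apply, Equiv.Perm.mul_apply, hg, hr, hr, hg]
    exact h.2 _ (idx_lt p)
  · rw [hg, idx_pt (by norm_num)]
    exact beq_iff_eq.1 he

theorem exists_stab (hr : IsTbl r rep7) {e : ℕ × List ℕ × ℕ} (he : e ∈ stabData) :
    ∃ g ∈ M24, g * r = r ^ e.1 * g ∧ g (pt 0) = pt 0 ∧
      (fixPts.map fun i => idx (g (pt i))) = e.2.1 ∧ IsTbl g e.2.2 := by
  have h := List.all_eq_true.1 data_checks.2.2.1 e he
  simp only [Bool.and_eq_true, List.all_eq_true, List.mem_range, beq_iff_eq] at h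
  obtain ⟨⟨⟨⟨-, hM⟩, h0⟩, hcomm⟩, hmap⟩ := h
  obtain ⟨g, hg⟩ := exists_isTbl (Bool.and_eq_true _ _ ▸ hM : okTbl e.2.2 = true ∧ _).1
  refine ⟨g, mem_M24_of_isTbl hg hM, Equiv.ext fun p => idx_injective ?_, idx_injective ?_, ?_, hg⟩
  · rw [Equiv.Perm.mul_apply, Equiv.Perm.mul_apply, hg, hr, M24Classes.iterAt_spec hr, hg]
    exact hcomm _ (idx_lt p)
  · rw [hg, idx_pt (by norm_num), h0]
  · rw [← hmap]
    refine List.map_congr_left fun i hi => ?_
    have hi24 : i < 24 := by
      simp only [fixPts, List.mem_cons, List.not_mem_nil, or_false] at hi; omega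
    rw [hg, idx_pt hi24]

/-- The order of a subgroup cut out by a set of exponents. -/
theorem natCard_exponents (hr : IsTbl r rep7) (H : Subgroup (Equiv.Perm GolayPt)) (K : List ℕ)
    (hK : ∀ k ∈ K, k ∈ [1, 2, 3, 4, 5, 6]) (h1 : 1 ∈ K)
    (hH : ∀ g, g ∈ H ↔ g ∈ M24 ∧ ∃ k ∈ K, g * r = r ^ k * g) :
    Nat.card H = 21 * (stabData.filter fun e => K.contains e.1).length := by
  classical
  set O := Finset.univ.filter fun q : GolayPt => idx q ∉ fixPts with hO
  have hk7 : ∀ k ∈ K, ¬ 7 ∣ k := fun k hk => by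
    have := hK k hk
    simp only [List.mem_cons, List.not_mem_nil, or_false] at this
    omega
  rw [card_subgroup_mul (p := pt 0) (O := O), show O.card = 21 from data_checks.2.2.2.2.2.2.2.2]
  · congr 1
    set L := stabData.filter fun e => K.contains e.1 with hL
    have hmemL : ∀ i : Fin L.length, L[i] ∈ stabData ∧ L[i].1 ∈ K := fun i => by
      have := List.getElem_mem i.2
      simp only [hL, List.mem_filter, List.contains_iff_mem] at this
      exact this
    choose g hgM hgr hg0 hgπ hgt using fun i => exists_stab hr (hmemL i).1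
    simp only [Fin.getElem_fin] at hgr hgπ hmemL
    let f : Fin L.length → ↥(H ⊓ stabilizer (Equiv.Perm GolayPt) (pt 0)) := fun i =>
      ⟨g i, Subgroup.mem_inf.2 ⟨(hH _).2 ⟨hgM i, _, (hmemL i).2, hgr i⟩, hg0 i⟩⟩
    have hnd : L.Nodup := (List.Nodup.of_map _ data_checks.2.2.2.1).filter _
    have hinjcode : ∀ a ∈ stabData, ∀ b ∈ stabData, a.1 = b.1 → a.2.1 = b.2.1 → a = b :=
      fun a ha b hb e1 e2 => List.inj_on_of_nodup_map data_checks.2.2.2.1 ha hb (Prod.ext e1 e2)
    have hbij : Function.Bijective f := by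
      constructor
      · intro i j e
        have e' : g i = g j := congrArg Subtype.val e
        refine Fin.ext (hnd.getElem_inj_iff.1 (hinjcode _ (hmemL i).1 _ (hmemL j).1 ?_ ?_))
        · have hpow : r ^ L[i.1].1 = r ^ L[j.1].1 := by
            have h1 := hgr i
            rw [e'] at h1
            exact mul_right_cancel (h1.symm.trans (hgr j))
          have h1 := hK _ (hmemL i).2
          have h2 := hK _ (hmemL j).2
          simp only [List.mem_cons, List.not_mem_nil, or_false] at h1 h2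
          rw [pow_eq_pow_iff_modEq, orderOf_rep hr, Nat.ModEq, Nat.mod_eq_of_lt (by omega),
            Nat.mod_eq_of_lt (by omega)] at hpow
          exact hpow
        · rw [← hgπ i, ← hgπ j, e']
      · rintro ⟨x, hx⟩
        obtain ⟨hxH, hx0⟩ := Subgroup.mem_inf.1 hx
        obtain ⟨hxM, k, hk, hxr⟩ := (hH x).1 hxH
        obtain ⟨e, he, he1, he2⟩ := code_listed hr (hK k hk) hxM hxr hx0
        have heL : e ∈ L := List.mem_filter.2 ⟨he, by simp [List.contains_iff_mem, he1, hk]⟩
        obtain ⟨i, hi, hie⟩ := List.getElem_of_mem heL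
        refine ⟨⟨i, hi⟩, Subtype.ext (eq_of_code hr (hgM _) hxM ?_ hxr (hg0 _) hx0 ?_)⟩
        · have := hgr ⟨i, hi⟩
          simp only [Fin.getElem_fin, hie, he1] at this
          exact this
        · have := hgπ ⟨i, hi⟩
          simp only [Fin.getElem_fin, hie] at this
          rw [this, he2]
    rw [← Nat.card_congr (Equiv.ofBijective f hbij), Nat.card_fin]
  · intro g hg
    obtain ⟨hgM, k, hk, hgr⟩ := (hH g).1 hg
    refine Finset.mem_filter.2 ⟨Finset.mem_univ _, fun hin => ?_⟩
    have hfix : r (g (pt 0)) = g (pt 0) := (fixed_iff hr _).2 hin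
    have h0 : (r ^ k) (g (pt 0)) = g (pt 0) :=
      Equiv.Perm.pow_apply_eq_self_of_apply_eq_self hfix k
    rw [← Equiv.Perm.mul_apply, ← hgr, Equiv.Perm.mul_apply, g.apply_eq_iff_eq] at h0
    have := (fixed_iff hr (pt 0)).1 h0
    rw [idx_pt (by norm_num)] at this
    exact absurd this (by decide)
  · intro q hq
    obtain ⟨g, hgM, hgr, hg0, -⟩ := exists_trans hr (Finset.mem_filter.1 hq).2
    exact ⟨g, (hH g).2 ⟨hgM, 1, h1, by rwa [pow_one]⟩, hg0⟩

/-- The invariant trio of the representative. -/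
def sevenTrio : Finset (Finset GolayPt) := (trioMasks.map unmask).toFinset

theorem sevenTrio_mem : sevenTrio ∈ trios := by
  obtain ⟨h1, h2, h3, h4, -, -⟩ := trio_mask_checks
  simp only [List.all_eq_true, Bool.and_eq_true, decide_eq_true_eq, beq_iff_eq, Bool.or_eq_true]
    at h1 h2
  have hnd : (trioMasks.map unmask).Nodup :=
    h3.map_on fun a ha b hb e => unmask_injOn (h1 a ha).1.1 (h1 b hb).1.1 e
  refine ⟨?_, ?_, ?_⟩
  · rw [sevenTrio, List.toFinset_card_of_nodup hnd, List.length_map, h4]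
  · intro T hT
    obtain ⟨a, ha, rfl⟩ := List.mem_map.1 (List.mem_toFinset.1 hT)
    exact mem_octads_iff.2 ⟨a, inCode_iff.1 (h1 a ha).1.2, (h1 a ha).2, rfl⟩
  · intro T hT U hU hne
    obtain ⟨a, ha, rfl⟩ := List.mem_map.1 (List.mem_toFinset.1 hT)
    obtain ⟨b, hb, rfl⟩ := List.mem_map.1 (List.mem_toFinset.1 hU)
    exact disjoint_unmask ((h2 a ha b hb).resolve_left fun e => hne (e ▸ rfl))

theorem smul_sevenTrio_of_tbl {g : Equiv.Perm GolayPt} {t : ℕ} (hg : IsTbl g t)
    (h : (trioMasks.all fun m => trioMasks.contains (imgMask t m)) = true) :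
    g • sevenTrio = sevenTrio := by
  refine Finset.eq_of_subset_of_card_le ?_ (le_of_eq (Finset.card_smul_finset _ _).symm)
  intro T hT
  obtain ⟨U, hU, rfl⟩ := Finset.mem_smul_finset.1 hT
  obtain ⟨m, hm, rfl⟩ := List.mem_map.1 (List.mem_toFinset.1 hU)
  rw [Golay.smul_unmask hg]
  exact List.mem_toFinset.2 (List.mem_map.2
    ⟨_, List.contains_iff_mem.1 (List.all_eq_true.1 h m hm), rfl⟩)

/-- The normalising elements fix the trio. -/
theorem smul_sevenTrio (hr : IsTbl r rep7) {k : ℕ} (hk : k ∈ [1, 2, 3, 4, 5, 6])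
    {g : Equiv.Perm GolayPt} (hgM : g ∈ M24) (hgr : g * r = r ^ k * g) :
    g • sevenTrio = sevenTrio := by
  have hq : idx (g (pt 0)) ∉ fixPts := fun hin => by
    have h0 : (r ^ k) (g (pt 0)) = g (pt 0) :=
      Equiv.Perm.pow_apply_eq_self_of_apply_eq_self ((fixed_iff hr _).2 hin) k
    rw [← Equiv.Perm.mul_apply, ← hgr, Equiv.Perm.mul_apply, g.apply_eq_iff_eq] at h0
    have := (fixed_iff hr (pt 0)).1 h0
    rw [idx_pt (by norm_num)] at this
    exact absurd this (by decide)
  obtain ⟨w, hwM, hwr, hw0, t, ht, hwt⟩ := exists_trans hr hq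
  have hnr : (w⁻¹ * g) * r = r ^ k * (w⁻¹ * g) := by
    have hc : Commute w (r ^ k) := (show Commute w r from hwr).pow_right k
    rw [mul_assoc, hgr, ← mul_assoc, hc.inv_left.eq, mul_assoc]
  have hn0 : (w⁻¹ * g) (pt 0) = pt 0 := by
    rw [Equiv.Perm.mul_apply, Equiv.Perm.inv_eq_iff_eq, hw0]
  have hnM : w⁻¹ * g ∈ M24 := mul_mem (inv_mem hwM) hgM
  obtain ⟨e, he, he1, he2⟩ := code_listed hr hk hnM hnr hn0
  obtain ⟨m, hmM, hmr, hm0, hmπ, hmt⟩ := exists_stab hr he
  rw [he1] at hmr
  have heq : m = w⁻¹ * g := eq_of_code hr hmM hnM hmr hnr hm0 hn0 (hmπ.trans he2)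
  have e' : g = w * m := by rw [heq]; group
  rw [e', mul_smul, smul_sevenTrio_of_tbl hmt (List.all_eq_true.1 trio_mask_checks.2.2.2.2.2 e he),
    smul_sevenTrio_of_tbl hwt (List.all_eq_true.1 trio_mask_checks.2.2.2.2.1 t ht)]

theorem result_base (hr : IsTbl r rep7) :
    Nat.card ↥(M24 ⊓ Subgroup.normalizer (Subgroup.zpowers r : Set (Equiv.Perm GolayPt))) = 126 ∧
    Nat.card ↥(M24 ⊓ Subgroup.centralizer (Subgroup.zpowers r : Set (Equiv.Perm GolayPt))) = 42 ∧
    (∃ a b : Equiv.Perm GolayPt,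
      a ∈ M24 ⊓ Subgroup.centralizer (Subgroup.zpowers r : Set (Equiv.Perm GolayPt)) ∧
      b ∈ M24 ⊓ Subgroup.centralizer (Subgroup.zpowers r : Set (Equiv.Perm GolayPt)) ∧
      a * b ≠ b * a) ∧
    ∀ g ∈ M24 ⊓ Subgroup.normalizer (Subgroup.zpowers r : Set (Equiv.Perm GolayPt)),
      g • sevenTrio = sevenTrio := by
  have ho := orderOf_rep hr
  have hcent : ∀ g : Equiv.Perm GolayPt,
      g ∈ Subgroup.centralizer (Subgroup.zpowers r : Set (Equiv.Perm GolayPt)) ↔ g * r = r * g := by
    intro g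
    rw [Subgroup.mem_centralizer_iff]
    refine ⟨fun h => (h r (Subgroup.mem_zpowers r)).symm, fun h x hx => ?_⟩
    obtain ⟨n, rfl⟩ := hx
    exact ((show Commute g r from h).zpow_right n).eq.symm
  have hnorm : ∀ g : Equiv.Perm GolayPt,
      g ∈ Subgroup.normalizer (Subgroup.zpowers r : Set (Equiv.Perm GolayPt)) ↔
        ∃ k ∈ [1, 2, 3, 4, 5, 6], g * r = r ^ k * g := by
    intro g
    constructor
    · intro hg
      have h : g * r * g⁻¹ ∈ Subgroup.zpowers r :=
        (Subgroup.mem_normalizer_iff.1 hg r).1 (Subgroup.mem_zpowers r)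
      obtain ⟨k, hk, e⟩ := Finset.mem_image.1
        (mem_zpowers_iff_mem_range_orderOf.1 h)
      rw [Finset.mem_range, ho] at hk
      change r ^ k = g * r * g⁻¹ at e
      have hk0 : k ≠ 0 := by
        rintro rfl
        rw [pow_zero, eq_comm, mul_inv_eq_one] at e
        have : r = 1 := by
          have e2 : g * r = g * 1 := by rw [e, mul_one]
          exact mul_left_cancel e2
        rw [this, orderOf_one] at ho
        exact absurd ho (by norm_num)
      refine ⟨k, ?_, by rw [e]; group⟩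
      interval_cases k <;> simp_all
    · rintro ⟨k, hk, e⟩
      have hcop : Nat.Coprime k (orderOf r) := by
        rw [ho]
        simp only [List.mem_cons, List.not_mem_nil, or_false] at hk
        rcases hk with rfl | rfl | rfl | rfl | rfl | rfl <;> decide
      have hmap : (Subgroup.zpowers r).map (MulAut.conj g).toMonoidHom = Subgroup.zpowers r := by
        rw [MonoidHom.map_zpowers]
        show Subgroup.zpowers (g * r * g⁻¹) = _
        rw [e, mul_inv_cancel_right]
        refine Subgroup.eq_of_le_of_card_ge (Subgroup.zpowers_le.2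
          (pow_mem (Subgroup.mem_zpowers r) k)) (le_of_eq ?_)
        rw [Nat.card_zpowers, Nat.card_zpowers, Nat.Coprime.orderOf_pow hcop.symm]
      refine Subgroup.mem_normalizer_iff.2 fun x => ⟨fun hx => ?_, fun hx => ?_⟩
      · rw [← hmap]; exact Subgroup.mem_map.2 ⟨x, hx, rfl⟩
      · rw [← hmap] at hx
        obtain ⟨y, hy, hyx⟩ := Subgroup.mem_map.1 hx
        have : y = x := mul_left_cancel (mul_right_cancel (show g * y * g⁻¹ = g * x * g⁻¹ from hyx))
        exact this ▸ hy
  refine ⟨?_, ?_, ?_, ?_⟩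
  · rw [natCard_exponents hr _ [1, 2, 3, 4, 5, 6] (fun _ h => h) (by decide) (fun g => by
      rw [Subgroup.mem_inf, hnorm])]
    decide +kernel
  · rw [natCard_exponents hr _ [1] (by decide) (by decide) (fun g => by
      rw [Subgroup.mem_inf, hcent]; simp)]
    decide +kernel
  · have h := data_checks.2.2.2.2.2.2.1
    simp only [Bool.and_eq_true, Bool.not_eq_true', List.all_eq_true, List.mem_range,
      beq_iff_eq] at h
    obtain ⟨⟨⟨⟨ha, hb⟩, hac⟩, hbc⟩, hne⟩ := h
    obtain ⟨a, hat⟩ := exists_isTbl (Bool.and_eq_true _ _ ▸ ha : okTbl ncPair.1 = true ∧ _).1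
    obtain ⟨b, hbt⟩ := exists_isTbl (Bool.and_eq_true _ _ ▸ hb : okTbl ncPair.2 = true ∧ _).1
    have hcomm : ∀ {c : Equiv.Perm GolayPt} {t : ℕ}, IsTbl c t →
        (∀ i < 24, tblAt t (tblAt rep7 i) = tblAt rep7 (tblAt t i)) → c * r = r * c :=
      fun {c t} hc h => Equiv.ext fun p => idx_injective (by
        rw [Equiv.Perm.mul_apply, Equiv.Perm.mul_apply, hc, hr, hr, hc]
        exact h _ (idx_lt p))
    refine ⟨a, b, ⟨mem_M24_of_isTbl hat ha, (hcent a).2 (hcomm hat hac)⟩,
      ⟨mem_M24_of_isTbl hbt hb, (hcent b).2 (hcomm hbt hbc)⟩, fun e => ?_⟩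
    refine Bool.false_ne_true (hne.symm.trans ?_)
    simp only [List.all_eq_true, List.mem_range, beq_iff_eq]
    intro i hi
    have h1 := congrArg (fun f : Equiv.Perm GolayPt => idx (f (pt i))) e
    simp only [Equiv.Perm.mul_apply] at h1
    rwa [hat, hbt, hbt, hat, idx_pt hi] at h1
  · rintro g ⟨hgM, hgn⟩
    obtain ⟨k, hk, e⟩ := (hnorm g).1 hgn
    exact smul_sevenTrio hr hk hgM e

end CfsgLib.ExtraspecialLarge.SevenNormalizer
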