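/-! Witnesses for the orbits of a five-point stabiliser of `Cfsg.M24`. -/

set_option autoImplicit false

namespace CfsgLib.ExtraspecialLarge.SixSets

/-- Elements fixing the five base points, covering the three points of the octad. -/
def inTbls : List Nat :=
  [984818244535754528103549039458486304,
   971102204225145513702635166757030496,
   964811470874821435800737691200031296]

/-- Elements fixing the five base points, covering the sixteen points outside the octad. -/
def outTbls : List Nat :=
  [984818244535754528103549039458486304,
   967739223789245171407146504132003936,
   978241746458226444833005867658250464,
   983553042649537266979977019204733184,
   959823939071994704882402347086186784,
   974394222122509349096603230276913536,
   976539006901119804582877792120867232,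
   971700361611140356443901154824849856,
   980747918883362939279568022996060640,
   972388651884523380316328689283009024,
   965094429999691373696704173595626016,
   981940260449521198767676458684353088,
   975141542956546445243913353447475808,
   979236149903553240597937305795791488,
   965823287528192349793434105431984800,
   957028651706772161000819827381930688]

end CfsgLib.ExtraspecialLarge.SixSets
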