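import Cfsg.Agent.Lib.ExtraspecialLarge.SixSetData
import Cfsg.Agent.Lib.Golay.Stab

/-!
`Cfsg.M24` on sets of six points: two orbits of injective six-tuples, according as the six points
lie in an octad or not, with stabilisers of order 16 and 3.
-/

set_option autoImplicit false

namespace CfsgLib.ExtraspecialLarge.SixSets

open Cfsg CfsgLib.Golay MulAction
open scoped Pointwise

/-- The pointwise stabiliser of the five base points. -/
def fiveStab : Subgroup (Equiv.Perm GolayPt) := stabK [32, 16, 4, 1, 8388608]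

theorem mem_fiveStab {g : Equiv.Perm GolayPt} :
    g ∈ fiveStab ↔ g ∈ M24 ∧ ∀ i, g (base5 i) = base5 i := by
  have hl : ([32, 16, 4, 1, 8388608] : List ℕ) = (List.ofFn fun i => 2 ^ idx (base5 i)) ++ [] := by
    decide +kernel
  rw [fiveStab, hl, mem_stabK_tuple]
  rfl

theorem five_checks :
    (inTbls.all fun t => inM24 t && [5, 4, 2, 0, 23].all fun i => tblAt t i == i) = true ∧
    (outTbls.all fun t => inM24 t && [5, 4, 2, 0, 23].all fun i => tblAt t i == i) = true ∧
    (∀ q : GolayPt, q ∈ unmask octMask → (∀ i, q ≠ base5 i) →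
      (inTbls.any fun t => tblAt t 6 == idx q) = true) ∧
    (∀ q : GolayPt, q ∉ unmask octMask → (outTbls.any fun t => tblAt t 1 == idx q) = true) ∧
    (∀ i, base5 i ∈ unmask octMask) ∧ pt 6 ∈ unmask octMask ∧ pt 1 ∉ unmask octMask ∧
    (∀ i, pt 6 ≠ base5 i) ∧ (∀ i, idx (base5 i) ∈ [5, 4, 2, 0, 23]) ∧
    (unmask octMask \ Finset.univ.map base5).card = 3 ∧ (unmask octMask)ᶜ.card = 16 := by
  decide +kernel

theorem exists_five {t : ℕ} {L : List ℕ}
    (hL : (L.all fun t => inM24 t && [5, 4, 2, 0, 23].all fun i => tblAt t i == i) = true)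
    (ht : t ∈ L) : ∃ g ∈ fiveStab, IsTbl g t := by
  have h := List.all_eq_true.1 hL t ht
  rw [Bool.and_eq_true, List.all_eq_true] at h
  obtain ⟨g, hg⟩ := exists_isTbl (Bool.and_eq_true _ _ ▸ h.1 : okTbl t = true ∧ _).1
  refine ⟨g, mem_fiveStab.2 ⟨mem_M24_of_isTbl hg h.1, fun i => idx_injective ?_⟩, hg⟩
  rw [hg]
  exact beq_iff_eq.1 (h.2 _ (five_checks.2.2.2.2.2.2.2.2.1 i))

theorem smul_octMask {g : Equiv.Perm GolayPt} (hg : g ∈ fiveStab) :
    g • unmask octMask = unmask octMask := by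
  obtain ⟨hgM, hfix⟩ := mem_fiveStab.1 hg
  refine octad_unique (smul_mem_octads hgM octMask_mem) octMask_mem ?_
  have hsub : Finset.univ.map base5 ⊆ g • unmask octMask ∩ unmask octMask := by
    intro q hq
    obtain ⟨i, -, rfl⟩ := Finset.mem_map.1 hq
    refine Finset.mem_inter.2 ⟨?_, five_checks.2.2.2.2.1 i⟩
    have h := Finset.smul_mem_smul_finset (a := g) (five_checks.2.2.2.2.1 i)
    rwa [Equiv.Perm.smul_def, hfix i] at h
  have h := Finset.card_le_card hsub
  rwa [Finset.card_map, Finset.card_univ, Fintype.card_fin] at h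

/-- The sixth base point. -/
def sixth (b : Bool) : GolayPt := if b then pt 6 else pt 1

/-- Orbit of the sixth base point under the stabiliser of the five. -/
def sixthOrbit (b : Bool) : Finset GolayPt :=
  if b then unmask octMask \ Finset.univ.map base5 else (unmask octMask)ᶜ

theorem fiveStab_maps (b : Bool) : ∀ g ∈ fiveStab, g (sixth b) ∈ sixthOrbit b := by
  intro g hg
  have hO := smul_octMask hg
  obtain ⟨hgM, hfix⟩ := mem_fiveStab.1 hg
  have hiff : ∀ q, g q ∈ unmask octMask ↔ q ∈ unmask octMask := fun q => by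
    conv_lhs => rw [← hO]
    exact Finset.smul_mem_smul_finset_iff g
  cases b
  · simp only [sixth, sixthOrbit, Bool.false_eq_true, if_false, Finset.mem_compl, hiff]
    exact five_checks.2.2.2.2.2.2.1
  · simp only [sixth, sixthOrbit, if_true, Finset.mem_sdiff, hiff, Finset.mem_map,
      Finset.mem_univ, true_and, not_exists]
    refine ⟨five_checks.2.2.2.2.2.1, fun i e => ?_⟩
    exact five_checks.2.2.2.2.2.2.2.1 i (g.injective (by rw [← e, hfix i]))

theorem fiveStab_covers (b : Bool) : ∀ q ∈ sixthOrbit b, ∃ g ∈ fiveStab, g (sixth b) = q := by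
  intro q hq
  cases b
  · simp only [sixthOrbit, Bool.false_eq_true, if_false, Finset.mem_compl] at hq
    obtain ⟨t, ht, he⟩ := List.any_eq_true.1 (five_checks.2.2.2.1 q hq)
    obtain ⟨g, hg, hgt⟩ := exists_five five_checks.2.1 ht
    refine ⟨g, hg, idx_injective ?_⟩
    simp only [sixth, Bool.false_eq_true, if_false]
    rw [hgt, idx_pt (by norm_num)]
    exact beq_iff_eq.1 he
  · simp only [sixthOrbit, if_true, Finset.mem_sdiff, Finset.mem_map, Finset.mem_univ, true_and,
      not_exists] at hq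
    obtain ⟨t, ht, he⟩ := List.any_eq_true.1
      (five_checks.2.2.1 q hq.1 fun i e => hq.2 i e.symm)
    obtain ⟨g, hg, hgt⟩ := exists_five five_checks.1 ht
    refine ⟨g, hg, idx_injective ?_⟩
    simp only [sixth, if_true]
    rw [hgt, idx_pt (by norm_num)]
    exact beq_iff_eq.1 he

theorem card_six (b : Bool) :
    Nat.card ↥(fiveStab ⊓ stabilizer (Equiv.Perm GolayPt) (sixth b)) = if b then 16 else 3 := by
  have h : Nat.card fiveStab = (sixthOrbit b).card *
      Nat.card ↥(fiveStab ⊓ stabilizer (Equiv.Perm GolayPt) (sixth b)) :=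
    card_subgroup_mul (fiveStab_maps b) (fiveStab_covers b)
  rw [show Nat.card fiveStab = 48 from card_stabK_five] at h
  cases b
  · rw [show (sixthOrbit false).card = 16 by simpa [sixthOrbit] using five_checks.2.2.2.2.2.2.2.2.2.2] at h
    simp only [Bool.false_eq_true, if_false]; omega
  · rw [show (sixthOrbit true).card = 3 by simpa [sixthOrbit] using five_checks.2.2.2.2.2.2.2.2.2.1] at h
    simp only [if_true]; omega

/-- The points of the standard six-tuple. -/
def baseSix (b : Bool) : Fin 6 → GolayPt := Fin.snoc (fun i => base5 i) (sixth b)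

theorem exists_map_six (x : Fin 6 ↪ GolayPt) (b : Bool)
    (hb : b = true ↔ ∃ o ∈ octads, ∀ i, x i ∈ o) :
    ∃ g ∈ M24, ∀ i, g (baseSix b i) = x i := by
  classical
  let x5 : Fin 5 ↪ GolayPt := ⟨fun i => x i.castSucc, fun i j e =>
    Fin.castSucc_injective _ (x.injective e)⟩
  obtain ⟨a, ha, hax⟩ := exists_M24_map base5 x5
  set q := a⁻¹ (x (Fin.last 5)) with hq
  have haq : a q = x (Fin.last 5) := by rw [hq, Equiv.Perm.inv_def, Equiv.apply_symm_apply]
  have hne : ∀ i, q ≠ base5 i := fun i e => by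
    have := congrArg a e
    rw [haq, hax i] at this
    exact (Fin.castSucc_lt_last i).ne' (x.injective this)
  have hmemo : ∀ i, a (base5 i) ∈ a • unmask octMask := fun i =>
    Finset.smul_mem_smul_finset (five_checks.2.2.2.2.1 i)
  have hqO : q ∈ sixthOrbit b := by
    cases b
    · simp only [sixthOrbit, Bool.false_eq_true, if_false, Finset.mem_compl]
      intro hin
      refine absurd (hb.2 ⟨a • unmask octMask, smul_mem_octads ha octMask_mem, fun i => ?_⟩) (by simp)
      refine Fin.lastCases ?_ (fun i => ?_) i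
      · rw [← haq]; exact Finset.smul_mem_smul_finset hin
      · have h := hmemo i
        rwa [hax i] at h
    · simp only [sixthOrbit, if_true, Finset.mem_sdiff, Finset.mem_map, Finset.mem_univ, true_and,
        not_exists]
      refine ⟨?_, fun i e => hne i e.symm⟩
      obtain ⟨o, ho, hxo⟩ := hb.1 rfl
      have heq : a • unmask octMask = o := by
        refine octad_unique (smul_mem_octads ha octMask_mem) ho ?_
        have hsub : Finset.univ.map x5 ⊆ a • unmask octMask ∩ o := by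
          intro r hr
          obtain ⟨i, -, rfl⟩ := Finset.mem_map.1 hr
          refine Finset.mem_inter.2 ⟨?_, hxo _⟩
          rw [← hax i]
          exact hmemo i
        have h := Finset.card_le_card hsub
        rwa [Finset.card_map, Finset.card_univ, Fintype.card_fin] at h
      have hlast := hxo (Fin.last 5)
      rw [← heq, ← haq] at hlast
      exact (Finset.smul_mem_smul_finset_iff a).1 hlast
  obtain ⟨g, hg, hgq⟩ := fiveStab_covers b q hqO
  obtain ⟨hgM, hgfix⟩ := mem_fiveStab.1 hg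
  refine ⟨a * g, mul_mem ha hgM, fun i => ?_⟩
  refine Fin.lastCases ?_ (fun i => ?_) i
  · rw [baseSix, Fin.snoc_last, Equiv.Perm.mul_apply, hgq, haq]
  · rw [baseSix, Fin.snoc_castSucc, Equiv.Perm.mul_apply, hgfix i, hax i]
    rfl

theorem card_fix_tuple (x : Fin 6 ↪ GolayPt) (b : Bool)
    (hb : b = true ↔ ∃ o ∈ octads, ∀ i, x i ∈ o) :
    Nat.card {g : Equiv.Perm GolayPt // g ∈ M24 ∧ ∀ i, g (x i) = x i} = if b then 16 else 3 := by
  obtain ⟨a, ha, hax⟩ := exists_map_six x b hb
  rw [← card_six b]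
  refine (Nat.card_congr ?_).symm
  have hfwd : ∀ g ∈ fiveStab ⊓ stabilizer (Equiv.Perm GolayPt) (sixth b),
      a * g * a⁻¹ ∈ M24 ∧ ∀ i, (a * g * a⁻¹) (x i) = x i := by
    intro g hg
    obtain ⟨hg5, hg6⟩ := Subgroup.mem_inf.1 hg
    obtain ⟨hgM, hgfix⟩ := mem_fiveStab.1 hg5
    refine ⟨mul_mem (mul_mem ha hgM) (inv_mem ha), fun i => ?_⟩
    have hgi : g (baseSix b i) = baseSix b i := by
      refine Fin.lastCases ?_ (fun i => ?_) i
      · rw [baseSix, Fin.snoc_last]; exact hg6
      · rw [baseSix, Fin.snoc_castSucc]; exact hgfix i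
    rw [← hax i]
    simp [Equiv.Perm.mul_apply, hgi]
  have hbwd : ∀ g : Equiv.Perm GolayPt, g ∈ M24 ∧ (∀ i, g (x i) = x i) →
      a⁻¹ * g * a ∈ fiveStab ⊓ stabilizer (Equiv.Perm GolayPt) (sixth b) := by
    intro g hg
    have hall : ∀ i, (a⁻¹ * g * a) (baseSix b i) = baseSix b i := fun i => by
      rw [Equiv.Perm.mul_apply, Equiv.Perm.mul_apply, hax i, hg.2 i, ← hax i, Equiv.Perm.inv_def,
        Equiv.symm_apply_apply]
    refine ⟨mem_fiveStab.2 ⟨mul_mem (mul_mem (inv_mem ha) hg.1) ha, fun i => ?_⟩, ?_⟩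
    · have h := hall i.castSucc
      rwa [baseSix, Fin.snoc_castSucc] at h
    · have h := hall (Fin.last 5)
      rw [baseSix, Fin.snoc_last] at h
      exact h
  exact
    { toFun := fun g => ⟨a * g.1 * a⁻¹, hfwd _ g.2⟩
      invFun := fun g => ⟨a⁻¹ * g.1 * a, hbwd _ g.2⟩
      left_inv := fun g => Subtype.ext (by simp [mul_assoc])
      right_inv := fun g => Subtype.ext (by simp [mul_assoc]) }

/-- An enumeration of a six-element set. -/
noncomputable def enum {E : Finset GolayPt} (hE : E.card = 6) : Fin 6 ↪ GolayPt :=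
  (Finset.equivFinOfCardEq hE).symm.toEmbedding.trans (Function.Embedding.subtype _)

theorem mem_iff_enum {E : Finset GolayPt} (hE : E.card = 6) (p : GolayPt) :
    p ∈ E ↔ ∃ i, enum hE i = p := by
  refine ⟨fun h => ?_, ?_⟩
  · obtain ⟨i, hi⟩ := (Finset.equivFinOfCardEq hE).symm.surjective ⟨p, h⟩
    exact ⟨i, congrArg Subtype.val hi⟩
  · rintro ⟨i, rfl⟩; exact ((Finset.equivFinOfCardEq hE).symm i).2

theorem six_result (E : Finset GolayPt) (hE : E.card = 6) :
    (∀ σ : Equiv.Perm ↥E, ∃ g ∈ M24, ∀ p : ↥E, g p = σ p) ∧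
    ((∃ o ∈ octads, E ⊆ o) →
      Nat.card {g : Equiv.Perm GolayPt // g ∈ M24 ∧ ∀ p ∈ E, g p = p} = 16) ∧
    ((¬ ∃ o ∈ octads, E ⊆ o) →
      Nat.card {g : Equiv.Perm GolayPt // g ∈ M24 ∧ ∀ p ∈ E, g p = p} = 3 ∧
      Nat.card ↥(stabilizer M24 E) = 2160) := by
  classical
  set e := Finset.equivFinOfCardEq hE with he
  have hmem : ∀ i, enum hE i ∈ E := fun i => (mem_iff_enum hE _).2 ⟨i, rfl⟩
  have hsub : ∀ y : Fin 6 ↪ GolayPt, (∀ p, p ∈ E ↔ ∃ i, y i = p) →
      ((∃ o ∈ octads, E ⊆ o) ↔ ∃ o ∈ octads, ∀ i, y i ∈ o) := fun y hy =>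
    ⟨fun ⟨o, ho, h⟩ => ⟨o, ho, fun i => h ((hy _).2 ⟨i, rfl⟩)⟩,
     fun ⟨o, ho, h⟩ => ⟨o, ho, fun p hp => by obtain ⟨i, rfl⟩ := (hy p).1 hp; exact h i⟩⟩
  set b : Bool := decide (∃ o ∈ octads, E ⊆ o) with hbdef
  have hb : ∀ y : Fin 6 ↪ GolayPt, (∀ p, p ∈ E ↔ ∃ i, y i = p) →
      (b = true ↔ ∃ o ∈ octads, ∀ i, y i ∈ o) := fun y hy => by
    rw [hbdef, decide_eq_true_iff]; exact hsub y hy
  have hsurj : ∀ σ : Equiv.Perm ↥E, ∃ g ∈ M24, ∀ p : ↥E, g p = σ p := by
    intro σ
    let y : Fin 6 ↪ GolayPt :=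
      (e.symm.trans σ).toEmbedding.trans (Function.Embedding.subtype _)
    have hy : ∀ p, p ∈ E ↔ ∃ i, y i = p := fun p => by
      refine ⟨fun h => ⟨e (σ.symm ⟨p, h⟩), ?_⟩, ?_⟩
      · simp [y]
      · rintro ⟨i, rfl⟩; exact (σ (e.symm i)).2
    obtain ⟨a, ha, hax⟩ := exists_map_six (enum hE) b (hb _ (mem_iff_enum hE))
    obtain ⟨c, hc, hcy⟩ := exists_map_six y b (hb _ hy)
    refine ⟨c * a⁻¹, mul_mem hc (inv_mem ha), fun p => ?_⟩
    obtain ⟨i, rfl⟩ := e.symm.surjective p
    rw [Equiv.Perm.mul_apply, show ((e.symm i : ↥E) : GolayPt) = enum hE i from rfl, ← hax i,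
      Equiv.Perm.inv_def, Equiv.symm_apply_apply, hcy i]
    rfl
  have hcount : Nat.card {g : Equiv.Perm GolayPt // g ∈ M24 ∧ ∀ p ∈ E, g p = p} =
      if b then 16 else 3 := by
    rw [← card_fix_tuple (enum hE) b (hb _ (mem_iff_enum hE))]
    refine Nat.card_congr (Equiv.subtypeEquivRight fun g => and_congr_right fun _ =>
      ⟨fun h i => h _ (hmem i), fun h p hp => ?_⟩)
    obtain ⟨i, rfl⟩ := (mem_iff_enum hE p).1 hp
    exact h i
  refine ⟨hsurj, fun h => ?_, fun h => ?_⟩
  · rw [hcount, hbdef, decide_eq_true h]; rfl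
  · rw [hbdef, decide_eq_false h] at hcount
    refine ⟨hcount, ?_⟩
    set H := stabilizer M24 E with hH
    have hiff : ∀ (g : H) p, (g : M24).1 p ∈ E ↔ p ∈ E := fun g p => by
      conv_lhs => rw [← show (g : M24).1 • E = E from g.2]
      exact Finset.smul_mem_smul_finset_iff _
    let φ : H →* Equiv.Perm {p // p ∈ E} :=
      { toFun := fun g => (g : M24).1.subtypePerm fun p => hiff g p
        map_one' := by ext p; rfl
        map_mul' := fun a b => by ext p; rfl }
    have hsur : Function.Surjective φ := by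
      intro σ
      obtain ⟨g, hg, hgs⟩ := hsurj σ
      have hgE : (⟨g, hg⟩ : M24) ∈ H := by
        refine Finset.eq_of_subset_of_card_le ?_ (le_of_eq (Finset.card_smul_finset _ _).symm)
        intro q hq
        obtain ⟨p, hp, rfl⟩ := Finset.mem_smul_finset.1 hq
        show g p ∈ E
        rw [hgs ⟨p, hp⟩]
        exact (σ _).2
      exact ⟨⟨⟨g, hg⟩, hgE⟩, Equiv.ext fun p => Subtype.ext (hgs p)⟩
    have hker : Nat.card φ.ker = 3 := by
      have hcount' : Nat.card {g : Equiv.Perm GolayPt // g ∈ M24 ∧ ∀ p ∈ E, g p = p} = 3 := hcount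
      rw [← hcount']
      refine Nat.card_congr
        { toFun := fun g => ⟨((g : H) : M24).1, ((g : H) : M24).2, fun p hp =>
            congrArg Subtype.val (DFunLike.congr_fun g.2 (⟨p, hp⟩ : {p // p ∈ E}))⟩
          invFun := fun g => ⟨⟨⟨g.1, g.2.1⟩, ?_⟩, ?_⟩
          left_inv := fun g => rfl
          right_inv := fun g => rfl }
      · refine Finset.eq_of_subset_of_card_le ?_ (le_of_eq (Finset.card_smul_finset _ _).symm)
        intro q hq
        obtain ⟨p, hp, rfl⟩ := Finset.mem_smul_finset.1 hq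
        show g.1 p ∈ E
        rwa [g.2.2 p hp]
      · exact Equiv.ext fun p => Subtype.ext (g.2.2 p.1 p.2)
    rw [← Subgroup.card_mul_index φ.ker, hker, Subgroup.index_ker,
      MonoidHom.range_eq_top.2 hsur, Subgroup.card_top, Nat.card_eq_fintype_card,
      Fintype.card_perm, Fintype.card_coe, hE]
    decide

end CfsgLib.ExtraspecialLarge.SixSets
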