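import Cfsg.Agent.Lib.ExtraspecialLarge.RootReflectionCert
import Cfsg.Agent.Lib.ExtraspecialLarge.Y555Data

/-!
# The spider relation implies the arm relations in Y₅₅₅

Abstract form: eleven elements satisfying the Coxeter relations of the graph Y₅₃₂
(`a b1 b2 b3 c1 c2 c3 d1 d2 e1 f1`, in this order) and two consequences of the spider relation satisfy
`f1 = (a b1 b2 b3 c1 c2 d1)^9`.
-/

set_option autoImplicit false

namespace CfsgLib.ExtraspecialLarge.Y555

open RootRefl

/-- neighbour lists -/
def nb11 (i : ℕ) : List ℕ :=
  [[1, 2, 3], [0, 4], [0, 5], [0, 6], [1, 7], [2, 8], [3], [4, 9], [5], [7, 10], [9]].getD i []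

lemma graph11 : Graph 11 nb11 where
  lt := by decide
  irr := by decide
  symm := by decide
  nodup := by decide

/-- the first seed -/
def seedA : Entry := ⟨unitVec 11 7, [12, 9, 7, 8, 6, 2, 4, 1, 0, 0, 0], 11, []⟩
/-- the second seed -/
def seedB : Entry := ⟨unitVec 11 8, [12, 7, 9, 8, 2, 6, 4, 0, 1, 0, 0], 11, []⟩

/-- the seed of the second phase -/
def seedC : Entry := ⟨unitVec 11 10, [12, 10, 8, 6, 8, 4, 0, 6, 0, 4, 1], 11, []⟩

/-- equalities available from a list of entries -/
def eqVia (env : List Entry) (a b : List ℕ) : Bool :=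
  a == b || env.any fun e => (e.lhs == a && e.rhs == b) || (e.lhs == b && e.rhs == a)

/-- two lists of roots with entrywise equal elements -/
def sameL (env : List Entry) (l l' : List (List ℕ)) : Bool :=
  l.length == l'.length && (l.zip l').all fun p => eqVia env p.1 p.2

section
variable {G : Type*} [Group G] {s : ℕ → G}

local notation "R" => rootElt 11 nb11 s
local notation "W" => wp s

lemma eqVia_sound {env : List Entry} (H : ∀ (k : ℕ) (e : Entry), env[k]? = some e → e.Holds 11 nb11 s)
    {a b : List ℕ} (h : eqVia env a b = true) : R a = R b := by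
  simp only [eqVia, Bool.or_eq_true, beq_iff_eq, List.any_eq_true, Bool.and_eq_true] at h
  rcases h with h | ⟨e, he, h⟩
  · rw [h]
  · obtain ⟨k, hk⟩ := List.getElem?_of_mem he
    have := (H k e hk).2.2
    rcases h with ⟨h1, h2⟩ | ⟨h1, h2⟩
    · rw [← h1, ← h2, this]
    · rw [← h1, ← h2, this]

lemma sameL_sound {env : List Entry} (H : ∀ (k : ℕ) (e : Entry), env[k]? = some e → e.Holds 11 nb11 s) :
    ∀ {l l' : List (List ℕ)}, sameL env l l' = true → l.map R = l'.map R
  | [], [], _ => rfl
  | [], _ :: _, h => by simp [sameL] at h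
  | _ :: _, [], h => by simp [sameL] at h
  | a :: l, b :: l', h => by
    simp only [sameL, List.zip_cons_cons, List.all_cons, List.length_cons, Bool.and_eq_true,
      beq_iff_eq] at h
    have : sameL env l l' = true := by
      simp only [sameL, Bool.and_eq_true, beq_iff_eq]; exact ⟨by omega, h.2.2⟩
    rw [List.map_cons, List.map_cons, eqVia_sound H h.2.1, sameL_sound H this]

lemma commute_of_del (hs : Cox 11 nb11 s) {w : List ℕ} {i : ℕ} {c : List (ℕ × ℕ)}
    (hw : okW 11 w = true) (hi : i < 11)
    (h : delCheck nb11 11 (w ++ [i] ++ w.reverse ++ [i]) c = true) : Commute (W w) (s i) := by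
  have h1 := delCheck_sound graph11 hs (okW_iff.2 (by
    intro k hk
    simp only [List.mem_append, List.mem_reverse, List.mem_singleton] at hk
    rcases hk with ((hk | hk) | hk) | hk <;>
      first | exact okW_iff.1 hw k hk | omega)) h
  rw [wp_append, wp_append, wp_append, wp_reverse hs hw, wp_singleton] at h1
  have hinv : (s i)⁻¹ = s i := inv_eq_of_mul_eq_one_right (hs.sq i hi)
  rw [mul_eq_one_iff_eq_inv, hinv, mul_inv_eq_iff_eq_mul] at h1
  exact h1

lemma commute_wp {x : G} : ∀ {w : List ℕ}, (∀ i ∈ w, Commute x (s i)) → Commute x (W w)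
  | [], _ => by rw [wp_nil]; exact Commute.one_right x
  | i :: w, h => by
    rw [wp_cons]
    exact (h i List.mem_cons_self).mul_right (commute_wp fun j hj => h j (List.mem_cons_of_mem _ hj))

lemma conj_prod (g : G) : ∀ l : List G, g * l.prod * g⁻¹ = (l.map fun x => g * x * g⁻¹).prod
  | [] => by simp
  | a :: l => by rw [List.map_cons, List.prod_cons, List.prod_cons, ← conj_prod g l]; group

lemma map_track (hs : Cox 11 nb11 s) {g : List ℕ} (hg : okW 11 g = true) :
    ∀ l : List (List ℕ), (∀ v ∈ l, IsRoot 11 nb11 s v) →
      (l.map (track nb11 11 g)).map R = (l.map R).map (fun x => W g * x * (W g)⁻¹)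
  | [], _ => rfl
  | a :: l, h => by
    simp only [List.map_cons]
    rw [map_track hs hg l fun v hv => h v (List.mem_cons_of_mem _ hv),
      rootElt_track graph11 hs (h a List.mem_cons_self) hg]

lemma prod_sq : ∀ {l : List G}, l.Pairwise Commute → (∀ x ∈ l, x * x = 1) → l.prod * l.prod = 1
  | [], _, _ => by simp
  | a :: l, h, h2 => by
    rw [List.pairwise_cons] at h
    have hc : Commute a l.prod := Commute.list_prod_right _ _ h.1
    have ih := prod_sq h.2 fun x hx => h2 x (List.mem_cons_of_mem _ hx)
    rw [List.prod_cons]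
    calc a * l.prod * (a * l.prod) = a * (l.prod * a) * l.prod := by group
      _ = (a * a) * (l.prod * l.prod) := by rw [← hc.eq]; group
      _ = 1 := by rw [h2 a List.mem_cons_self, ih, mul_one]

/-- names of the standard frame -/
def f0 : List (List ℕ × ℕ) := p6names ++ [thAname, th8name]

/-- names of the E₇ frame -/
def f7 : List (List ℕ × ℕ) := p6names ++ [thAname]

/-- names of the mirror E₇ frame -/
def f7b : List (List ℕ × ℕ) := p6names ++ [thBname]

/-- word of a product of reflections -/
def frameWord (l : List (List ℕ × ℕ)) : List ℕ := (l.map rootWord).flatten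

lemma wp_frameWord (hs : Cox 11 nb11 s) {l : List (List ℕ × ℕ)} (h : l.all (okR 11) = true) :
    W (frameWord l) = ((l.map (rootVec nb11 11)).map R).prod := by
  rw [frameWord, wp_flatten, List.map_map, List.map_map]
  congr 1
  refine List.map_congr_left fun p hp => ?_
  exact wp_rootWord graph11 hs (List.all_eq_true.1 h p hp)

set_option maxHeartbeats 2000000 in
theorem arm_relation (hs : Cox 11 nb11 s) (hA : seedA.Holds 11 nb11 s) (hB : seedB.Holds 11 nb11 s) :
    s 10 = W [0, 1, 2, 3, 4, 5, 7] ^ 9 := by
  have hgr := graph11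
  have hinv : ∀ i, i < 11 → (s i)⁻¹ = s i := fun i hi => inv_eq_of_mul_eq_one_right (hs.sq i hi)
  -- first merge phase
  have H1 : ∀ (k : ℕ) (e : Entry), env1[k]? = some e → e.Holds 11 nb11 s := by
    refine envOK_sound hgr hs (m := 2) ?_ (by decide +kernel)
    intro k e hk he
    interval_cases k
    · obtain rfl : e = seedA := (Option.some.inj (he.symm.trans (by rfl)))
      exact hA
    · obtain rfl : e = seedB := (Option.some.inj (he.symm.trans (by rfl)))
      exact hB
  set z7 := W (frameWord f7) with hz7
  set u := W (frameWord f0) with hu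
  have e7 : z7 = W (frameWord f7b) := by
    have e1 : frameWord f7 = frameWord p6names ++ rootWord thAname := by
      simp [frameWord, f7]
    have e2 : frameWord f7b = frameWord p6names ++ rootWord thBname := by
      simp [frameWord, f7b]
    rw [hz7, e1, e2, wp_append, wp_append, wp_rootWord hgr hs (by decide),
      wp_rootWord hgr hs (by decide), eqVia_sound H1 (a := rootVec nb11 11 thAname)
        (b := rootVec nb11 11 thBname) (by decide +kernel)]
  have hz3 : Commute z7 (s 6) := by
    rw [e7]; exact commute_of_del hs (c := cZbC3) (by decide +kernel) (by omega) (by decide +kernel)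
  have hz8 : Commute z7 (s 8) := by
    rw [e7]; exact commute_of_del hs (c := cZbD2) (by decide +kernel) (by omega) (by decide +kernel)
  have hupow : u = (z7 * s 9) ^ 3 := by
    have h := delCheck_sound hgr hs (w := frameWord f0 ++
      (List.replicate 3 (frameWord f7 ++ [9])).flatten.reverse) (cs := cUPow) (by decide +kernel)
      (by decide +kernel)
    rw [wp_append, wp_reverse hs (by decide +kernel), wp_replicate, wp_append, wp_singleton,
      mul_inv_eq_one] at h
    exact h
  have hcomm : ∀ i, i < 10 → Commute u (s i) := by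
    intro i hi
    interval_cases i
    · exact commute_of_del hs (c := cUComm0) (by decide +kernel) (by omega) (by decide +kernel)
    · exact commute_of_del hs (c := cUComm1) (by decide +kernel) (by omega) (by decide +kernel)
    · exact commute_of_del hs (c := cUComm2) (by decide +kernel) (by omega) (by decide +kernel)
    · exact commute_of_del hs (c := cUComm3) (by decide +kernel) (by omega) (by decide +kernel)
    · exact commute_of_del hs (c := cUComm4) (by decide +kernel) (by omega) (by decide +kernel)
    · exact commute_of_del hs (c := cUComm5) (by decide +kernel) (by omega) (by decide +kernel)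
    · rw [hupow]
      exact (hz3.mul_left (hs.comm 9 (by omega) 6 (by omega) (by omega) (by decide))).pow_left 3
    · exact commute_of_del hs (c := cUComm7) (by decide +kernel) (by omega) (by decide +kernel)
    · rw [hupow]
      exact (hz8.mul_left (hs.comm 9 (by omega) 8 (by omega) (by omega) (by decide))).pow_left 3
    · exact commute_of_del hs (c := cUComm9) (by decide +kernel) (by omega) (by decide +kernel)
  -- the standard frame
  set V0 := f0.map (rootVec nb11 11) with hV0
  have hok0 : ∀ p ∈ f0, okR 11 p = true := List.all_eq_true.1 (by decide : f0.all (okR 11) = true)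
  have huV : u = (V0.map R).prod := wp_frameWord hs (by decide)
  have hroot0 : ∀ v ∈ V0, IsRoot 11 nb11 s v := by
    intro v hv
    obtain ⟨p, hp, rfl⟩ := List.mem_map.1 hv
    exact rootVec_isRoot hgr hs (hok0 p hp)
  have hpair0 : (V0.map R).Pairwise Commute := by
    rw [hV0, List.map_map, List.pairwise_map]
    have h : f0.Pairwise (fun p q => orthB nb11 11 p q = true) := by decide +kernel
    exact h.imp_of_mem fun ha hb hab => orth_commute hgr hs (hok0 _ ha) (hok0 _ hb) hab
  have hframe : ∀ g l, okW 10 g = true → List.Perm (V0.map (track nb11 11 g)) l →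
      (l.map R).prod = u ∧ (l.map R).Pairwise Commute ∧ ∀ x ∈ l.map R, x * x = 1 := by
    intro g l hg hperm
    have hg11 : okW 11 g = true := okW_iff.2 fun i hi => by
      have := okW_iff.1 hg i hi; omega
    have e := map_track hs hg11 V0 hroot0
    have hp1 : ((V0.map (track nb11 11 g)).map R).Pairwise Commute := by
      rw [e, List.pairwise_map]
      exact hpair0.imp fun {a b} hab => Commute.map hab (MulAut.conj (W g)).toMonoidHom
    have hp2 : List.Perm ((V0.map (track nb11 11 g)).map R) (l.map R) := hperm.map _
    refine ⟨?_, hp2.pairwise hp1 (fun {_ _} h => h.symm), ?_⟩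
    · rw [← hp2.prod_eq' hp1, e, ← conj_prod, ← huV]
      have hc : Commute u (W g) := commute_wp fun i hi => hcomm i (okW_iff.1 hg i hi)
      rw [mul_inv_eq_iff_eq_mul]; exact hc.symm.eq
    · intro x hx
      obtain ⟨v, hv, rfl⟩ := List.mem_map.1 hx
      obtain ⟨v', hv', rfl⟩ := List.mem_map.1 (hperm.symm.subset hv)
      exact rootElt_sq hgr hs ((hroot0 v' hv').track hgr hs hg11)
  have hu1 : u = 1 := by
    obtain ⟨p1, q1, i1⟩ := hframe sysWord0 (trioA ++ trioB) (by decide) (List.isPerm_iff.1 (by decide +kernel))
    obtain ⟨p2, -, -⟩ := hframe sysWord1 (trioA2 ++ trioC) (by decide) (List.isPerm_iff.1 (by decide +kernel))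
    obtain ⟨p3, -, -⟩ := hframe sysWord2 (trioB3 ++ trioC3) (by decide) (List.isPerm_iff.1 (by decide +kernel))
    rw [List.map_append, List.prod_append] at p1 p2 p3
    rw [List.map_append, List.pairwise_append] at q1
    have hA2 := sameL_sound H1 (l := trioA2) (l' := trioA) (by decide +kernel)
    have hB3 := sameL_sound H1 (l := trioB3) (l' := trioB) (by decide +kernel)
    have hC3 := sameL_sound H1 (l := trioC3) (l' := trioC) (by decide +kernel)
    rw [hA2] at p2
    rw [hB3, hC3] at p3
    have hAB : Commute (trioA.map R).prod (trioB.map R).prod :=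
      Commute.list_prod_left _ _ fun x hx => Commute.list_prod_right _ _ fun y hy => q1.2.2 x hx y hy
    have hAA : (trioA.map R).prod * (trioA.map R).prod = 1 :=
      prod_sq q1.1 fun x hx => i1 x (by rw [List.map_append]; exact List.mem_append_left _ hx)
    have : u * u = u := by
      calc u * u = (trioA.map R).prod * (trioB.map R).prod * ((trioA.map R).prod * (trioC.map R).prod) := by
            rw [p1, p2]
        _ = (trioA.map R).prod * ((trioB.map R).prod * (trioA.map R).prod) * (trioC.map R).prod := by group
        _ = ((trioA.map R).prod * (trioA.map R).prod) * ((trioB.map R).prod * (trioC.map R).prod) := by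
            rw [← hAB.eq]; group
        _ = u := by rw [hAA, p3, one_mul]
    exact mul_left_cancel (this.trans (mul_one u).symm)
  -- z = the reflection in the highest root of E₈
  set θ := rootVec nb11 11 th8name with hθ
  set fv := unitVec 11 10 with hfv
  have hθr : IsRoot 11 nb11 s θ := rootVec_isRoot hgr hs (by decide)
  have hzθ : z7 = R θ := by
    have h1 : u = z7 * R θ := by
      have e : frameWord f0 = frameWord f7 ++ rootWord th8name := by simp [frameWord, f0, f7]
      rw [hu, e, wp_append, wp_rootWord hgr hs (by decide)]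
    rw [hu1] at h1
    rw [eq_comm, mul_eq_one_iff_eq_inv] at h1
    rw [h1, inv_eq_of_mul_eq_one_right (rootElt_sq hgr hs hθr)]
  have hfθ : Commute (R θ) (s 10) := by
    rw [← hzθ]; exact commute_of_del hs (c := cPF) (by decide +kernel) (by omega) (by decide +kernel)
  have hz : W [0, 1, 2, 3, 4, 5, 7] ^ 9 = z7 := by
    have h := delCheck_sound hgr hs (w := (List.replicate 9 [0, 1, 2, 3, 4, 5, 7]).flatten ++
      (frameWord f7).reverse) (cs := cZ) (by decide +kernel) (by decide +kernel)
    rw [wp_append, wp_reverse hs (by decide +kernel), wp_replicate, mul_inv_eq_one] at h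
    exact h
  -- second merge phase
  have H2 : ∀ (k : ℕ) (e : Entry), env2[k]? = some e → e.Holds 11 nb11 s := by
    refine envOK_sound hgr hs (m := 2) ?_ (by decide +kernel)
    intro k e hk he
    interval_cases k
    · obtain rfl : e = seedA := (Option.some.inj (he.symm.trans (by rfl)))
      exact hA
    · obtain rfl : e = seedC := Option.some.inj (he.symm.trans (by rfl))
      have hf : IsRoot 11 nb11 s fv := ⟨_, Rep.base 10 (by omega)⟩
      have e : seedC.rhs = track nb11 11 (rootWord th8name) fv := by decide +kernel
      refine ⟨hf, e ▸ hf.track hgr hs (by decide), ?_⟩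
      change R fv = R seedC.rhs
      rw [e, rootElt_track hgr hs hf (by decide), rootElt_unitVec hgr hs (by omega),
        wp_rootWord hgr hs (by decide), hfθ.eq, mul_inv_cancel_right]
  -- the three base translations
  set t0 := R (rootVec nb11 11 fline1) * R (rootVec nb11 11 fline0) with ht0
  set t1 := R (rootVec nb11 11 fline3) * R (rootVec nb11 11 fline2) with ht1
  set t2 := R (rootVec nb11 11 fline5) * R (rootVec nb11 11 fline4) with ht2
  have hf1 : rootVec nb11 11 fline1 = fv := by decide +kernel
  have hf0 : rootVec nb11 11 fline0 = θ := by decide +kernel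
  have hsq0 : t0 * t0 = 1 := by
    rw [ht0, hf1, hf0, rootElt_unitVec hgr hs (by omega : (10:ℕ) < 11)]
    calc s 10 * R θ * (s 10 * R θ) = s 10 * (R θ * s 10) * R θ := by group
      _ = s 10 * (s 10 * R θ) * R θ := by rw [hfθ.eq]
      _ = (s 10 * s 10) * (R θ * R θ) := by group
      _ = 1 := by rw [hs.sq 10 (by omega), rootElt_sq hgr hs hθr, one_mul]
  have hr0 : IsRoot 11 nb11 s (rootVec nb11 11 fline0) := rootVec_isRoot hgr hs (by decide)
  have hr1 : IsRoot 11 nb11 s (rootVec nb11 11 fline1) := rootVec_isRoot hgr hs (by decide)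
  have hc1 : t1 = W tauConj1 * t0 * (W tauConj1)⁻¹ := by
    rw [ht1, ht0,
      show rootVec nb11 11 fline3 = track nb11 11 tauConj1 (rootVec nb11 11 fline1) by decide +kernel,
      show rootVec nb11 11 fline2 = track nb11 11 tauConj1 (rootVec nb11 11 fline0) by decide +kernel,
      rootElt_track hgr hs hr1 (by decide), rootElt_track hgr hs hr0 (by decide)]
    group
  have hc2 : t2 = W tauConj2 * t0 * (W tauConj2)⁻¹ := by
    rw [ht2, ht0,
      show rootVec nb11 11 fline5 = track nb11 11 tauConj2 (rootVec nb11 11 fline1) by decide +kernel,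
      show rootVec nb11 11 fline4 = track nb11 11 tauConj2 (rootVec nb11 11 fline0) by decide +kernel,
      rootElt_track hgr hs hr1 (by decide), rootElt_track hgr hs hr0 (by decide)]
    group
  have hsq1 : t1 * t1 = 1 := by
    rw [hc1, conj_mul, hsq0]; group
  have hsq2 : t2 * t2 = 1 := by
    rw [hc2, conj_mul, hsq0]; group
  have hline : t0 = t1 * t2 := by
    have h := delCheck_sound hgr hs (w := (rootWord fline1 ++ rootWord fline0) ++
      ((rootWord fline3 ++ rootWord fline2) ++ (rootWord fline5 ++ rootWord fline4)).reverse)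
      (cs := cLine) (by decide +kernel) (by decide +kernel)
    rw [wp_append, wp_reverse hs (by decide +kernel), mul_inv_eq_one] at h
    simp only [wp_append] at h
    rw [wp_rootWord hgr hs (by decide), wp_rootWord hgr hs (by decide), wp_rootWord hgr hs (by decide),
      wp_rootWord hgr hs (by decide), wp_rootWord hgr hs (by decide), wp_rootWord hgr hs (by decide)] at h
    rw [ht0, ht1, ht2, h]
  have hcom12 : Commute t1 t2 := by
    have e : t1 * t2 * (t1 * t2) = 1 := by rw [← hline, hsq0]
    have i1 := inv_eq_of_mul_eq_one_right hsq1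
    have i2 := inv_eq_of_mul_eq_one_right hsq2
    have := mul_eq_one_iff_eq_inv.1 e
    rw [mul_inv_rev, i1, i2] at this
    exact this
  -- the five lines through seven points
  let P : ℕ → G := fun x => R (points.getD x ([], [])).2 * R (points.getD x ([], [])).1
  have hL : ∀ g x y z, okW 11 g = true →
      sameL env2 (([fline0, fline1, fline2, fline3, fline4, fline5].map (rootVec nb11 11)).map (track nb11 11 g))
        [(points.getD x ([], [])).1, (points.getD x ([], [])).2, (points.getD y ([], [])).1,
         (points.getD y ([], [])).2, (points.getD z ([], [])).1, (points.getD z ([], [])).2] = true →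
      P x = P y * P z ∧ Commute (P y) (P z) ∧ P z * P z = 1 ∧
        P z = W g * t2 * (W g)⁻¹ := by
    intro g x y z hg h
    have h' := sameL_sound H2 h
    simp only [List.map_cons, List.map_nil, List.cons.injEq, and_true] at h'
    obtain ⟨a0, a1, a2, a3, a4, a5⟩ := h'
    have hk : ∀ p, okR 11 p = true →
        R (track nb11 11 g (rootVec nb11 11 p)) = W g * R (rootVec nb11 11 p) * (W g)⁻¹ :=
      fun p hp => rootElt_track hgr hs (rootVec_isRoot hgr hs hp) hg
    rw [hk _ (by decide)] at a0 a1 a2 a3 a4 a5
    have b0 : P x = W g * t0 * (W g)⁻¹ := by simp only [P, ← a0, ← a1, ht0]; group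
    have b1 : P y = W g * t1 * (W g)⁻¹ := by simp only [P, ← a2, ← a3, ht1]; group
    have b2 : P z = W g * t2 * (W g)⁻¹ := by simp only [P, ← a4, ← a5, ht2]; group
    refine ⟨?_, ?_, ?_, b2⟩
    · rw [b0, b1, b2, hline, conj_mul]
    · rw [b1, b2]; exact hcom12.map (MulAut.conj (W g)).toMonoidHom
    · rw [b2, conj_mul, hsq2]; group
  obtain ⟨l1, -, -, -⟩ := hL lineWord0 1 2 3 (by decide) (by decide +kernel)
  obtain ⟨l2, -, -, -⟩ := hL lineWord1 4 5 6 (by decide) (by decide +kernel)
  obtain ⟨l3, -, hP0, c3⟩ := hL lineWord2 1 4 0 (by decide) (by decide +kernel)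
  obtain ⟨l4, -, -, -⟩ := hL lineWord3 2 5 0 (by decide) (by decide +kernel)
  obtain ⟨l5, c60, -, -⟩ := hL lineWord4 3 6 0 (by decide) (by decide +kernel)
  have h14 : P 1 = P 4 := by
    calc P 1 = P 5 * P 0 * (P 6 * P 0) := by rw [l1, l4, l5]
      _ = P 5 * ((P 0 * P 6) * P 0) := by group
      _ = P 5 * ((P 6 * P 0) * P 0) := by rw [c60.eq]
      _ = P 5 * P 6 * (P 0 * P 0) := by group
      _ = P 4 := by rw [hP0, mul_one, l2]
  have hP1 : P 0 = 1 := by
    rw [h14] at l3
    exact mul_eq_left.1 l3.symm
  have ht : t0 = 1 := by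
    rw [hP1] at c3
    have : t2 = 1 := conj_eq_one_iff.1 c3.symm
    rw [this] at hc2
    exact conj_eq_one_iff.1 hc2.symm
  rw [ht0, hf1, hf0, rootElt_unitVec hgr hs (by omega : (10:ℕ) < 11), mul_eq_one_iff_eq_inv,
    inv_eq_of_mul_eq_one_right (rootElt_sq hgr hs hθr)] at ht
  rw [hz, hzθ, ht]

end
end CfsgLib.ExtraspecialLarge.Y555
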